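import Mathlib
import Cfsg.Prelude.Def_Classical
import Cfsg.Prelude.Def_ClassicalGeometry

/-!
Isometry groups of forms transported along a ring isomorphism of the fields.
-/

set_option autoImplicit false

namespace Cfsg.Agent.H5

open scoped Matrix

variable {ι : Type} [Fintype ι] [DecidableEq ι] {F F' : Type*} [Field F] [Field F']

/-- The entrywise isomorphism of general linear groups. -/
def glRingEquiv (e : F ≃+* F') : GL ι F ≃* GL ι F' := Units.mapEquiv e.mapMatrix.toMulEquiv

theorem glRingEquiv_mulVec (e : F ≃+* F') (g : GL ι F) (v : ι → F) :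
    ((glRingEquiv e g : GL ι F') : Matrix ι ι F') *ᵥ (e ∘ v) = e ∘ ((g : Matrix ι ι F) *ᵥ v) := by
  funext i
  simp [glRingEquiv, Matrix.mulVec, dotProduct, map_sum, map_mul]

theorem isometryGroup_map (e : F ≃+* F') {f : (ι → F) → F} {f' : (ι → F') → F'}
    (h : ∀ v, f' (e ∘ v) = e (f v)) :
    (Cfsg.isometryGroup F f).map (glRingEquiv e).toMonoidHom = Cfsg.isometryGroup F' f' := by
  have hmap : (Cfsg.isometryGroup F' f').comap (glRingEquiv e).toMonoidHom = Cfsg.isometryGroup F f := by
    ext g
    constructor
    · intro hg u _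
      apply e.injective
      show e (f ((g : Matrix ι ι F) *ᵥ u)) = e (f u)
      rw [← h, ← h, ← glRingEquiv_mulVec]
      exact hg (e ∘ u) (e ∘ u)
    · intro hg u _
      show f' (((glRingEquiv e g : GL ι F') : Matrix ι ι F') *ᵥ u) = f' u
      have hu : u = e ∘ (e.symm ∘ u) := by funext i; simp
      rw [hu, glRingEquiv_mulVec, h, h]
      exact congrArg e (hg (e.symm ∘ u) (e.symm ∘ u))
  rw [← hmap]
  exact Subgroup.map_comap_eq_self_of_surjective (glRingEquiv e).surjective _

/-- Isometry groups of forms corresponding under a ring isomorphism. -/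
noncomputable def isometryTransport (e : F ≃+* F') {f : (ι → F) → F} {f' : (ι → F') → F'}
    (h : ∀ v, f' (e ∘ v) = e (f v)) : Cfsg.isometryGroup F f ≃* Cfsg.isometryGroup F' f' :=
  ((glRingEquiv e).subgroupMap (Cfsg.isometryGroup F f)).trans
    (MulEquiv.subgroupCongr (isometryGroup_map e h))

theorem coe_isometryTransport (e : F ≃+* F') {f : (ι → F) → F} {f' : (ι → F') → F'}
    (h : ∀ v, f' (e ∘ v) = e (f v)) (g : Cfsg.isometryGroup F f) :
    ((isometryTransport e h g : Cfsg.isometryGroup F' f') : GL ι F') = glRingEquiv e (g : GL ι F) :=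
  rfl

/-- Special isometry groups of forms corresponding under a ring isomorphism. -/
theorem nonempty_specialIsometry_transport (e : F ≃+* F') {f : (ι → F) → F} {f' : (ι → F') → F'}
    (h : ∀ v, f' (e ∘ v) = e (f v)) :
    Nonempty (Cfsg.specialIsometryGroup F f ≃* Cfsg.specialIsometryGroup F' f') := by
  have key : (Cfsg.specialIsometryGroup F f).map (isometryTransport e h).toMonoidHom =
      Cfsg.specialIsometryGroup F' f' := by
    have hc : (Cfsg.specialIsometryGroup F' f').comap (isometryTransport e h).toMonoidHom =
        Cfsg.specialIsometryGroup F f := by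
      ext g
      have hd : (((glRingEquiv e (g : GL ι F)) : GL ι F') : Matrix ι ι F').det =
          e ((g : GL ι F) : Matrix ι ι F).det := (RingHom.map_det e.toRingHom _).symm
      simp only [Subgroup.mem_comap, Cfsg.specialIsometryGroup, MonoidHom.mem_ker,
        MonoidHom.comp_apply, Subgroup.coe_subtype, Units.ext_iff, Units.val_one,
        Matrix.GeneralLinearGroup.val_det_apply, MulEquiv.coe_toMonoidHom, coe_isometryTransport]
      rw [hd, EmbeddingLike.map_eq_one_iff]
    rw [← hc]
    exact Subgroup.map_comap_eq_self_of_surjective (isometryTransport e h).surjective _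
  exact ⟨((isometryTransport e h).subgroupMap _).trans (MulEquiv.subgroupCongr key)⟩

end Cfsg.Agent.H5
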