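import Cfsg.Agent.H4.Orders
import Cfsg.Agent.H5.OmegaForms

/-!
`O⁻₄(2)` and `SO₃(3)` as permutation groups.
-/

set_option autoImplicit false

namespace Cfsg.Agent.H5

open scoped Matrix

/-- The index type of the four-dimensional space. -/
abbrev idxM : Type := (Fin 1 ⊕ Fin 1) ⊕ Fin 2

/-- The index type of the three-dimensional space. -/
abbrev idxO : Type := Unit ⊕ (Fin 1 ⊕ Fin 1)

/-- An action of a group by self-maps as permutations. -/
def permOfEnd {G X : Type*} [Group G] (φ : G →* Function.End X) : G →* Equiv.Perm X where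
  toFun g :=
    ⟨φ g, φ g⁻¹, fun x => by
      have h : φ (g⁻¹ * g) x = x := by rw [inv_mul_cancel, map_one]; rfl
      rw [map_mul] at h; exact h,
    fun x => by
      have h : φ (g * g⁻¹) x = x := by rw [mul_inv_cancel, map_one]; rfl
      rw [map_mul] at h; exact h⟩
  map_one' := Equiv.ext fun x => by
    change φ 1 x = x
    rw [map_one]; rfl
  map_mul' g h := Equiv.ext fun x => by
    change φ (g * h) x = φ g (φ h x)
    rw [map_mul]; rfl

theorem permOfEnd_apply {G X : Type*} [Group G] (φ : G →* Function.End X) (g : G) (x : X) :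
    permOfEnd φ g x = φ g x := rfl

/-- The non-zero singular vectors of `x y + z₁² + z₁ z₂ + z₂²` over two elements. -/
abbrev minusFourPts : Type :=
  {v : (Fin 1 ⊕ Fin 1) ⊕ Fin 2 → ZMod 2 // Cfsg.quadFormMinus 1 (ZMod 2) 1 1 v = 0 ∧ v ≠ 0}

/-- The action on the five singular vectors. -/
def minusFourHom : Cfsg.isometryGroup (ZMod 2) (Cfsg.quadFormMinus 1 (ZMod 2) 1 1) →*
    Function.End minusFourPts where
  toFun g v := ⟨((g : GL idxM (ZMod 2)) : Matrix idxM idxM (ZMod 2)) *ᵥ v.1, by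
    rw [mem_isometryGroup.1 g.2 v.1]
    refine ⟨v.2.1, fun h => v.2.2 ?_⟩
    have := congrArg (fun w => (((g⁻¹ : GL idxM (ZMod 2))) : Matrix idxM idxM (ZMod 2)) *ᵥ w) h
    simpa [Matrix.mulVec_mulVec, ← Units.val_mul] using this⟩
  map_one' := funext fun v => Subtype.ext ((Matrix.one_mulVec v.1).trans rfl)
  map_mul' g h := funext fun v => Subtype.ext (by
    change (((g : GL idxM (ZMod 2)) : Matrix idxM idxM (ZMod 2)) *
        ((h : GL idxM (ZMod 2)) : Matrix idxM idxM (ZMod 2))) *ᵥ v.1 = _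
    rw [← Matrix.mulVec_mulVec]
    rfl)

theorem nonempty_minus_four_two :
    Nonempty (Cfsg.isometryGroup (ZMod 2) (Cfsg.quadFormMinus 1 (ZMod 2) 1 1) ≃*
      Equiv.Perm (Fin 5)) := by
  let ψ : Cfsg.isometryGroup (ZMod 2) (Cfsg.quadFormMinus 1 (ZMod 2) 1 1) →*
      Equiv.Perm minusFourPts :=
    permOfEnd minusFourHom
  have hcard : Fintype.card minusFourPts = 5 := by decide
  have hinj : Function.Injective ψ := by
    intro g h hgh
    apply Subtype.ext
    apply Units.ext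
    have hv : ∀ v : minusFourPts, ((g : GL idxM (ZMod 2)) : Matrix idxM idxM (ZMod 2)) *ᵥ v.1 =
        ((h : GL idxM (ZMod 2)) : Matrix idxM idxM (ZMod 2)) *ᵥ v.1 := fun v =>
      congrArg Subtype.val (DFunLike.congr_fun hgh v :)
    have key : ∀ i : idxM, ∃ a b c : minusFourPts,
        ∀ j, (Pi.single i 1 : idxM → ZMod 2) j = (a.1 + b.1 + c.1) j := by
      let ex : minusFourPts := ⟨Sum.elim (Sum.elim ![1] ![0]) ![0, 0], by decide⟩
      let ey : minusFourPts := ⟨Sum.elim (Sum.elim ![0] ![1]) ![0, 0], by decide⟩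
      intro i
      rcases i with (i | i) | i
      · fin_cases i
        exact ⟨ex, ex, ex, by decide⟩
      · fin_cases i
        exact ⟨ey, ey, ey, by decide⟩
      · fin_cases i
        · exact ⟨ex, ey, ⟨Sum.elim (Sum.elim ![1] ![1]) ![1, 0], by decide⟩, by decide⟩
        · exact ⟨ex, ey, ⟨Sum.elim (Sum.elim ![1] ![1]) ![0, 1], by decide⟩, by decide⟩
    refine Matrix.ext_of_mulVec_single fun i => ?_
    obtain ⟨a, b, c, habc⟩ := key i
    rw [show (Pi.single i 1 : idxM → ZMod 2) = a.1 + b.1 + c.1 from funext habc]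
    simp only [Matrix.mulVec_add, hv]
  have horder : Nat.card (Cfsg.isometryGroup (ZMod 2) (Cfsg.quadFormMinus 1 (ZMod 2) 1 1)) = 120 := by
    rw [H4.card_isometryGroup (H4.qMinus 1 (ZMod 2) 1 1) (H4.coe_qMinus 1 1 1)]
    have h := H4.card_qIsoms_qMinus (F := ZMod 2) (a := 1) (b := 1) (by decide) (by decide) 1
    simp [ZMod.card] at h
    exact_mod_cast h
  haveI : Finite (Cfsg.isometryGroup (ZMod 2) (Cfsg.quadFormMinus 1 (ZMod 2) 1 1)) :=
    Nat.finite_of_card_ne_zero (by omega)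
  have hbij : Function.Bijective ψ := by
    refine (Nat.bijective_iff_injective_and_card ψ).2 ⟨hinj, ?_⟩
    rw [horder, Nat.card_perm, Nat.card_eq_fintype_card, hcard]
    rfl
  exact ⟨(MulEquiv.ofBijective ψ hbij).trans (Fintype.equivFinOfCardEq hcard).permCongrHom⟩

/-- The normalised representative of a line. -/
def lineRep (v : Unit ⊕ (Fin 1 ⊕ Fin 1) → ZMod 3) : Unit ⊕ (Fin 1 ⊕ Fin 1) → ZMod 3 :=
  if v (.inl ()) = 1 ∨ (v (.inl ()) = 0 ∧ (v (.inr (.inl 0)) = 1 ∨
    (v (.inr (.inl 0)) = 0 ∧ v (.inr (.inr 0)) = 1))) then v else -v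

/-- The four singular points of `x₀² + x₁ y₁` over three elements. -/
abbrev oddThreePts : Type :=
  {v : Unit ⊕ (Fin 1 ⊕ Fin 1) → ZMod 3 //
    Cfsg.quadFormOdd 1 (ZMod 3) v = 0 ∧ v ≠ 0 ∧ lineRep v = v}

theorem lineRep_neg : ∀ v, lineRep (-v) = lineRep v := by decide

theorem lineRep_spec : ∀ v : Unit ⊕ (Fin 1 ⊕ Fin 1) → ZMod 3, lineRep v = v ∨ lineRep v = -v :=
  fun v => by unfold lineRep; split_ifs <;> simp

theorem lineRep_idem (v : Unit ⊕ (Fin 1 ⊕ Fin 1) → ZMod 3) : lineRep (lineRep v) = lineRep v := by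
  rcases lineRep_spec v with h | h
  · rw [h, h]
  · rw [h, lineRep_neg, h]

/-- The action on the four singular points. -/
def oddThreeHom : Cfsg.isometryGroup (ZMod 3) (Cfsg.quadFormOdd 1 (ZMod 3)) →*
    Function.End oddThreePts where
  toFun g v := ⟨lineRep (((g : GL idxO (ZMod 3)) : Matrix idxO idxO (ZMod 3)) *ᵥ v.1), by
    have h1 : Cfsg.quadFormOdd 1 (ZMod 3) (((g : GL idxO (ZMod 3)) : Matrix idxO idxO (ZMod 3)) *ᵥ v.1) = 0 := by
      rw [mem_isometryGroup.1 g.2 v.1]; exact v.2.1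
    have h2 : ((g : GL idxO (ZMod 3)) : Matrix idxO idxO (ZMod 3)) *ᵥ v.1 ≠ 0 := fun h => v.2.2.1 (by
      have := congrArg (fun w => (((g⁻¹ : GL idxO (ZMod 3))) : Matrix idxO idxO (ZMod 3)) *ᵥ w) h
      simpa [Matrix.mulVec_mulVec, ← Units.val_mul] using this)
    have hneg : ∀ w : Unit ⊕ (Fin 1 ⊕ Fin 1) → ZMod 3,
        Cfsg.quadFormOdd 1 (ZMod 3) (-w) = Cfsg.quadFormOdd 1 (ZMod 3) w := fun w => by
      simp [Cfsg.quadFormOdd]
    refine ⟨?_, ?_, lineRep_idem _⟩
    · rcases lineRep_spec _ with h | h <;> rw [h]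
      exacts [h1, (hneg _).trans h1]
    · rcases lineRep_spec _ with h | h <;> rw [h]
      exacts [h2, neg_ne_zero.2 h2]⟩
  map_one' := funext fun v => Subtype.ext (by
    change lineRep ((1 : Matrix idxO idxO (ZMod 3)) *ᵥ v.1) = v.1
    rw [Matrix.one_mulVec]; exact v.2.2.2)
  map_mul' g h := funext fun v => Subtype.ext (by
    change lineRep ((((g : GL idxO (ZMod 3)) : Matrix idxO idxO (ZMod 3)) * _) *ᵥ v.1) =
      lineRep (((g : GL idxO (ZMod 3)) : Matrix idxO idxO (ZMod 3)) *ᵥ lineRep _)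
    rw [← Matrix.mulVec_mulVec]
    rcases lineRep_spec (((h : GL idxO (ZMod 3)) : Matrix idxO idxO (ZMod 3)) *ᵥ v.1) with e | e <;> rw [e]
    rw [Matrix.mulVec_neg, lineRep_neg])

theorem nonempty_so_three_three :
    Nonempty (Cfsg.specialIsometryGroup (ZMod 3) (Cfsg.quadFormOdd 1 (ZMod 3)) ≃*
      Equiv.Perm (Fin 4)) := by
  let ψ : Cfsg.specialIsometryGroup (ZMod 3) (Cfsg.quadFormOdd 1 (ZMod 3)) →*
      Equiv.Perm oddThreePts :=
    (permOfEnd oddThreeHom).comp
      (Cfsg.specialIsometryGroup (ZMod 3) (Cfsg.quadFormOdd 1 (ZMod 3))).subtype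
  have hcard : Fintype.card oddThreePts = 4 := by decide
  have hinj : Function.Injective ψ := by
    refine (injective_iff_map_eq_one ψ).2 fun g hg => ?_
    apply Subtype.ext
    apply Subtype.ext
    apply Units.ext
    set M := (((g : Cfsg.isometryGroup (ZMod 3) (Cfsg.quadFormOdd 1 (ZMod 3))) : GL idxO (ZMod 3)) :
      Matrix idxO idxO (ZMod 3)) with hM
    have hdet : M.det = 1 := congrArg Units.val g.2
    have hv : ∀ v : oddThreePts, ∃ t : ZMod 3, M *ᵥ v.1 = t • v.1 := fun v => by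
      have h : lineRep (M *ᵥ v.1) = v.1 := congrArg Subtype.val (DFunLike.congr_fun hg v :)
      rcases lineRep_spec (M *ᵥ v.1) with e | e <;> rw [e] at h
      · exact ⟨1, by rw [h, one_smul]⟩
      · exact ⟨-1, by rw [neg_smul, one_smul]; exact neg_eq_iff_eq_neg.1 h⟩
    obtain ⟨a, ha⟩ := hv ⟨Sum.elim (fun _ => 0) (Sum.elim ![1] ![0]), by decide⟩
    obtain ⟨b, hb⟩ := hv ⟨Sum.elim (fun _ => 0) (Sum.elim ![0] ![1]), by decide⟩
    obtain ⟨c, hc⟩ := hv ⟨Sum.elim (fun _ => 1) (Sum.elim ![1] ![-1]), by decide⟩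
    obtain ⟨d, hd⟩ := hv ⟨Sum.elim (fun _ => 1) (Sum.elim ![-1] ![1]), by decide⟩
    have hrel : (Sum.elim (fun _ => 1) (Sum.elim ![-1] ![1]) : Unit ⊕ (Fin 1 ⊕ Fin 1) → ZMod 3) =
        Sum.elim (fun _ => 1) (Sum.elim ![1] ![-1]) + Sum.elim (fun _ => 0) (Sum.elim ![1] ![0])
          - Sum.elim (fun _ => 0) (Sum.elim ![0] ![1]) := by decide
    have hsum : M *ᵥ (Sum.elim (fun _ => 1) (Sum.elim ![-1] ![1]) : Unit ⊕ (Fin 1 ⊕ Fin 1) → ZMod 3)
        = d • Sum.elim (fun _ => 1) (Sum.elim ![-1] ![1]) := hd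
    conv at hsum => lhs; rw [hrel, Matrix.mulVec_sub, Matrix.mulVec_add]
    simp only [ha, hb, hc] at hsum
    have hall : ∀ a b c d : ZMod 3,
        c • (Sum.elim (fun _ => 1) (Sum.elim ![1] ![-1]) : Unit ⊕ (Fin 1 ⊕ Fin 1) → ZMod 3)
          + a • Sum.elim (fun _ => 0) (Sum.elim ![1] ![0])
          - b • Sum.elim (fun _ => 0) (Sum.elim ![0] ![1])
          = d • Sum.elim (fun _ => 1) (Sum.elim ![-1] ![1]) → a = b ∧ b = c := by decide
    obtain ⟨hab, hbc⟩ := hall a b c d hsum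
    subst hab; subst hbc
    have hscal : M = a • (1 : Matrix (Unit ⊕ (Fin 1 ⊕ Fin 1)) _ (ZMod 3)) := by
      have key : ∀ i : Unit ⊕ (Fin 1 ⊕ Fin 1), ∃ u v w : ZMod 3,
          (Pi.single i 1 : Unit ⊕ (Fin 1 ⊕ Fin 1) → ZMod 3) =
            u • Sum.elim (fun _ => 0) (Sum.elim ![1] ![0]) + v • Sum.elim (fun _ => 0) (Sum.elim ![0] ![1])
            + w • Sum.elim (fun _ => 1) (Sum.elim ![1] ![-1]) := by decide
      refine Matrix.ext_of_mulVec_single fun i => ?_
      obtain ⟨u, v, w, huvw⟩ := key i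
      rw [Matrix.smul_mulVec, Matrix.one_mulVec, huvw]
      simp only [Matrix.mulVec_add, Matrix.mulVec_smul, ha, hb, hc, smul_add, smul_smul, mul_comm]
    rw [hscal, Matrix.det_smul, Matrix.det_one, mul_one] at hdet
    have key3 : ∀ t : ZMod 3, t ^ 3 = 1 → t = 1 := by decide
    have ha1 : a = 1 := key3 a (by simpa [Fintype.card_sum] using hdet)
    rw [hscal, ha1, one_smul]
    rfl
  have horder : Nat.card (Cfsg.specialIsometryGroup (ZMod 3) (Cfsg.quadFormOdd 1 (ZMod 3))) = 24 := by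
    have h := H4.card_qIsoms_qOdd (F := ZMod 3) (by decide) 1
    simp [ZMod.card] at h
    have hO : Nat.card (Cfsg.isometryGroup (ZMod 3) (Cfsg.quadFormOdd 1 (ZMod 3))) = 48 := by
      rw [H4.card_isometryGroup (H4.qOdd 1 (ZMod 3)) (H4.coe_qOdd 1)]
      exact_mod_cast h
    set D := Matrix.GeneralLinearGroup.det.comp
      (Cfsg.isometryGroup (ZMod 3) (Cfsg.quadFormOdd 1 (ZMod 3))).subtype with hD
    have hsurj : Function.Surjective D := by
      intro u
      have hu : u = 1 ∨ u = -1 := by revert u; decide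
      rcases hu with rfl | rfl
      · exact ⟨1, map_one _⟩
      · refine ⟨⟨-1, mem_isometryGroup.2 fun x => by simp [Cfsg.quadFormOdd, Matrix.neg_mulVec]⟩,
          Units.ext ?_⟩
        simp [hD, Matrix.det_neg]
    have h2 : D.ker.index = 2 := by
      rw [Subgroup.index_ker, MonoidHom.range_eq_top_of_surjective D hsurj, Subgroup.card_top,
        Nat.card_eq_fintype_card]
      decide
    have h3 := D.ker.card_mul_index
    rw [h2, hO] at h3
    change Nat.card D.ker = 24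
    omega
  haveI : Finite (Cfsg.specialIsometryGroup (ZMod 3) (Cfsg.quadFormOdd 1 (ZMod 3))) :=
    Nat.finite_of_card_ne_zero (by omega)
  have hbij : Function.Bijective ψ := by
    refine (Nat.bijective_iff_injective_and_card ψ).2 ⟨hinj, ?_⟩
    rw [horder, Nat.card_perm, Nat.card_eq_fintype_card, hcard]
    rfl
  exact ⟨(MulEquiv.ofBijective ψ hbij).trans (Fintype.equivFinOfCardEq hcard).permCongrHom⟩

end Cfsg.Agent.H5
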