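import Cfsg.Agent.H5.StabSingular
import Cfsg.Agent.H5.OmegaForms
import Cfsg.Agent.H98.MaximalBase

/-!
From the orthogonal group of linear maps to `Ω` inside the general linear group.
-/

set_option autoImplicit false

namespace Cfsg.Agent.H5

open scoped Matrix

variable {ι : Type} [Fintype ι] [DecidableEq ι] {F : Type*} [Field F]
  (Q : QuadraticForm F (ι → F)) {f : (ι → F) → F} (hf : ⇑Q = f)

/-- The orthogonal group inside the general linear group. -/
noncomputable def toGLHom : orth Q →* GL ι F :=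
  (Cfsg.isometryGroup F f).subtype.comp (isoEquiv Q hf).symm.toMonoidHom

theorem toGLHom_mulVec (g : orth Q) (x : ι → F) :
    ((toGLHom Q hf g : GL ι F) : Matrix ι ι F) *ᵥ x = (g : (ι → F) ≃ₗ[F] (ι → F)) x :=
  isoEquiv_symm_apply Q hf g x

theorem omegaGL_eq_map : Cfsg.Geo.omegaGL f = (commutator (orth Q)).map (toGLHom Q hf) := by
  rw [toGLHom, ← Subgroup.map_map, Cfsg.Geo.omegaGL]
  congr 1
  ext g
  rw [mem_Omega_iff Q hf, Subgroup.mem_map_equiv]
  simp

theorem toGLHom_mem_stab_iff (W : Submodule F (ι → F)) (g : orth Q) :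
    toGLHom Q hf g ∈ Cfsg.Geo.subspaceStabilizer W ↔ Preserves W g := by
  constructor
  · intro h x hx
    rw [← toGLHom_mulVec Q hf]
    exact ((H98.mem_subspaceStabilizer.1 h) x).1 hx
  · intro h
    refine H98.stab_of_maps_into fun w hw => ?_
    rw [toGLHom_mulVec]
    exact h w hw

/-- Maximality in `Ω` inside the general linear group from generation. -/
theorem isMaximalIn_omegaGL (S : Subgroup (GL ι F))
    (hw : ∃ g ∈ commutator (orth Q), toGLHom Q hf g ∉ S)
    (h : ∀ M : Subgroup (orth Q), (∀ g ∈ commutator (orth Q), toGLHom Q hf g ∈ S → g ∈ M) →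
      ∀ g ∈ M, g ∈ commutator (orth Q) → toGLHom Q hf g ∉ S → commutator (orth Q) ≤ M) :
    Cfsg.Geo.IsMaximalIn (Cfsg.Geo.omegaGL f) (S ⊓ Cfsg.Geo.omegaGL f) := by
  rw [omegaGL_eq_map Q hf]
  refine H98.isMaximalIn_of inf_le_right ?_ ?_
  · obtain ⟨g, hg, hgS⟩ := hw
    exact ⟨_, ⟨g, hg, rfl⟩, fun hm => hgS hm.1⟩
  · intro M hHM hMK x hxM hxH
    obtain ⟨g, hg, rfl⟩ := hMK hxM
    have key := h (M.comap (toGLHom Q hf)) (fun k hk hkS => hHM ⟨hkS, ⟨k, hk, rfl⟩⟩) g hxM hg
      (fun hS => hxH ⟨hS, ⟨g, hg, rfl⟩⟩)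
    exact Subgroup.map_le_iff_le_comap.2 key

include hf in
/-- Stabilisers of totally singular subspaces are maximal. -/
theorem isMaximalIn_stab_singular [Fintype F] (hQ : (QuadraticMap.polarBilin Q).Nondegenerate)
    (hn : 5 ≤ Fintype.card ι) (W : Submodule F (ι → F)) (hW0 : W ≠ ⊥)
    (hW : Cfsg.Geo.IsTotallySingularQuad f W)
    (hno : ∀ U : Submodule F (ι → F), W ≤ U → Cfsg.Geo.IsTotallySingularQuad f U →
      Module.finrank F U = Module.finrank F W + 1 → 2 * Module.finrank F U ≠ Fintype.card ι) :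
    Cfsg.Geo.IsMaximalIn (Cfsg.Geo.omegaGL f)
      (Cfsg.Geo.subspaceStabilizer W ⊓ Cfsg.Geo.omegaGL f) := by
  haveI : Finite (ι → F) := Pi.finite
  have hr : Module.finrank F (ι → F) = Fintype.card ι := Module.finrank_fintype_fun_eq_card F
  have hW' : ∀ w ∈ W, Q w = 0 := fun w hw => by rw [hf]; exact hW w hw
  refine isMaximalIn_omegaGL Q hf _ ?_ ?_
  · obtain ⟨g, hg, hgW⟩ := exists_not_preserves_singular hQ (by omega) hW0 hW'
    exact ⟨g, hg, fun h => hgW ((toGLHom_mem_stab_iff Q hf W g).1 h)⟩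
  · intro M hM g hgM _ hgS
    refine commutator_le_of_singular hQ (by omega) hW' ?_
      (fun k hk hkW => hM k hk ((toGLHom_mem_stab_iff Q hf W k).2 hkW)) hgM
      (fun h => hgS ((toGLHom_mem_stab_iff Q hf W g).2 h))
    intro U hWU hU hdim
    rw [hr]
    exact hno U hWU (fun u hu => by rw [← hf]; exact hU u hu) hdim

end Cfsg.Agent.H5
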