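import Cfsg.Agent.H5.StabNondegGL
import Cfsg.Agent.H5.RootClosure

/-!
A coarser invariant of an orthogonal decomposition into small subspaces shows that its stabiliser is
not maximal.
-/

set_option autoImplicit false

namespace Cfsg.Agent.H5

open QuadraticMap hiding sq
open scoped Matrix

variable {ι : Type} [Fintype ι] [DecidableEq ι] {F : Type*} [Field F] [Fintype F]
  {Q : QuadraticForm F (ι → F)} {f : (ι → F) → F} {t k : ℕ} {D : Fin t → Submodule F (ι → F)}

omit [Fintype F] in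
theorem card_eq_mul_of_mdecomposition (hD : Cfsg.Geo.IsMDecomposition k D) :
    Fintype.card ι = t * k := by
  classical
  have hi := DirectSum.isInternal_submodule_of_iSupIndep_of_iSup_eq_top hD.indep hD.iSup_eq_top
  have b := hi.collectedBasis fun i => Module.finBasisOfFinrankEq F (D i) (hD.finrank_eq i)
  have h := Module.finrank_eq_card_basis b
  simpa using h

omit [Fintype F] [DecidableEq ι] in
theorem member_polar_zero (hf : ⇑Q = f)
    (hD : Cfsg.Geo.IsNondegenerateMDecomposition (QuadraticMap.polar f) k D) {i j : Fin t}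
    (hij : i ≠ j) {u v : ι → F} (hu : u ∈ D i) (hv : v ∈ D j) : polar Q u v = 0 := by
  rw [hf]; exact hD.orthogonal i j hij u hu v hv

/-- A set of vectors canonically attached to the decomposition, preserved by more of `Ω` but not by
all of it. -/
theorem not_maximal_of_set (hf : ⇑Q = f) (S : Set (ι → F))
    (hinv : ∀ g : orth Q,
      (∀ i, ∃ j, ∀ v ∈ D i, (g : (ι → F) ≃ₗ[F] (ι → F)) v ∈ D j) →
      ∀ v ∈ S, (g : (ι → F) ≃ₗ[F] (ι → F)) v ∈ S)
    (hextra : ∃ g ∈ commutator (orth Q), (∀ v ∈ S, (g : (ι → F) ≃ₗ[F] (ι → F)) v ∈ S) ∧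
      ∃ i, ∀ j, ∃ v ∈ D i, (g : (ι → F) ≃ₗ[F] (ι → F)) v ∉ D j)
    (hout : ∃ g ∈ commutator (orth Q), ∃ v ∈ S, (g : (ι → F) ≃ₗ[F] (ι → F)) v ∉ S) :
    ∃ K : Subgroup (GL ι F), Cfsg.Geo.decompositionStabilizer D ⊓ Cfsg.Geo.omegaGL f < K ∧
      K < Cfsg.Geo.omegaGL f := by
  classical
  haveI : Finite (ι → F) := Pi.finite
  have hlin : ∀ g : orth Q, Matrix.toLin' ((toGLHom Q hf g : GL ι F) : Matrix ι ι F) =
      ((g : (ι → F) ≃ₗ[F] (ι → F)) : (ι → F) →ₗ[F] (ι → F)) := fun g =>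
    LinearMap.ext fun v => by rw [Matrix.toLin'_apply]; exact toGLHom_mulVec Q hf g v
  have hmem : ∀ g : orth Q, (toGLHom Q hf g ∈ Cfsg.stabilizing (Cfsg.glToMat ι F) S ↔
      ∀ v ∈ S, (g : (ι → F) ≃ₗ[F] (ι → F)) v ∈ S) := by
    intro g
    have e : ∀ v, (Cfsg.glToMat ι F (toGLHom Q hf g)) *ᵥ v = (g : (ι → F) ≃ₗ[F] (ι → F)) v :=
      toGLHom_mulVec Q hf g
    constructor
    · intro h v hv
      rw [← e]
      exact (h v).1 hv
    · intro h v
      rw [e]
      refine ⟨h v, fun hv => ?_⟩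
      obtain ⟨⟨w, hw⟩, hwv⟩ := (Finite.injective_iff_surjective.1
        (show Function.Injective fun x : S => (⟨_, h x x.2⟩ : S) from fun a b hab =>
          Subtype.ext ((g : (ι → F) ≃ₗ[F] (ι → F)).injective (congrArg Subtype.val hab)))) ⟨_, hv⟩
      exact (g : (ι → F) ≃ₗ[F] (ι → F)).injective (congrArg Subtype.val hwv) ▸ hw
  rw [omegaGL_eq_map Q hf]
  refine ⟨Cfsg.stabilizing (Cfsg.glToMat ι F) S ⊓ (commutator (orth Q)).map (toGLHom Q hf), ?_, ?_⟩
  · refine lt_of_le_not_ge ?_ ?_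
    · rintro x ⟨⟨σ, hσ⟩, g, hg, rfl⟩
      refine ⟨(hmem g).2 (hinv g fun i => ⟨σ i, fun v hv => ?_⟩), g, hg, rfl⟩
      have h := hσ i
      rw [hlin] at h
      exact h ▸ Submodule.mem_map_of_mem hv
    · intro hle
      obtain ⟨g, hg, hgS, i, hi⟩ := hextra
      obtain ⟨σ, hσ⟩ := (hle (show toGLHom Q hf g ∈ _ from ⟨(hmem g).2 hgS, g, hg, rfl⟩)).1
      have h := hσ i
      rw [hlin] at h
      obtain ⟨v, hv, hv'⟩ := hi (σ i)
      exact hv' (h ▸ Submodule.mem_map_of_mem hv)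
  · refine lt_of_le_not_ge inf_le_right fun hle => ?_
    obtain ⟨g, hg, v, hv, hv'⟩ := hout
    exact hv' ((hmem g).1 (hle ⟨g, hg, rfl⟩).1 v hv)

omit [DecidableEq ι] in
/-- A root element moving a given vector by a prescribed orthogonal vector. -/
theorem exists_eich_move (hQ : (polarBilin Q).Nondegenerate) (hn : 5 ≤ Fintype.card ι) {v : ι → F}
    (hv : v ≠ 0) :
    ∃ e p : ι → F, HypPair Q e p ∧ polar Q e v = 1 ∧ v ∈ perp Q (pperp Q e p) ∧
      ∀ a ∈ pperp Q e p, eich Q e a ∈ commutator (orth Q) ∧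
        (eich Q e a : (ι → F) ≃ₗ[F] (ι → F)) v = v + a - Q a • e := by
  haveI : Finite (ι → F) := Pi.finite
  have hr : Module.finrank F (ι → F) = Fintype.card ι := Module.finrank_fintype_fun_eq_card F
  obtain ⟨z, hz⟩ := exists_polar_eq_one hQ hv
  obtain ⟨s, -, hqs, hvs⟩ := exists_singular_polar_ne (Q := Q) (S := ⊤) (y := v) (by
    have : (⊤ : Submodule F (ι → F)) ⊓ perp Q ⊤ = ⊥ := by
      rw [top_inf_eq]; exact LinearMap.BilinForm.orthogonal_top_eq_bot hQ
    rw [this, finrank_bot, finrank_top, hr]; omega) ⟨z, trivial, by rw [hz]; exact one_ne_zero⟩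
  set e := (polar Q v s)⁻¹ • s with he
  have hqe : Q e = 0 := by rw [he, QuadraticMap.map_smul, hqs, smul_zero]
  have hev : polar Q e v = 1 := by
    rw [he, polar_smul_left, polar_comm (⇑Q) s v, smul_eq_mul, inv_mul_cancel₀ hvs]
  have hp := hypPair_of_polar hqe hev
  refine ⟨e, _, hp, hev, mem_perp.2 fun a ha => ?_, fun a ha => ?_⟩
  · obtain ⟨h1, h2⟩ := mem_pperp.1 ha
    rw [polar_comm] at h1 h2
    rw [polar_add_right, polar_smul_right, h1, smul_zero, add_zero] at h2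
    exact h2
  · obtain ⟨h1, h2⟩ := mem_pperp.1 ha
    refine ⟨eich_mem_commutator hQ (by omega) e a, ?_⟩
    rw [polar_add_left, polar_smul_left, h1, smul_zero, add_zero] at h2
    rw [eich_apply hqe h1, hev, polar_comm (⇑Q) a v, h2]
    simp

/-- Decompositions whose members have a rigid orthogonal set of vectors of one norm. -/
theorem not_maximal_frame (hf : ⇑Q = f) (hQ : (polarBilin Q).Nondegenerate) (h2 : (2 : F) ≠ 0)
    (hn : 13 ≤ Fintype.card ι)
    (hD : Cfsg.Geo.IsNondegenerateMDecomposition (QuadraticMap.polar f) k D) (hk : 2 ≤ k)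
    (ht : 3 ≤ t) {c : F} (hc : c ≠ 0) (hex : ∀ i, ∃ u ∈ D i, Q u = c)
    (hpair : ∀ i, ∀ u ∈ D i, ∀ v ∈ D i, Q u = c → Q v = c →
      v = u ∨ v = -u ∨ polar Q u v = 0) :
    ∃ K : Subgroup (GL ι F), Cfsg.Geo.decompositionStabilizer D ⊓ Cfsg.Geo.omegaGL f < K ∧
      K < Cfsg.Geo.omegaGL f := by
  haveI : Finite (ι → F) := Pi.finite
  have hr : Module.finrank F (ι → F) = Fintype.card ι := Module.finrank_fintype_fun_eq_card F
  have h2c : (2 : F) * c ≠ 0 := mul_ne_zero h2 hc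
  have horth : ∀ {i j : Fin t}, i ≠ j → ∀ {u v}, u ∈ D i → v ∈ D j → polar Q u v = 0 :=
    fun hij _ _ hu hv => member_polar_zero hf hD hij hu hv
  choose u hu hqu using hex
  let S : Set (ι → F) := {v | ∃ i, v ∈ D i ∧ Q v = c}
  have huS : ∀ i, u i ∈ S := fun i => ⟨i, hu i, hqu i⟩
  have hnegS : ∀ i, -u i ∈ S := fun i => ⟨i, neg_mem (hu i), by rw [QuadraticMap.map_neg, hqu]⟩
  -- the reflection exchanging two chosen vectors preserves `S`
  have hswap : ∀ {i j : Fin t}, i ≠ j → Q (u i - u j) = 2 * c ∧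
      (∀ x, (refl Q (u i - u j) : (ι → F) ≃ₗ[F] (ι → F)) x =
        x - ((2 * c)⁻¹ * (polar Q (u i) x - polar Q (u j) x)) • (u i - u j)) ∧
      (refl Q (u i - u j) : (ι → F) ≃ₗ[F] (ι → F)) (u i) = u j ∧
      ∀ v ∈ S, (refl Q (u i - u j) : (ι → F) ≃ₗ[F] (ι → F)) v ∈ S := by
    intro i j hij
    have hbij : polar Q (u i) (u j) = 0 := horth hij (hu i) (hu j)
    have hq : Q (u i - u j) = 2 * c := by rw [map_sub', hqu, hqu, hbij]; ring
    have hap : ∀ x, (refl Q (u i - u j) : (ι → F) ≃ₗ[F] (ι → F)) x =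
        x - ((2 * c)⁻¹ * (polar Q (u i) x - polar Q (u j) x)) • (u i - u j) := fun x => by
      rw [refl_apply, hq, polar_sub_left]
    have hself : ∀ l, polar Q (u l) (u l) = 2 * c := fun l => by rw [polar_self', hqu]
    have hi : (refl Q (u i - u j) : (ι → F) ≃ₗ[F] (ι → F)) (u i) = u j := by
      rw [hap, hself, polar_comm (⇑Q) (u j) (u i), hbij, sub_zero, inv_mul_cancel₀ h2c, one_smul,
        sub_sub_cancel]
    have hj : (refl Q (u i - u j) : (ι → F) ≃ₗ[F] (ι → F)) (u j) = u i := by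
      rw [hap, hself, hbij, zero_sub, mul_neg, inv_mul_cancel₀ h2c, neg_one_smul, sub_neg_eq_add,
        add_sub_cancel]
    refine ⟨hq, hap, hi, fun v hv => ?_⟩
    obtain ⟨l, hl, hqv⟩ := hv
    by_cases hli : l = i
    · subst hli
      rcases hpair l _ (hu l) v hl (hqu l) hqv with rfl | rfl | h
      · rw [hi]; exact huS j
      · rw [map_neg, hi]; exact hnegS j
      · rw [hap, h, horth (Ne.symm hij) (hu j) hl, sub_zero, mul_zero, zero_smul, sub_zero]
        exact ⟨l, hl, hqv⟩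
    by_cases hlj : l = j
    · subst hlj
      rcases hpair l _ (hu l) v hl (hqu l) hqv with rfl | rfl | h
      · rw [hj]; exact huS i
      · rw [map_neg, hj]; exact hnegS i
      · rw [hap, h, horth hij (hu i) hl, sub_zero, mul_zero, zero_smul, sub_zero]
        exact ⟨l, hl, hqv⟩
    rw [hap, horth (Ne.symm hli) (hu i) hl, horth (Ne.symm hlj) (hu j) hl, sub_zero, mul_zero,
      zero_smul, sub_zero]
    exact ⟨l, hl, hqv⟩
  refine not_maximal_of_set hf S ?_ ?_ ?_
  · rintro g hg v ⟨i, hv, hqv⟩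
    obtain ⟨j, hj⟩ := hg i
    exact ⟨j, hj v hv, by rw [orth_map, hqv]⟩
  · obtain ⟨i₁, i₂, i₃, h12, h13, h23⟩ : ∃ i₁ i₂ i₃ : Fin t, i₁ ≠ i₂ ∧ i₁ ≠ i₃ ∧ i₂ ≠ i₃ :=
      ⟨⟨0, by omega⟩, ⟨1, by omega⟩, ⟨2, by omega⟩, by simp, by simp, by simp⟩
    obtain ⟨hq1, hap1, ha1, hS1⟩ := hswap h12
    obtain ⟨hq2, hap2, ha2, hS2⟩ := hswap h23
    refine ⟨refl Q (u i₂ - u i₃) * refl Q (u i₁ - u i₂), ?_, fun v hv => ?_, i₁, fun j => ?_⟩
    · have h := (list_prod_mem_commutator_iff hQ (Or.inr (by omega))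
        (vs := [u i₂ - u i₃, u i₁ - u i₂]) (by simp [hq1, hq2, h2c])).2
        ⟨by simp, by simp [hq1, hq2, IsSquare.mul_self]⟩
      simpa using h
    · rw [orth_mul_apply]; exact hS2 _ (hS1 v hv)
    · obtain ⟨w, hw, hw0, hwu⟩ : ∃ w ∈ D i₁, w ≠ 0 ∧ polar Q (u i₁) w = 0 := by
        obtain ⟨x, hx, hxs⟩ : ∃ x ∈ D i₁, x ∉ Submodule.span F {u i₁} := by
          refine SetLike.not_le_iff_exists.1 fun hle => ?_
          have h1 := Submodule.finrank_mono hle
          have h3 : Module.finrank F (Submodule.span F {u i₁}) ≤ 1 := by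
            simpa using finrank_span_le_card ({u i₁} : Set (ι → F))
          rw [hD.decomp.finrank_eq] at h1
          omega
        refine ⟨x - ((2 * c)⁻¹ * polar Q (u i₁) x) • u i₁, sub_mem hx (Submodule.smul_mem _ _ (hu i₁)),
          fun h => hxs (Submodule.mem_span_singleton.2 ⟨_, (sub_eq_zero.1 h).symm⟩), ?_⟩
        rw [polar_sub_right, polar_smul_right, polar_self', hqu, smul_eq_mul]
        field_simp
        ring
      have hwfix : (refl Q (u i₁ - u i₂) : (ι → F) ≃ₗ[F] (ι → F)) w = w := by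
        rw [hap1, hwu, horth h12.symm (hu i₂) hw, sub_zero, mul_zero, zero_smul, sub_zero]
      have hwfix2 : (refl Q (u i₂ - u i₃) : (ι → F) ≃ₗ[F] (ι → F)) w = w := by
        rw [hap2, horth h12.symm (hu i₂) hw, horth h13.symm (hu i₃) hw, sub_zero, mul_zero,
          zero_smul, sub_zero]
      by_cases hj : j = i₁
      · refine ⟨u i₁, hu _, fun hmem => ?_⟩
        rw [hj] at hmem
        rw [orth_mul_apply, ha1, ha2] at hmem
        have := horth h13.symm (hu i₃) hmem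
        rw [polar_self', hqu] at this
        exact h2c this
      · refine ⟨w, hw, fun hmem => hw0 ?_⟩
        rw [orth_mul_apply, hwfix, hwfix2] at hmem
        have hb : D i₁ ⊓ D j = ⊥ :=
          (hD.decomp.indep.pairwiseDisjoint (Ne.symm hj)).eq_bot
        have hm : w ∈ D i₁ ⊓ D j := ⟨hw, hmem⟩
        rwa [hb, Submodule.mem_bot] at hm
  · obtain ⟨v, i, hvi, hqv⟩ : ∃ v i, v ∈ D i ∧ Q v = c := ⟨_, ⟨0, by omega⟩, hu _, hqu _⟩
    have hv0 : v ≠ 0 := fun h => hc (by rw [← hqv, h, QuadraticMap.map_zero])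
    obtain ⟨e, p, hp, hev, hperp, hg⟩ := exists_eich_move hQ (by omega) hv0
    have hd := hp.finrank_pperp hQ
    obtain ⟨a, ha, -, ha0, hqa⟩ := exists_singular_not_mem (Q := Q) (S := pperp Q e p) (T := ⊥)
      (by rw [finrank_bot]; omega)
    obtain ⟨hgc, hgv⟩ := hg a ha
    refine ⟨_, hgc, v, ⟨i, hvi, hqv⟩, fun hmem => ?_⟩
    rw [hgv, hqa, zero_smul, sub_zero] at hmem
    obtain ⟨j, hj, hqj⟩ := hmem
    have hbv : polar Q v (v + a) = 2 * c := by
      rw [polar_add_right, polar_self', hqv, polar_comm (⇑Q) v a, mem_perp.1 hperp a ha, add_zero]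
    by_cases hij : i = j
    · subst hij
      rcases hpair i v hvi _ hj hqv hqj with h | h | h
      · exact ha0 (add_eq_left.1 h)
      · rw [h, polar_neg_right, polar_self', hqv, neg_eq_iff_add_eq_zero, ← two_mul] at hbv
        exact mul_ne_zero h2 h2c hbv
      · exact h2c (hbv.symm.trans h)
    · exact h2c (hbv.symm.trans (horth hij hvi hj))

end Cfsg.Agent.H5
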