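import Cfsg.Agent.H5.DecFull
import Cfsg.Agent.H5.SmallBlocks

/-!
Maximality of decomposition stabilisers inside `Ω` in the general linear group.
-/

set_option autoImplicit false

namespace Cfsg.Agent.H5

open QuadraticMap hiding sq
open scoped Matrix

variable {ι : Type} [Fintype ι] [DecidableEq ι] {F : Type*} [Field F] [Fintype F]
  {Q : QuadraticForm F (ι → F)} {f : (ι → F) → F} {t k : ℕ} {D : Fin t → Submodule F (ι → F)}

theorem orthDec_of_geo (hf : ⇑Q = f) (hQ : (polarBilin Q).Nondegenerate)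
    (hD : Cfsg.Geo.IsOrthogonalMDecomposition f k D) : OrthDec Q k D where
  nondeg := hQ
  finrank_eq := hD.decomp.decomp.finrank_eq
  inf_perp i := inf_perp_of_isNondegenerateOn Q hf (hD.decomp.nondegenerate i)
  orth hij v hv := mem_perp.2 fun u hu => member_polar_zero hf hD.decomp hij hu hv
  iSup_eq := hD.decomp.decomp.iSup_eq_top
  isom i j := by
    obtain ⟨φ, hφ⟩ := hD.isometric i j
    exact ⟨φ, fun x => by rw [hf]; exact hφ x⟩

/-- Permuting the members is lying in the decomposition stabiliser. -/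
theorem toGLHom_mem_dec_iff (hf : ⇑Q = f) (h : OrthDec Q k D) (hk : 1 ≤ k) (g : orth Q) :
    toGLHom Q hf g ∈ Cfsg.Geo.decompositionStabilizer D ↔ PresD D g := by
  have hlin : Matrix.toLin' ((toGLHom Q hf g : GL ι F) : Matrix ι ι F) =
      ((g : (ι → F) ≃ₗ[F] (ι → F)) : (ι → F) →ₗ[F] (ι → F)) :=
    LinearMap.ext fun v => by rw [Matrix.toLin'_apply]; exact toGLHom_mulVec Q hf g v
  constructor
  · rintro ⟨σ, hσ⟩ i
    refine ⟨σ i, fun x hx => ?_⟩
    have h' := hσ i
    rw [hlin] at h'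
    exact h' ▸ Submodule.mem_map_of_mem hx
  · intro hg
    choose σ hσ using hg
    have hmap : ∀ i, (D i).map ((g : (ι → F) ≃ₗ[F] (ι → F)) : (ι → F) →ₗ[F] (ι → F)) = D (σ i) := by
      intro i
      refine Submodule.eq_of_le_of_finrank_eq ?_
        (by rw [LinearEquiv.finrank_map_eq, h.finrank_eq, h.finrank_eq])
      rintro _ ⟨x, hx, rfl⟩
      exact hσ i x hx
    have hinj : Function.Injective σ := by
      intro i j hij
      by_contra hne
      obtain ⟨v, hv, hv0⟩ := Submodule.exists_mem_ne_zero_of_ne_bot (p := D i) fun hb => by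
        have := h.finrank_eq i
        rw [hb, finrank_bot] at this
        omega
      have hm : (g : (ι → F) ≃ₗ[F] (ι → F)) v ∈
          (D j).map ((g : (ι → F) ≃ₗ[F] (ι → F)) : (ι → F) →ₗ[F] (ι → F)) := by
        rw [hmap, ← hij]
        exact hσ i v hv
      obtain ⟨w, hw, hwv⟩ := hm
      exact hv0 (h.eq_zero_of_mem hne hv ((g : (ι → F) ≃ₗ[F] (ι → F)).injective hwv ▸ hw))
    refine ⟨Equiv.ofBijective σ (Finite.injective_iff_bijective.1 hinj), fun i => ?_⟩
    rw [hlin]
    exact hmap i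

/-- Some element of `Ω` moves the decomposition. -/
theorem exists_commutator_not_presD (h : OrthDec Q k D) (hn : 5 ≤ Module.finrank F (ι → F))
    (hk : 3 ≤ k) (ht : 2 ≤ t) : ∃ g ∈ commutator (orth Q), ¬ PresD D g := by
  haveI : Finite (ι → F) := Pi.finite
  obtain ⟨l, m, hml⟩ : ∃ l m : Fin t, m ≠ l := ⟨⟨0, by omega⟩, ⟨1, by omega⟩, by simp⟩
  obtain ⟨e, he, f, hf, hp⟩ := exists_pair_of_three (h.inf_perp l) (by rw [h.finrank_eq]; exact hk)
  obtain ⟨c, hc, hqc⟩ := exists_anisotropic (h.inf_perp m) (by rw [h.finrank_eq]; omega)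
  have hc0 : c ≠ 0 := fun h0 => hqc (by rw [h0, QuadraticMap.map_zero])
  obtain ⟨y, hy, hcy⟩ : ∃ y ∈ D m, polar Q c y ≠ 0 := by
    by_contra hcon
    push Not at hcon
    exact hc0 (eq_zero_of_mem_mem (h.inf_perp m) hc
      (mem_perp.2 fun r hr => by rw [polar_comm]; exact hcon r hr))
  have hec : polar Q e c = 0 := h.polar_zero (Ne.symm hml) he hc
  refine ⟨eich Q e c, eich_mem_commutator h.nondeg hn e c, fun hP => ?_⟩
  obtain ⟨j, hj⟩ := hP m
  have hm := hj y hy
  rw [eich_apply hp.left hec, h.polar_zero (Ne.symm hml) he hy] at hm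
  simp only [zero_smul, add_zero, mul_zero, sub_zero] at hm
  rcases eq_or_ne j m with rfl | hjm
  · have h1 := h.cmp_other (Ne.symm hml) hm
    rw [map_sub, map_smul, h.cmp_same he, h.cmp_other (Ne.symm hml) hy, zero_sub, neg_eq_zero,
      smul_eq_zero] at h1
    exact h1.elim hcy hp.ne_zero
  · have h1 := h.cmp_other (Ne.symm hjm) hm
    rw [map_sub, map_smul, h.cmp_other hml he, h.cmp_same hy, smul_zero, sub_zero] at h1
    exact hcy (by rw [h1, polar_zero_right])

/-- Decomposition stabilisers with members of dimension at least three are maximal from dimension five on. -/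
theorem isMaximalIn_dec_five (hf : ⇑Q = f) (hQ : (polarBilin Q).Nondegenerate)
    (hn : 5 ≤ Fintype.card ι) (hD : Cfsg.Geo.IsOrthogonalMDecomposition f k D) (hk : 3 ≤ k)
    (hk3 : k = 3 → 5 ≤ Fintype.card F)
    (hfour : Fintype.card F = 2 → k = 4 → ∀ i, ¬ Cfsg.Geo.IsPlusTypeOn f (D i)) :
    Cfsg.Geo.IsMaximalIn (Cfsg.Geo.omegaGL f)
      (Cfsg.Geo.decompositionStabilizer D ⊓ Cfsg.Geo.omegaGL f) := by
  haveI : Finite (ι → F) := Pi.finite
  have h := orthDec_of_geo hf hQ hD
  have hr : Module.finrank F (ι → F) = Fintype.card ι := Module.finrank_fintype_fun_eq_card F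
  have ht := hD.decomp.decomp.two_le
  refine isMaximalIn_omegaGL Q hf _ ?_ ?_
  · obtain ⟨g, hg, hgD⟩ := exists_commutator_not_presD h (by omega) hk ht
    exact ⟨g, hg, fun hm => hgD ((toGLHom_mem_dec_iff hf h (by omega) g).1 hm)⟩
  · intro M hM g hgM _ hgS
    refine commutator_le_of_dec h (by omega)
      (fun x hx hxD => hM x hx ((toGLHom_mem_dec_iff hf h (by omega) x).2 hxD)) hk ht
      (fun hk' => by rw [Nat.card_eq_fintype_card]; exact hk3 hk') ?_ hgM
      (fun hP => hgS ((toGLHom_mem_dec_iff hf h (by omega) g).2 hP))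
    rintro hq hk4 i ⟨U, hU, hU0, hUd⟩
    rw [Nat.card_eq_fintype_card] at hq
    exact hfour hq hk4 i ⟨U, hU, fun u hu => by rw [← hf]; exact hU0 u hu, by rw [h.finrank_eq]; omega⟩

/-- Decomposition stabilisers with members of dimension at least three are maximal. -/
theorem isMaximalIn_dec_of_three_le (hf : ⇑Q = f) (hQ : (polarBilin Q).Nondegenerate)
    (hn : 13 ≤ Fintype.card ι) (hD : Cfsg.Geo.IsOrthogonalMDecomposition f k D) (hk : 3 ≤ k)
    (hk3 : k = 3 → 5 ≤ Fintype.card F)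
    (hfour : Fintype.card F = 2 → k = 4 → ∀ i, ¬ Cfsg.Geo.IsPlusTypeOn f (D i)) :
    Cfsg.Geo.IsMaximalIn (Cfsg.Geo.omegaGL f)
      (Cfsg.Geo.decompositionStabilizer D ⊓ Cfsg.Geo.omegaGL f) :=
  isMaximalIn_dec_five hf hQ (by omega) hD hk hk3 hfour

end Cfsg.Agent.H5
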