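import Cfsg.Agent.H5.DecTwoFull
import Cfsg.Agent.H5.DecGL

/-!
Maximality of stabilisers of decompositions into planes inside `Ω`.
-/

set_option autoImplicit false

namespace Cfsg.Agent.H5

open QuadraticMap hiding sq

/-- Some element of `Ω` moves a decomposition into planes. -/
theorem exists_commutator_not_presD_two {F V : Type*} [Field F] [AddCommGroup V] [Module F V]
    [FiniteDimensional F V] [Finite F] [Finite V] {Q : QuadraticForm F V} {t : ℕ}
    {D : Fin t → Submodule F V} (h : OrthDec Q 2 D) (hn : 5 ≤ Module.finrank F V) (ht : 4 ≤ t) :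
    ∃ g ∈ commutator (orth Q), ¬ PresD D g := by
  let ι : Fin 4 → Fin t := Fin.castLE ht
  have hι : ∀ {i j : Fin 4}, i ≠ j → ι i ≠ ι j := fun hij h0 => hij (Fin.castLE_injective ht h0)
  obtain ⟨ua, hua, hqa⟩ := exists_mem_norm_eq (h.inf_perp (ι 0)) (by rw [h.finrank_eq]) 1
  obtain ⟨ub, hub, hqb⟩ := exists_mem_norm_eq (h.inf_perp (ι 1)) (by rw [h.finrank_eq]) 1
  obtain ⟨ue, hue, hqe⟩ := exists_mem_norm_eq (h.inf_perp (ι 2)) (by rw [h.finrank_eq]) (-1)
  obtain ⟨uq, huq, hqq⟩ := exists_mem_norm_eq (h.inf_perp (ι 3)) (by rw [h.finrank_eq]) 1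
  set p := ua + ub + ue with hp
  have hab := h.polar_zero (hι (by decide : (0 : Fin 4) ≠ 1)) hua hub
  have hae := h.polar_zero (hι (by decide : (0 : Fin 4) ≠ 2)) hua hue
  have hbe := h.polar_zero (hι (by decide : (1 : Fin 4) ≠ 2)) hub hue
  have hqp : Q p = 1 := by
    rw [hp, QuadraticMap.map_add (⇑Q), QuadraticMap.map_add (⇑Q), polar_add_left, hab, hae, hbe, hqa,
      hqb, hqe]
    ring
  refine ⟨refl Q p * refl Q uq, ?_, fun hP => ?_⟩
  · have hh := (list_prod_mem_commutator_iff h.nondeg (Or.inr (by omega)) (vs := [p, uq])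
      (by simp [hqp, hqq])).2 ⟨by simp, by simp [hqp, hqq]⟩
    simpa using hh
  obtain ⟨v, hv, hpv⟩ : ∃ v ∈ D (ι 0), polar Q ua v ≠ 0 := by
    by_contra hc
    push Not at hc
    have := eq_zero_of_mem_mem (h.inf_perp (ι 0)) hua
      (mem_perp.2 fun r hr => by rw [polar_comm]; exact hc r hr)
    rw [this, QuadraticMap.map_zero] at hqa
    exact zero_ne_one hqa
  obtain ⟨j, hj⟩ := hP (ι 0)
  have hm := hj v hv
  have hpv' : polar Q p v = polar Q ua v := by
    rw [hp, polar_add_left, polar_add_left, h.polar_zero (hι (by decide : (1 : Fin 4) ≠ 0)) hub hv,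
      h.polar_zero (hι (by decide : (2 : Fin 4) ≠ 0)) hue hv, add_zero, add_zero]
  rw [orth_mul_apply, h.refl_fix (hι (by decide : (3 : Fin 4) ≠ 0)) huq hv, refl_apply, hqp, hpv',
    inv_one, one_mul] at hm
  rcases eq_or_ne j (ι 1) with rfl | hj1
  · have h1 := h.cmp_other (hι (by decide : (2 : Fin 4) ≠ 1)) hm
    rw [hp, map_sub, map_smul, map_add, map_add, h.cmp_other (hι (by decide : (2 : Fin 4) ≠ 0)) hv,
      h.cmp_other (hι (by decide : (2 : Fin 4) ≠ 0)) hua,
      h.cmp_other (hι (by decide : (2 : Fin 4) ≠ 1)) hub, h.cmp_same hue, zero_sub, zero_add, zero_add,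
      neg_eq_zero, smul_eq_zero] at h1
    rcases h1 with h1 | h1
    · exact hpv h1
    · rw [h1, QuadraticMap.map_zero] at hqe; exact one_ne_zero (neg_eq_zero.1 hqe.symm)
  · have h1 := h.cmp_other (Ne.symm hj1) hm
    rw [hp, map_sub, map_smul, map_add, map_add, h.cmp_other (hι (by decide : (1 : Fin 4) ≠ 0)) hv,
      h.cmp_other (hι (by decide : (1 : Fin 4) ≠ 0)) hua, h.cmp_same hub,
      h.cmp_other (hι (by decide : (1 : Fin 4) ≠ 2)) hue, zero_sub, zero_add, add_zero, neg_eq_zero,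
      smul_eq_zero] at h1
    rcases h1 with h1 | h1
    · exact hpv h1
    · rw [h1, QuadraticMap.map_zero] at hqb; exact zero_ne_one hqb

open scoped Matrix

variable {ι : Type} [Fintype ι] [DecidableEq ι] {F : Type*} [Field F] [Fintype F]
  {Q : QuadraticForm F (ι → F)} {f : (ι → F) → F} {t k : ℕ} {D : Fin t → Submodule F (ι → F)}

omit [DecidableEq ι] [Fintype F] [Fintype ι] in
/-- Isometric subspaces are of plus type together. -/
theorem isPlusTypeOn_of_isometric {W W' : Submodule F (ι → F)}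
    (hW : Cfsg.Geo.AreIsometricFor f W W') (hp : Cfsg.Geo.IsPlusTypeOn f W) :
    Cfsg.Geo.IsPlusTypeOn f W' := by
  obtain ⟨φ, hφ⟩ := hW
  obtain ⟨U, hUW, hU, hUd⟩ := hp
  refine ⟨((U.comap W.subtype).map φ.toLinearMap).map W'.subtype, Submodule.map_subtype_le _ _, ?_, ?_⟩
  · rintro _ ⟨_, ⟨x, hx, rfl⟩, rfl⟩
    exact (hφ x).trans (hU x hx)
  · rw [Submodule.finrank_map_subtype_eq, φ.finrank_map_eq, ← φ.finrank_eq,
      (Submodule.comapSubtypeEquivOfLe hUW).finrank_eq]
    exact hUd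

/-- A member of plus type makes all members of plus type. -/
theorem forall_isPlusTypeOn (hD : Cfsg.Geo.IsOrthogonalMDecomposition f k D) {i : Fin t}
    (hp : Cfsg.Geo.IsPlusTypeOn f (D i)) (j : Fin t) : Cfsg.Geo.IsPlusTypeOn f (D j) :=
  isPlusTypeOn_of_isometric (hD.isometric i j) hp

/-- Stabilisers of decompositions into five or more planes are maximal. -/
theorem isMaximalIn_dec_two_five (hf : ⇑Q = f) (hQ : (polarBilin Q).Nondegenerate)
    (hn : 9 ≤ Fintype.card ι) (hD : Cfsg.Geo.IsOrthogonalMDecomposition f 2 D)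
    (hcase : ((∀ i, ¬ Cfsg.Geo.IsPlusTypeOn f (D i)) ∧ Fintype.card F ≠ 3) ∨ 7 ≤ Fintype.card F) :
    Cfsg.Geo.IsMaximalIn (Cfsg.Geo.omegaGL f)
      (Cfsg.Geo.decompositionStabilizer D ⊓ Cfsg.Geo.omegaGL f) := by
  haveI : Finite (ι → F) := Pi.finite
  have h := orthDec_of_geo hf hQ hD
  have hr : Module.finrank F (ι → F) = Fintype.card ι := Module.finrank_fintype_fun_eq_card F
  have hc := card_eq_mul_of_mdecomposition hD.decomp.decomp
  have hP : ∀ i, GoodPlane Q (D i) := fun i => by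
    refine ⟨h.inf_perp i, h.finrank_eq i, ?_⟩
    rw [Nat.card_eq_fintype_card]
    refine hcase.imp (fun hm => ⟨fun x hx hqx => ?_, hm.2⟩) id
    by_contra hx0
    exact hm.1 i (hf ▸ isPlusTypeOn_plane Q (h.finrank_eq i) hx hx0 hqx)
  refine isMaximalIn_omegaGL Q hf _ ?_ ?_
  · obtain ⟨g, hg, hgD⟩ := exists_commutator_not_presD_two h (by omega) (by omega)
    exact ⟨g, hg, fun hm => hgD ((toGLHom_mem_dec_iff hf h (by omega) g).1 hm)⟩
  · intro M hM g hgM _ hgS
    exact commutator_le_of_dec_two h hP (by omega)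
      (fun x hx hxD => hM x hx ((toGLHom_mem_dec_iff hf h (by omega) x).2 hxD)) (by omega) hgM
      (fun hP' => hgS ((toGLHom_mem_dec_iff hf h (by omega) g).2 hP'))

/-- Stabilisers of decompositions into planes are maximal. -/
theorem isMaximalIn_dec_two (hf : ⇑Q = f) (hQ : (polarBilin Q).Nondegenerate)
    (hn : 13 ≤ Fintype.card ι) (hD : Cfsg.Geo.IsOrthogonalMDecomposition f 2 D)
    (hcase : ((∀ i, ¬ Cfsg.Geo.IsPlusTypeOn f (D i)) ∧ Fintype.card F ≠ 3) ∨ 7 ≤ Fintype.card F) :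
    Cfsg.Geo.IsMaximalIn (Cfsg.Geo.omegaGL f)
      (Cfsg.Geo.decompositionStabilizer D ⊓ Cfsg.Geo.omegaGL f) :=
  isMaximalIn_dec_two_five hf hQ (by omega) hD hcase

end Cfsg.Agent.H5
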