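import Cfsg.Agent.H5.OrthBasic
import Cfsg.Agent.H4.MaxSingular
import Mathlib.GroupTheory.Abelianization.Defs
import Mathlib.Data.ZMod.Basic

/-!
`Ω` does not exchange the two families of maximal totally singular subspaces.
-/

set_option autoImplicit false

namespace Cfsg.Agent.H5

open QuadraticMap hiding sq

variable {F V : Type*} [Field F] [AddCommGroup V] [Module F V] [FiniteDimensional F V]
  {Q : QuadraticForm F V}

/-- The image of a subspace under an isometry. -/
abbrev imageSub (g : orth Q) (U : Submodule F V) : Submodule F V :=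
  U.map ((g : V ≃ₗ[F] V) : V →ₗ[F] V)

theorem imageSub_mul (g h : orth Q) (U : Submodule F V) :
    imageSub (g * h) U = imageSub g (imageSub h U) := by
  rw [imageSub, imageSub, imageSub, ← Submodule.map_comp]
  exact congrArg (fun f => Submodule.map f U) (LinearMap.ext fun x => orth_mul_apply g h x)

theorem isSingSub_imageSub {m : ℕ} (g : orth Q) {U : Submodule F V} (hU : H4.IsSingSub Q m U) :
    H4.IsSingSub Q m (imageSub g U) := by
  refine ⟨(LinearEquiv.finrank_map_eq _ _).trans hU.1, ?_⟩
  rintro _ ⟨x, hx, rfl⟩
  exact (orth_map g x).trans (hU.2 x hx)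

/-- An element of `Ω` moves a maximal totally singular subspace to one of the same family. -/
theorem even_codim_of_mem_commutator (hQ : (polarBilin Q).Nondegenerate) {m : ℕ}
    (hV : Module.finrank F V = 2 * m) {U : Submodule F V} (hU : H4.IsSingSub Q m U) {g : orth Q}
    (hg : g ∈ commutator (orth Q)) :
    Even (m - Module.finrank F (U ⊓ imageSub g U : Submodule F V)) := by
  let p : orth Q → ZMod 2 :=
    fun g => ((m - Module.finrank F (U ⊓ imageSub g U : Submodule F V) : ℕ) : ZMod 2)
  have hp : ∀ a b, p (a * b) = p a + p b := by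
    intro a b
    have hev := H4.even_codim_sum hQ hV hU (isSingSub_imageSub a hU) (isSingSub_imageSub (a * b) hU)
    have hfin : Module.finrank F (imageSub a U ⊓ imageSub (a * b) U : Submodule F V) =
        Module.finrank F (U ⊓ imageSub b U : Submodule F V) := by
      rw [imageSub_mul, imageSub, imageSub, imageSub,
        ← Submodule.map_inf _ (a : V ≃ₗ[F] V).injective, LinearEquiv.finrank_map_eq]
    rw [hfin, ← ZMod.natCast_eq_zero_iff_even] at hev
    push_cast at hev
    have key : ∀ x y z : ZMod 2, x + y + z = 0 → z = x + y := by decide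
    exact key _ _ _ hev
  let φ : orth Q →* Multiplicative (ZMod 2) :=
    MonoidHom.mk' (fun g => Multiplicative.ofAdd (p g)) fun a b => by rw [hp, ofAdd_add]
  have h1 : φ g = 1 := Abelianization.commutator_subset_ker φ hg
  rw [← ZMod.natCast_eq_zero_iff_even]
  exact Multiplicative.ofAdd.injective h1

/-- An element of `Ω` preserving a hyperplane of a maximal totally singular subspace preserves the
subspace. -/
theorem imageSub_eq_of_hyperplane (hQ : (polarBilin Q).Nondegenerate) {m : ℕ}
    (hV : Module.finrank F V = 2 * m) {U W : Submodule F V} (hU : H4.IsSingSub Q m U) (hWU : W ≤ U)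
    (hW : Module.finrank F W + 1 = m) {g : orth Q} (hg : g ∈ commutator (orth Q))
    (hgW : imageSub g W = W) : imageSub g U = U := by
  obtain ⟨U', -, -, -, hint, huniq⟩ := H4.exists_other hQ hV hU hWU hW
  rcases huniq _ (isSingSub_imageSub g hU) (hgW ▸ Submodule.map_mono hWU) with h | h
  · exact h
  · have := even_codim_of_mem_commutator hQ hV hU hg
    rw [h, hint] at this
    rw [Nat.even_iff] at this
    omega

end Cfsg.Agent.H5
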