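import Cfsg.Agent.H5.FrameRot

/-!
Three reflections in a three-dimensional space with products inside a subgroup: two root groups, or
a sign change, or a fixed angle.
-/

set_option autoImplicit false
set_option maxHeartbeats 400000

namespace Cfsg.Agent.H5

open QuadraticMap hiding sq

variable {F V : Type*} [Field F] [AddCommGroup V] [Module F V] {Q : QuadraticForm F V}
  {M : Subgroup (orth Q)} {a b r : V} [FiniteDimensional F V] [Finite F] [Finite V]

theorem eich_pow {u y : V} (hu : Q u = 0) (hy : polar Q u y = 0) :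
    ∀ k : ℕ, eich Q u y ^ k = eich Q u ((k : F) • y) := by
  intro k
  induction k with
  | zero => simp [eich_zero]
  | succ k ih =>
    rw [pow_succ, ih, eich_mul hu (by rw [polar_smul_right, hy, smul_zero]) hy, Nat.cast_succ,
      add_smul, one_smul]

/-- A common fixed line of the two products is impossible. -/
theorem exists_moved_three (hB : Basis3 Q a b r) (hqab : Q a = Q b) {z : V} {α β : F} (hqz : Q z ≠ 0)
    (hz : z = α • a + β • b + r) (h2 : (2 : F) ≠ 0) {u : V} (hu : u ∈ span3 F a b r) (hu0 : u ≠ 0)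
    (hqu : Q u = 0) :
    ((refl Q a * refl Q b : orth Q) : V ≃ₗ[F] V) u ∉ Submodule.span F {u} ∨
      ((refl Q a * refl Q z : orth Q) : V ≃ₗ[F] V) u ∉ Submodule.span F {u} := by
  by_contra hc
  push Not at hc
  obtain ⟨h1, h3⟩ := hc
  obtain ⟨x, y, w, rfl⟩ := mem_span3.1 hu
  have hab' : polar Q b a = 0 := by rw [polar_comm]; exact hB.ab
  have hra : polar Q r a = 0 := by rw [polar_comm]; exact hB.ar
  have hrb : polar Q r b = 0 := by rw [polar_comm]; exact hB.br
  have hab1 : ∀ x y w : F, ((refl Q a * refl Q b : orth Q) : V ≃ₗ[F] V) (x • a + y • b + w • r) =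
      (-x) • a + (-y) • b + w • r := by
    intro x y w
    simp only [orth_mul_apply, map_add, map_smul, refl_apply_self hB.qb,
      refl_apply_of_ortho (v := b) hab', refl_apply_of_ortho (v := b) hB.br, map_neg,
      refl_apply_self hB.qa, refl_apply_of_ortho (v := a) hB.ab, refl_apply_of_ortho (v := a) hB.ar]
    module
  rw [hab1, Submodule.mem_span_singleton] at h1
  obtain ⟨s, hs⟩ := h1
  rw [← sub_eq_zero] at hs
  obtain ⟨e1, e2, e3⟩ := hB.combo_eq_zero h2 (α := s * x + x) (β := s * y + y) (γ := s * w - w)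
    (by rw [← hs]; module)
  have hw : w = 0 := by
    by_contra hw
    have hs1 : s = 1 := by
      refine mul_right_cancel₀ hw ?_
      linear_combination e3
    rw [hs1] at e1 e2
    have hx : x = 0 := (mul_eq_zero.1 (show 2 * x = 0 by linear_combination e1)).resolve_left h2
    have hy : y = 0 := (mul_eq_zero.1 (show 2 * y = 0 by linear_combination e2)).resolve_left h2
    rw [hx, hy] at hqu
    simp [QuadraticMap.map_smul, hw, hB.qr] at hqu
  subst hw
  have hq' : x * x + y * y = 0 := by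
    rw [map_add_smul, map_smul_add_smul, hB.ab, hqab] at hqu
    simp at hqu
    exact mul_right_cancel₀ hB.qb (by rw [zero_mul]; linear_combination hqu)
  have hx : x ≠ 0 := fun h0 => hu0 (by
    rw [h0] at hq'
    have : y = 0 := by simpa using hq'
    rw [h0, this]; simp)
  rw [Submodule.mem_span_singleton] at h3
  obtain ⟨t, ht⟩ := h3
  have h4 := congrArg (refl Q a : V ≃ₗ[F] V) ht
  rw [← orth_mul_apply, ← mul_assoc, refl_mul_self, one_mul, map_smul] at h4
  rw [refl_apply Q z, hz] at h4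
  simp only [map_add, map_smul, refl_apply_self hB.qa, refl_apply_of_ortho (v := a) hB.ab,
    refl_apply_of_ortho (v := a) hB.ar] at h4
  rw [← hz] at h4
  set k := (Q z)⁻¹ * polar Q z (x • a + y • b + (0 : F) • r) with hk
  obtain ⟨f1, f2, f3⟩ := hB.combo_eq_zero h2 (α := -t * x - x + k * α) (β := t * y - y + k * β)
    (γ := k) (by
      rw [← sub_eq_zero] at h4
      rw [← h4, hz]; module)
  rw [f3] at f1 f2
  have ht1 : t = -1 := by
    refine mul_right_cancel₀ hx ?_
    linear_combination -f1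
  rw [ht1] at f2
  have hy : y = 0 := (mul_eq_zero.1 (show 2 * y = 0 by linear_combination -f2)).resolve_left h2
  rw [hy] at hq'
  simp [hx] at hq'

variable (hB : Basis3 Q a b r) (h2 : (2 : F) ≠ 0) (h3 : (3 : F) ≠ 0)
  (hQ : (polarBilin Q).Nondegenerate) (hn : 5 ≤ Module.finrank F V)
  (hF : ∀ t : F, ∃ k : ℕ, (k : F) = t)

include hB h2 hQ hn hF in
/-- A rotation group inside `M` up to fourth powers has two root groups or no root element. -/
theorem rootTri_or_aniso (H : Subgroup (orth Q))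
    (hHW : H ≤ fixPerp (⊤ : Subgroup (orth Q)) (span3 F a b r)) (hHd : ∀ g ∈ H, dick g = 1)
    (hfour : ∀ g ∈ H, g ^ 4 ∈ M)
    (hmove : ∀ u ∈ span3 F a b r, u ≠ 0 → Q u = 0 → ∃ m ∈ M,
      (∀ y ∈ span3 F a b r, (m : V ≃ₗ[F] V) y ∈ span3 F a b r) ∧
        (m : V ≃ₗ[F] V) u ∉ Submodule.span F {u}) :
    (∃ u u' g, RootTri M (span3 F a b r) u u' g) ∨
      ∀ g ∈ H, g ≠ 1 → ∀ x ∈ span3 F a b r, x ≠ 0 → (g : V ≃ₗ[F] V) x = x → Q x ≠ 0 := by
  by_cases hno : ∀ g ∈ H, g ≠ 1 → ∀ x ∈ span3 F a b r, x ≠ 0 → (g : V ≃ₗ[F] V) x = x → Q x ≠ 0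
  · exact Or.inr hno
  push Not at hno
  obtain ⟨g, hg, hg1, u, hu, hu0, hgu, hqu⟩ := hno
  obtain ⟨y, hy, huy, hqy, hgy⟩ := hB.eq_eich h2 hQ hn (hHW hg) (hHd g hg) hg1 hu hu0 hgu hqu
  have h4 : eich Q u ((4 : F) • y) ∈ M := by
    have := hfour g hg
    rw [hgy, eich_pow hqu huy 4] at this
    simpa using this
  have h40 : (4 : F) ≠ 0 := by
    rw [show (4 : F) = 2 * 2 by norm_num]; exact mul_ne_zero h2 h2
  have hr4 : RootIn M u ((4 : F) • y) := ⟨hqu, by rw [polar_smul_right, huy, smul_zero], h4⟩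
  have hry : RootIn M u y := by
    have := (rootSpace hF hr4).smul_mem (4 : F)⁻¹ (show _ ∈ rootSpace hF hr4 from hr4)
    rwa [smul_smul, inv_mul_cancel₀ h40, one_smul] at this
  obtain ⟨m, hm, hmW, hmu⟩ := hmove u hu hu0 hqu
  exact Or.inl (exists_rootTri hF h2 (hB.finrank_eq h2) (fun x hx => hB.rad h2 hx) hu hy hry hqy hm
    hmW hmu)

include hQ hn in
theorem dick_refl_refl {v w : V} (hv : Q v ≠ 0) (hw : Q w ≠ 0) :
    dick (refl Q v * refl Q w) = 1 := by
  rw [dick_mul' hQ hn, dick_refl hQ hv, dick_refl hQ hw]; rfl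

include hB h2 h3 hQ hn hF in
/-- Three reflections with compensated quarter turn. -/
theorem three_compensated {z : V} {α β : F} (hqab : Q a = Q b) (hqd : Q (a - b) ≠ 0)
    (hz : z = α • a + β • b + r) (hqz : Q z ≠ 0) (hα : α ≠ 0) (hβ : β ≠ 0)
    (P : Subgroup (orth Q))
    (hP : ∀ h ∈ P, h ^ 4 = 1 ∧ ∀ x ∈ span3 F a b r, (h : V ≃ₗ[F] V) x = x)
    (hR : ∃ h ∈ P, refl Q a * refl Q (a - b) * h ∈ M) (hA : ∃ h ∈ P, refl Q a * h ∈ M)
    (hZ : ∃ h ∈ P, refl Q z * h ∈ M) (hm1 : refl Q a * refl Q b ∈ M) :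
    (∃ u u' g, RootTri M (span3 F a b r) u u' g) ∨
      (4 * α ^ 2 * Q a = Q z ∧ 4 * β ^ 2 * Q b = Q z) := by
  set W := span3 F a b r with hW
  set N := negOn Q a b r with hN
  have haW : a ∈ W := left_mem_span3 a b r
  have hbW : b ∈ W := mid_mem_span3 a b r
  have hrW : r ∈ W := right_mem_span3 a b r
  have hzW : z ∈ W := by
    rw [hz]
    exact W.add_mem (W.add_mem (W.smul_mem α haW) (W.smul_mem β hbW)) hrW
  have hcomm : ∀ {k h : orth Q}, k ∈ fixPerp (⊤ : Subgroup (orth Q)) W → h ∈ P → k * h = h * k := by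
    intro k h hk hh
    refine H5.orth_ext fun x => ?_
    obtain ⟨w, hw, hxw⟩ := hB.split h2 x
    have hhy : (h : V ≃ₗ[F] V) (x - w) ∈ perp Q W := mem_perp.2 fun v hv => by
      rw [← (hP h hh).2 v hv, orth_polar]
      exact mem_perp.1 hxw v hv
    rw [← sub_add_cancel x w]
    simp only [orth_mul_apply, map_add, (hP h hh).2 w hw, hk.2 _ hxw, hk.2 _ hhy,
      (hP h hh).2 _ (fixPerp_maps hQ hk hw)]
  set R := refl Q a * refl Q (a - b) with hRd
  set Ta := N * refl Q a with hTa
  set Tz := N * refl Q z with hTz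
  have hN2 : N * N = 1 := hB.negOn_mul_self h2 hQ
  have hRW : R ∈ fixPerp (⊤ : Subgroup (orth Q)) W :=
    mul_mem (refl_mem_fixPerp haW) (refl_mem_fixPerp (W.sub_mem haW hbW))
  have hTaW : Ta ∈ fixPerp (⊤ : Subgroup (orth Q)) W := mul_mem negOn_mem (refl_mem_fixPerp haW)
  have hTzW : Tz ∈ fixPerp (⊤ : Subgroup (orth Q)) W := mul_mem negOn_mem (refl_mem_fixPerp hzW)
  let Hs : Subgroup (orth Q) :=
    { carrier := {g | g ∈ fixPerp (⊤ : Subgroup (orth Q)) W ∧ dick g = 1 ∧
        ∃ h ∈ P, g * h ∈ M ∨ N * g * h ∈ M}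
      one_mem' := ⟨one_mem _, dick_one, 1, one_mem P, Or.inl (by simp)⟩
      mul_mem' := by
        rintro g g' ⟨hg, hd, h, hh, hor⟩ ⟨hg', hd', h', hh', hor'⟩
        refine ⟨mul_mem hg hg', by rw [dick_mul' hQ hn, hd, hd', one_mul], h * h', mul_mem hh hh', ?_⟩
        have c1 : g' * h = h * g' := hcomm hg' hh
        have c2 : g * N = N * g := hB.negOn_comm h2 hQ hg
        have c3 : N * h = h * N := hcomm negOn_mem hh
        have e1 : g * g' * (h * h') = g * h * (g' * h') := by
          rw [mul_assoc g h, ← mul_assoc h g', ← c1]; simp only [mul_assoc]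
        rcases hor with h1 | h1 <;> rcases hor' with h2' | h2'
        · exact Or.inl (e1 ▸ mul_mem h1 h2')
        · refine Or.inr ?_
          have := mul_mem h1 h2'
          rw [show g * h * (N * g' * h') = N * (g * g' * (h * h')) by
            rw [e1, mul_assoc N g' h', mul_assoc g h (N * (g' * h')), ← mul_assoc h N, ← c3,
              mul_assoc N h, ← mul_assoc g N, c2]
            simp only [mul_assoc]] at this
          rwa [mul_assoc N]
        · refine Or.inr ?_
          have := mul_mem h1 h2'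
          rw [mul_assoc N g h, mul_assoc N, ← e1] at this
          rwa [mul_assoc N]
        · refine Or.inl ?_
          have := mul_mem h1 h2'
          rw [show N * g * h * (N * g' * h') = (N * N) * (g * g' * (h * h')) by
            rw [e1, mul_assoc N g' h', mul_assoc (N * g) h (N * (g' * h')), ← mul_assoc h N, ← c3,
              mul_assoc N h, mul_assoc N g, ← mul_assoc g N, c2]
            simp only [mul_assoc]] at this
          rwa [hN2, one_mul] at this
      inv_mem' := by
        rintro g ⟨hg, hd, h, hh, hor⟩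
        have c1 : g * h = h * g := hcomm hg hh
        have c2 : g * N = N * g := hB.negOn_comm h2 hQ hg
        have c3 : N * h = h * N := hcomm negOn_mem hh
        refine ⟨inv_mem hg, ?_, h⁻¹, inv_mem hh, ?_⟩
        · have := dick_mul' hQ hn g⁻¹ g
          rw [inv_mul_cancel, dick_one, hd, mul_one] at this
          exact this.symm
        rcases hor with h1 | h1
        · left
          have := inv_mem h1
          rwa [c1, mul_inv_rev] at this
        · right
          have := inv_mem h1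
          rw [mul_assoc, c1, ← mul_assoc, c3, mul_assoc, ← c2, mul_inv_rev, mul_inv_rev,
            inv_eq_of_mul_eq_one_right hN2] at this
          exact this }
  have hdN : dick N = -1 := hB.dick_negOn hQ
  have hRH : R ∈ Hs := by
    obtain ⟨h, hh, hm⟩ := hR
    exact ⟨hRW, dick_refl_refl hQ hn hB.qa hqd, h, hh, Or.inl hm⟩
  have hTH : ∀ {v}, v ∈ W → Q v ≠ 0 → (∃ h ∈ P, refl Q v * h ∈ M) → N * refl Q v ∈ Hs := by
    rintro v hv hqv ⟨h, hh, hm⟩
    refine ⟨mul_mem negOn_mem (refl_mem_fixPerp hv), ?_, h, hh, Or.inr ?_⟩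
    · rw [dick_mul' hQ hn, hdN, dick_refl hQ hqv]; rfl
    · rwa [← mul_assoc N N, hN2, one_mul]
  have hfour : ∀ g ∈ Hs, g ^ 4 ∈ M := by
    rintro g ⟨hg, -, h, hh, hor⟩
    have c1 : Commute g h := hcomm hg hh
    rcases hor with h1 | h1
    · have := pow_mem h1 4
      rwa [c1.mul_pow, (hP h hh).1, mul_one] at this
    · have c2 : Commute N g := (hB.negOn_comm h2 hQ hg).symm
      have c3 : Commute N h := hcomm negOn_mem hh
      have := pow_mem h1 4
      rw [(c3.mul_left c1).mul_pow, c2.mul_pow, (hP h hh).1, mul_one,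
        show N ^ 4 = 1 by rw [pow_succ, pow_succ, pow_two, hN2, one_mul, hN2]] at this
      rwa [one_mul] at this
  have hmove : ∀ u ∈ W, u ≠ 0 → Q u = 0 → ∃ m ∈ M, (∀ y ∈ W, (m : V ≃ₗ[F] V) y ∈ W) ∧
      (m : V ≃ₗ[F] V) u ∉ Submodule.span F {u} := by
    intro u hu hu0 hqu
    rcases exists_moved_three hB hqab hqz hz h2 hu hu0 hqu with h1 | h1
    · exact ⟨_, hm1, fun y hy => fixPerp_maps hQ
        (mul_mem (refl_mem_fixPerp haW) (refl_mem_fixPerp hbW)) hy, h1⟩
    obtain ⟨h, hh, hm⟩ := hA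
    obtain ⟨h', hh', hm'⟩ := hZ
    refine ⟨_, mul_mem hm hm', fun y hy => ?_, ?_⟩
    · simp only [orth_mul_apply, (hP h' hh').2 y hy,
        (hP h hh).2 _ (fixPerp_maps hQ (refl_mem_fixPerp hzW) hy)]
      exact fixPerp_maps hQ (refl_mem_fixPerp haW) (fixPerp_maps hQ (refl_mem_fixPerp hzW) hy)
    · simp only [orth_mul_apply, (hP h' hh').2 u hu,
        (hP h hh).2 _ (fixPerp_maps hQ (refl_mem_fixPerp hzW) hu)]
      rwa [orth_mul_apply] at h1
  rcases rootTri_or_aniso hB h2 hQ hn hF Hs (fun g hg => hg.1) (fun g hg => hg.2.1) hfour hmove with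
    hroot | hno
  · exact Or.inl hroot
  right
  have hab' : polar Q b a = 0 := by rw [polar_comm]; exact hB.ab
  have hqd' : Q (a - b) = 2 * Q a := by rw [map_sub', hB.ab, ← hqab]; ring
  have hsw : (refl Q (a - b) : V ≃ₗ[F] V) a = b := refl_sub_apply hqab hqd
  have hsw' : (refl Q (a - b) : V ≃ₗ[F] V) b = a := by
    have := congrArg (refl Q (a - b) : V ≃ₗ[F] V) hsw
    rw [← orth_mul_apply, refl_mul_self] at this
    exact this.symm
  have hswr : (refl Q (a - b) : V ≃ₗ[F] V) r = r :=
    refl_apply_of_ortho (by rw [polar_sub_left, hB.ar, hB.br, sub_zero])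
  have hRa : (R : V ≃ₗ[F] V) a = b := by
    rw [hRd, orth_mul_apply, hsw, refl_apply_of_ortho hB.ab]
  have hRb : (R : V ≃ₗ[F] V) b = -a := by
    rw [hRd, orth_mul_apply, hsw', refl_apply_self hB.qa]
  have hRr : (R : V ≃ₗ[F] V) r = r := by
    rw [hRd, orth_mul_apply, hswr, refl_apply_of_ortho hB.ar]
  have hne : ∀ {x y : F}, x • a + y • b = 0 → x = 0 ∧ y = 0 := fun {x y} h0 =>
    ⟨(hB.combo_eq_zero h2 (α := x) (β := y) (γ := 0) (by simp [h0])).1,
      (hB.combo_eq_zero h2 (α := x) (β := y) (γ := 0) (by simp [h0])).2.1⟩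
  have h12 : R * R ≠ 1 := fun h0 => by
    have := congrArg (fun g : orth Q => (g : V ≃ₗ[F] V) a) h0
    simp only [orth_mul_apply, hRa, hRb] at this
    have h1 := (hne (x := (2 : F)) (y := 0) (by
      rw [zero_smul, add_zero, two_smul]; nth_rewrite 1 [← show -a = a from this]; exact neg_add_cancel a)).1
    exact h2 h1
  have h13 : R * R * R ≠ 1 := fun h0 => by
    have := congrArg (fun g : orth Q => (g : V ≃ₗ[F] V) a) h0
    simp only [orth_mul_apply, hRa, hRb, map_neg] at this
    exact one_ne_zero (hne (x := (1 : F)) (y := 1) (by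
      rw [one_smul, one_smul]; nth_rewrite 1 [← show -b = a from this]; exact neg_add_cancel b)).1
  have hr0 : r ≠ 0 := fun h0 => hB.qr (by rw [h0, QuadraticMap.map_zero])
  have hclass := hB.classify h2 hQ Hs (fun g hg => hg.1) (fun g hg => hg.2.1) hno hRH h12 h13 hrW hr0 hRr
  set k := (Q z)⁻¹ * polar Q z r with hk
  have hzr : polar Q z r = 2 * Q r := by
    rw [hz]; simp [polar_add_left, polar_smul_left, polar_self', hB.ar, hB.br]
  have hk0 : k ≠ 0 := mul_ne_zero (inv_ne_zero hqz) (by rw [hzr]; exact mul_ne_zero h2 hB.qr)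
  have hTzr : (Tz : V ≃ₗ[F] V) r = (k * α) • a + (k * β) • b + (k - 1) • r := by
    rw [hTz, orth_mul_apply, hB.negOn_apply (fixPerp_maps hQ (refl_mem_fixPerp hzW) hrW),
      refl_apply, ← hk, hz]
    module
  have hTzH : Tz ∈ Hs := hTH hzW hqz hZ
  have hTaH : Ta ∈ Hs := hTH haW hB.qa hA
  have hout : (Tz : V ≃ₗ[F] V) r ∉ Submodule.span F {r} := by
    rw [hTzr, Submodule.mem_span_singleton]
    rintro ⟨s, hs⟩
    have := (hB.combo_eq_zero h2 (α := k * α) (β := k * β) (γ := k - 1 - s) (by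
      rw [← sub_eq_zero] at hs
      have h' := congrArg Neg.neg hs
      rw [neg_zero] at h'
      rw [← h']; module)).1
    exact mul_ne_zero hk0 hα this
  rcases hclass with h | ⟨-, h⟩ | ⟨-, h5⟩
  · exact absurd (h Tz hTzH) hout
  swap
  · exfalso
    have := congrArg (fun g : orth Q => (g : V ≃ₗ[F] V) a) h5
    simp only [pow_succ, pow_zero, one_mul, orth_mul_apply, hRa, hRb, map_neg, neg_neg] at this
    exact one_ne_zero (hne (x := (1 : F)) (y := -1) (by
      rw [one_smul, neg_one_smul, ← show b = a from this, add_neg_cancel])).1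
  have hk1 : k = 1 := by
    rcases h Tz hTzH hout (R * R * Tz) (mul_mem (mul_mem hRH hRH) hTzH) with h' | h' | h' <;>
      rw [orth_mul_apply (R * R) Tz, orth_mul_apply R R, hTzr] at h' <;>
      simp only [map_add, map_smul, hRa, hRb, hRr, map_neg, Submodule.mem_span_singleton] at h' <;>
      obtain ⟨s, hs⟩ := h' <;> rw [← sub_eq_zero] at hs
    · obtain ⟨e1, -, -⟩ := hB.combo_eq_zero h2 (α := k * α) (β := k * β) (γ := s - (k - 1)) (by
        rw [← hs]; module)
      exact absurd e1 (mul_ne_zero hk0 hα)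
    · obtain ⟨e1, -, e3⟩ := hB.combo_eq_zero h2 (α := (s + 1) * (k * α))
        (β := (s + 1) * (k * β)) (γ := (s - 1) * (k - 1)) (by rw [← hs]; module)
      have hs1 : s = -1 :=
        eq_neg_of_add_eq_zero_left ((mul_eq_zero.1 e1).resolve_right (mul_ne_zero hk0 hα))
      rw [hs1] at e3
      exact sub_eq_zero.1 ((mul_eq_zero.1 (show (2 : F) * (k - 1) = 0 by
        linear_combination -e3)).resolve_left h2)
    · obtain ⟨e1, e2, -⟩ := hB.combo_eq_zero h2 (α := k * α - s * (k * β))
        (β := s * (k * α) + k * β) (γ := (s - 1) * (k - 1)) (by rw [← hs]; module)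
      have hcase : (k * α) * (1 + s * s) = 0 := by linear_combination e1 + s * e2
      have hss := (mul_eq_zero.1 hcase).resolve_left (mul_ne_zero hk0 hα)
      by_contra hk1
      have : s = 1 := sub_eq_zero.1 ((mul_eq_zero.1 (show (s - 1) * (k - 1) = 0 from by
        exact (hB.combo_eq_zero h2 (α := k * α - s * (k * β))
        (β := s * (k * α) + k * β) (γ := (s - 1) * (k - 1)) (by rw [← hs]; module)).2.2)).resolve_right
          (sub_ne_zero.2 hk1))
      rw [this] at hss
      exact h2 (by linear_combination hss)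
  have hqz' : Q z = α * α * Q a + β * β * Q b + Q r := by
    rw [hz, QuadraticMap.map_add (⇑Q), map_smul_add_smul, hB.ab, polar_add_left, polar_smul_left,
      polar_smul_left, hB.ar, hB.br]
    simp
  have hQr : 2 * Q r = Q z := by
    rw [hk, hzr] at hk1
    field_simp at hk1
    linear_combination hk1
  have hTaa : (Ta : V ≃ₗ[F] V) a = a := by
    rw [hTa, orth_mul_apply, refl_apply_self hB.qa, map_neg, hB.negOn_apply haW, neg_neg]
  have hTab : (Ta : V ≃ₗ[F] V) b = -b := by
    rw [hTa, orth_mul_apply, refl_apply_of_ortho hB.ab, hB.negOn_apply hbW]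
  rcases h Tz hTzH hout (Ta * Tz) (mul_mem hTaH hTzH) with h' | h' | h' <;>
    rw [orth_mul_apply Ta Tz, hTzr, hk1, sub_self, zero_smul, add_zero, one_mul, one_mul] at h' <;>
    simp only [map_add, map_smul, hTaa, hTab, hRa, hRb, Submodule.mem_span_singleton] at h' <;>
    obtain ⟨s, hs⟩ := h' <;> rw [← sub_eq_zero] at hs
  · exact absurd (hB.combo_eq_zero h2 (α := -α) (β := β) (γ := s) (by rw [← hs]; module)).1
      (neg_ne_zero.2 hα)
  · obtain ⟨e1, e2, -⟩ := hB.combo_eq_zero h2 (α := (s - 1) * α) (β := (s + 1) * β) (γ := 0)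
      (by rw [← hs]; module)
    exact absurd (show (2 : F) = 0 by
      linear_combination ((mul_eq_zero.1 e2).resolve_right hβ) -
        ((mul_eq_zero.1 e1).resolve_right hα)) h2
  · obtain ⟨e1, e2, -⟩ := hB.combo_eq_zero h2 (α := -(s * β) - α) (β := s * α + β) (γ := 0)
      (by rw [← hs]; module)
    have hsq : α ^ 2 = β ^ 2 := by linear_combination -α * e1 - β * e2
    rw [← hqab] at hqz' ⊢
    exact ⟨by linear_combination -2 * hqz' - hQr + 2 * Q a * hsq,
      by linear_combination -2 * hqz' - hQr - 2 * Q a * hsq⟩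

include hB h2 h3 hQ hn hF in
/-- Three reflections with products of pairs in `M`. -/
theorem three_pairs {z : V} {α β : F} (hqab : Q a = Q b) (hz : z = α • a + β • b + r)
    (hqz : Q z ≠ 0) (hα : α ≠ 0) (hβ : β ≠ 0) (hm1 : refl Q a * refl Q b ∈ M)
    (hm2 : refl Q a * refl Q z ∈ M) :
    (∃ u u' g, RootTri M (span3 F a b r) u u' g) ∨ refl Q b * refl Q r ∈ M ∨
      (4 * α ^ 2 * Q a = Q z ∧ 4 * β ^ 2 * Q b = Q z) := by
  set W := span3 F a b r with hW
  set N := negOn Q a b r with hN
  have haW : a ∈ W := left_mem_span3 a b r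
  have hbW : b ∈ W := mid_mem_span3 a b r
  have hzW : z ∈ W := by
    rw [hz]
    exact W.add_mem (W.add_mem (W.smul_mem α haW) (W.smul_mem β hbW)) (right_mem_span3 a b r)
  set K : Subgroup (orth Q) := Subgroup.closure {refl Q a, refl Q b, refl Q z} with hKd
  have hKa : refl Q a ∈ K := Subgroup.subset_closure (by simp)
  have hKb : refl Q b ∈ K := Subgroup.subset_closure (by simp)
  have hKz : refl Q z ∈ K := Subgroup.subset_closure (by simp)
  have hKW : K ≤ fixPerp (⊤ : Subgroup (orth Q)) W := (Subgroup.closure_le _).2 (by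
    rintro k (rfl | rfl | rfl)
    exacts [refl_mem_fixPerp haW, refl_mem_fixPerp hbW, refl_mem_fixPerp hzW])
  have haa : refl Q a * refl Q a = 1 := refl_mul_self a
  have hdvals : ∀ g : orth Q, dick g = 1 ∨ dick g = -1 := fun g => Int.units_eq_one_or _
  have hinvK : ∀ k ∈ K, (dick k = 1 → k ∈ M) ∧ (dick k = -1 → refl Q a * k ∈ M) := by
    have hgen : ∀ v ∈ ({refl Q a, refl Q b, refl Q z} : Set (orth Q)),
        dick v = -1 ∧ refl Q a * v ∈ M ∧ v * refl Q a ∈ M := by
      rintro v (rfl | rfl | rfl)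
      · exact ⟨dick_refl hQ hB.qa, haa ▸ one_mem M, haa ▸ one_mem M⟩
      · refine ⟨dick_refl hQ hB.qb, hm1, ?_⟩
        have := inv_mem hm1
        rwa [mul_inv_rev, refl_inv, refl_inv] at this
      · refine ⟨dick_refl hQ hqz, hm2, ?_⟩
        have := inv_mem hm2
        rwa [mul_inv_rev, refl_inv, refl_inv] at this
    intro k hk
    induction hk using Subgroup.closure_induction_left with
    | one => exact ⟨fun _ => one_mem M, fun hd => absurd (dick_one (Q := Q) ▸ hd) (by decide)⟩
    | mul_left v hv k _ ih =>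
      obtain ⟨hd, hl, hr'⟩ := hgen v hv
      refine ⟨fun h1 => ?_, fun h1 => ?_⟩
      · rw [dick_mul' hQ hn, hd, neg_one_mul, neg_eq_iff_eq_neg] at h1
        have := mul_mem hr' (ih.2 h1)
        rwa [mul_assoc, ← mul_assoc (refl Q a), haa, one_mul] at this
      · rw [dick_mul' hQ hn, hd, neg_one_mul, neg_inj] at h1
        rw [← mul_assoc]; exact mul_mem hl (ih.1 h1)
    | inv_mul_cancel v hv k _ ih =>
      obtain ⟨hd, hl, hr'⟩ := hgen v hv
      have hv' : v⁻¹ = v := by rcases hv with rfl | rfl | rfl <;> exact refl_inv _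
      rw [hv']
      refine ⟨fun h1 => ?_, fun h1 => ?_⟩
      · rw [dick_mul' hQ hn, hd, neg_one_mul, neg_eq_iff_eq_neg] at h1
        have := mul_mem hr' (ih.2 h1)
        rwa [mul_assoc, ← mul_assoc (refl Q a), haa, one_mul] at this
      · rw [dick_mul' hQ hn, hd, neg_one_mul, neg_inj] at h1
        rw [← mul_assoc]; exact mul_mem hl (ih.1 h1)
  by_cases hNK : N ∈ K
  · right; left
    have := (hinvK N hNK).2 (hB.dick_negOn hQ)
    rwa [hN, negOn, ← mul_assoc, haa, one_mul] at this
  have hN2 : N * N = 1 := hB.negOn_mul_self h2 hQ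
  have hdN : dick N = -1 := hB.dick_negOn hQ
  let K₀ : Subgroup (orth Q) :=
    { carrier := {g | g ∈ K ∧ dick g = 1}
      one_mem' := ⟨one_mem K, dick_one⟩
      mul_mem' := fun {g g'} hg hg' => ⟨mul_mem hg.1 hg'.1, by
        rw [dick_mul' hQ hn, hg.2, hg'.2, one_mul]⟩
      inv_mem' := fun {g} hg => ⟨inv_mem hg.1, by
        have := dick_mul' hQ hn g⁻¹ g
        rw [inv_mul_cancel, dick_one, hg.2, mul_one] at this
        exact this.symm⟩ }
  let Hs : Subgroup (orth Q) :=
    { carrier := {g | g ∈ fixPerp (⊤ : Subgroup (orth Q)) W ∧ dick g = 1 ∧ (g ∈ K ∨ N * g ∈ K)}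
      one_mem' := ⟨one_mem _, dick_one, Or.inl (one_mem K)⟩
      mul_mem' := by
        rintro g g' ⟨hg, hd, hor⟩ ⟨hg', hd', hor'⟩
        refine ⟨mul_mem hg hg', by rw [dick_mul' hQ hn, hd, hd', one_mul], ?_⟩
        have c2 : g * N = N * g := hB.negOn_comm h2 hQ hg
        rcases hor with h1 | h1 <;> rcases hor' with h2' | h2'
        · exact Or.inl (mul_mem h1 h2')
        · refine Or.inr ?_
          have := mul_mem h1 h2'
          rwa [← mul_assoc, c2, mul_assoc] at this
        · refine Or.inr ?_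
          have := mul_mem h1 h2'
          rwa [mul_assoc] at this
        · refine Or.inl ?_
          have := mul_mem h1 h2'
          rwa [mul_assoc N g, ← mul_assoc g N, c2, mul_assoc N g, ← mul_assoc N N, hN2, one_mul] at this
      inv_mem' := by
        rintro g ⟨hg, hd, hor⟩
        refine ⟨inv_mem hg, ?_, ?_⟩
        · have := dick_mul' hQ hn g⁻¹ g
          rw [inv_mul_cancel, dick_one, hd, mul_one] at this
          exact this.symm
        rcases hor with h1 | h1
        · exact Or.inl (inv_mem h1)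
        · refine Or.inr ?_
          have := inv_mem h1
          rwa [← hB.negOn_comm h2 hQ hg, mul_inv_rev, inv_eq_of_mul_eq_one_right hN2] at this }
  have hKH : K₀ ≤ Hs := fun g hg => ⟨hKW hg.1, hg.2, Or.inl hg.1⟩
  have hKM : ∀ g ∈ K₀, g ∈ M := fun g hg => (hinvK g hg.1).1 hg.2
  have hfour : ∀ g ∈ Hs, g ^ 4 ∈ M := by
    rintro g ⟨hg, hd, hor⟩
    rcases hor with h1 | h1
    · exact pow_mem ((hinvK g h1).1 hd) 4
    · have h4 : (N * g) ^ 4 = g ^ 4 := by
        rw [(show Commute N g from (hB.negOn_comm h2 hQ hg).symm).mul_pow,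
          show N ^ 4 = 1 by rw [pow_succ, pow_succ, pow_two, hN2, one_mul, hN2], one_mul]
      rw [← h4]
      refine (hinvK _ (pow_mem h1 4)).1 ?_
      rw [pow_succ, pow_succ, pow_two, dick_mul' hQ hn, dick_mul' hQ hn, dick_mul' hQ hn,
        dick_mul' hQ hn, hd, hdN]
      rfl
  have hmove : ∀ u ∈ W, u ≠ 0 → Q u = 0 → ∃ m ∈ M, (∀ y ∈ W, (m : V ≃ₗ[F] V) y ∈ W) ∧
      (m : V ≃ₗ[F] V) u ∉ Submodule.span F {u} := by
    intro u hu hu0 hqu
    rcases exists_moved_three hB hqab hqz hz h2 hu hu0 hqu with h1 | h1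
    · exact ⟨_, hm1, fun y hy => fixPerp_maps hQ
        (mul_mem (refl_mem_fixPerp haW) (refl_mem_fixPerp hbW)) hy, h1⟩
    · exact ⟨_, hm2, fun y hy => fixPerp_maps hQ
        (mul_mem (refl_mem_fixPerp haW) (refl_mem_fixPerp hzW)) hy, h1⟩
  rcases rootTri_or_aniso hB h2 hQ hn hF Hs (fun g hg => hg.1) (fun g hg => hg.2.1) hfour hmove with
    hroot | hno
  · exact Or.inl hroot
  right; right
  have key : ∀ (x y : V) (γ δ : F), x ∈ W → y ∈ W → Q x ≠ 0 → polar Q x y = 0 →
      z = γ • x + δ • y + r → polar Q x r = 0 → polar Q y r = 0 → γ ≠ 0 → δ ≠ 0 →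
      refl Q x ∈ K → refl Q y ∈ K → Q y ≠ 0 → Basis3 Q x y r → span3 F x y r = W →
      4 * γ ^ 2 * Q x = Q z := by
    intro x y γ δ hx hy hqx hxy hzx hxr hyr hγ hδ hKx hKy hqy hB' hW'
    set g₀ := refl Q x * refl Q z with hg₀
    have hg₀K : g₀ ∈ K₀ := ⟨mul_mem hKx hKz, dick_refl_refl hQ hn hqx hqz⟩
    have hyx : polar Q y x = 0 := by rw [polar_comm]; exact hxy
    have hrx : polar Q r x = 0 := by rw [polar_comm]; exact hxr
    have hxz : polar Q z x = 2 * γ * Q x := by
      rw [hzx]; simp [polar_add_left, polar_smul_left, polar_self', hyx, hrx]; ring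
    by_contra hne
    have hzx' : ∀ {p q : F}, p • z + q • x = 0 → p = 0 := fun {p q} h0 => by
      have := (hB'.combo_eq_zero h2 (α := p * γ + q) (β := p * δ) (γ := p) (by
        rw [← h0, hzx]; module)).2.2
      exact this
    have h12 : g₀ * g₀ ≠ 1 := by
      intro h0
      have h4 : refl Q x * refl Q z * refl Q x = refl Q z := by
        calc refl Q x * refl Q z * refl Q x = g₀ * g₀ * refl Q z := by
              rw [hg₀]; simp [mul_assoc, refl_mul_self]
          _ = refl Q z := by rw [h0, one_mul]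
      have h5 := refl_conj (refl Q x) z
      rw [refl_inv, h4] at h5
      have h6 := congrArg (fun g : orth Q => (g : V ≃ₗ[F] V) z) h5
      simp only [refl_apply_self hqz] at h6
      rw [refl_apply Q ((refl Q x : V ≃ₗ[F] V) z), orth_map, refl_apply Q x, polar_comm (⇑Q) x z, hxz] at h6
      set m := (Q x)⁻¹ * (2 * γ * Q x)
      set p := (Q z)⁻¹ * polar Q (z - m • x) z
      have h7 := hzx' (p := 2 - p) (q := p * m) (by
        have h8 : z - p • (z - m • x) + z = 0 := by rw [← h6]; exact neg_add_cancel z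
        rw [← h8]; module)
      have hm : m = 2 * γ := by simp only [m]; field_simp
      have hp : p = 2 - (Q z)⁻¹ * (2 * γ * (2 * γ * Q x)) := by
        simp only [p]
        rw [polar_sub_left, polar_smul_left, polar_self', polar_comm (⇑Q) x z, hxz, hm, smul_eq_mul]
        field_simp
      rw [hp, sub_sub_cancel] at h7
      exact mul_ne_zero (inv_ne_zero hqz)
        (mul_ne_zero (mul_ne_zero h2 hγ) (mul_ne_zero (mul_ne_zero h2 hγ) hqx)) h7
    have h13 : g₀ * g₀ * g₀ ≠ 1 := by
      intro h0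
      have h4 : refl Q x * refl Q z * refl Q x = refl Q z * refl Q x * refl Q z := by
        calc refl Q x * refl Q z * refl Q x = g₀ * g₀ * g₀ * (refl Q z * refl Q x * refl Q z) := by
              rw [hg₀]; simp [mul_assoc, refl_mul_self, ← mul_assoc (refl Q z) (refl Q z),
                ← mul_assoc (refl Q x) (refl Q x)]
          _ = _ := by rw [h0, one_mul]
      have h5 := refl_conj (refl Q x) z
      have h6 := refl_conj (refl Q z) x
      rw [refl_inv] at h5 h6
      rw [h4, h6] at h5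
      have h7 := congrArg (fun g : orth Q => (g : V ≃ₗ[F] V) ((refl Q z : V ≃ₗ[F] V) x)) h5
      simp only [refl_apply_self (show Q ((refl Q z : V ≃ₗ[F] V) x) ≠ 0 by rwa [orth_map])] at h7
      rw [refl_apply Q ((refl Q x : V ≃ₗ[F] V) z)] at h7
      set P := (Q ((refl Q x : V ≃ₗ[F] V) z))⁻¹ *
        polar Q ((refl Q x : V ≃ₗ[F] V) z) ((refl Q z : V ≃ₗ[F] V) x) with hP
      rw [refl_apply Q z, hxz, refl_apply Q x, polar_comm (⇑Q) x z, hxz] at h7
      set m := (Q x)⁻¹ * (2 * γ * Q x) with hm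
      set l := (Q z)⁻¹ * (2 * γ * Q x) with hl
      have h7' : x - l • z - P • (z - m • x) + (x - l • z) = 0 := by
        rw [← h7]; exact neg_add_cancel _
      have e1 := hzx' (p := -2 * l - P) (q := 2 + P * m) (by rw [← h7']; module)
      rw [show -2 * l - P = 0 ↔ P = -2 * l from ⟨fun h => by linear_combination -h,
        fun h => by linear_combination -h⟩] at e1
      rw [e1] at h7'
      have hz2 : ((2 : F) + -2 * l * m) • x = 0 := by rw [← h7']; module
      rcases smul_eq_zero.1 hz2 with h9 | h9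
      · refine hne ?_
        rw [hm, hl] at h9
        field_simp at h9
        refine mul_left_cancel₀ h2 ?_
        linear_combination -h9
      · exact hqx (by rw [h9, QuadraticMap.map_zero])
    obtain ⟨v, hv, hv0⟩ := Submodule.exists_mem_ne_zero_of_ne_bot
      (p := fixer g₀ ⊓ W) fun h0 => by
        have hg1 : g₀ ≠ 1 := fun h' => h12 (by rw [h', one_mul])
        have := hB.axis h2 hQ (hKW hg₀K.1) hg₀K.2 hg1
        rw [← hW, h0, finrank_bot] at this
        omega
    rw [Submodule.mem_inf, mem_fixer] at hv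
    have hfixed : ∀ g ∈ K₀, (g : V ≃ₗ[F] V) v ∈ Submodule.span F {v} := by
      have hHcard : Nat.card Hs = 2 * Nat.card K₀ := by
        have hTa : N * refl Q x ∈ Hs := ⟨mul_mem negOn_mem (refl_mem_fixPerp hx),
          by rw [dick_mul' hQ hn, hdN, dick_refl hQ hqx]; rfl,
          Or.inr (by rwa [← mul_assoc, hN2, one_mul])⟩
        have hidx : (K₀.subgroupOf Hs).index = 2 := by
          rw [Subgroup.index_eq_two_iff]
          refine ⟨⟨_, hTa⟩, fun g => ?_⟩
          obtain ⟨⟨hgW, hgd, hor⟩⟩ := (⟨g.2⟩ : PLift ((g : orth Q) ∈ Hs))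
          simp only [Subgroup.mem_subgroupOf, Subgroup.coe_mul]
          have hnot : N * refl Q x ∉ K := fun h0 => hNK (by
            have := mul_mem h0 hKx
            rwa [mul_assoc, refl_mul_self, mul_one] at this)
          by_cases hgK : (g : orth Q) ∈ K
          · exact Or.inr ⟨⟨hgK, hgd⟩, fun h0 => hnot (by
              have := mul_mem (inv_mem hgK) h0.1
              rwa [inv_mul_cancel_left] at this)⟩
          · refine Or.inl ⟨⟨?_, ?_⟩, fun h0 => hgK h0.1⟩
            · have h1 := hor.resolve_left hgK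
              have := mul_mem h1 hKx
              rwa [← hB.negOn_comm h2 hQ hgW, mul_assoc] at this
            · rw [dick_mul' hQ hn, hgd, one_mul, dick_mul' hQ hn, hdN, dick_refl hQ hqx]; rfl
        have h1 := Subgroup.index_mul_card (K₀.subgroupOf Hs)
        rw [hidx, Nat.card_congr (Subgroup.subgroupOfEquivOfLe hKH).toEquiv] at h1
        exact h1.symm
      rcases hB.classify h2 hQ K₀ (fun g hg => hKW hg.1) (fun g hg => hg.2)
        (fun g hg => hno g (hKH hg)) hg₀K h12 h13 hv.2 hv0 hv.1 with h | h0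
      · exact h
      rcases hB.classify h2 hQ Hs (fun g hg => hg.1) (fun g hg => hg.2.1) hno (hKH hg₀K) h12 h13
        hv.2 hv0 hv.1 with h | h1
      · exact fun g hg => h g (hKH hg)
      exfalso
      rcases h0 with h0 | h0 <;> rcases h1 with h1 | h1 <;> omega
    have hxyK : refl Q x * refl Q y ∈ K₀ := ⟨mul_mem hKx hKy, dick_refl_refl hQ hn hqx hqy⟩
    obtain ⟨s, hs⟩ := Submodule.mem_span_singleton.1 (hfixed _ hxyK)
    obtain ⟨p, q, w, hvc⟩ := mem_span3.1 (show v ∈ span3 F x y r by rw [hW']; exact hv.2)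
    rw [hvc] at hs
    simp only [orth_mul_apply, map_add, map_smul, refl_apply_self hqy,
      refl_apply_of_ortho (v := y) hyx, refl_apply_of_ortho (v := y) hyr, map_neg,
      refl_apply_self hqx, refl_apply_of_ortho (v := x) hxy, refl_apply_of_ortho (v := x) hxr] at hs
    rw [← sub_eq_zero] at hs
    obtain ⟨e1, e2, e3⟩ := hB'.combo_eq_zero h2 (α := s * p + p) (β := s * q + q) (γ := s * w - w)
      (by rw [← hs]; module)
    have hfix : (refl Q z : V ≃ₗ[F] V) v = (refl Q x : V ≃ₗ[F] V) v := by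
      have h1 := congrArg (refl Q x : V ≃ₗ[F] V) hv.1
      rwa [hg₀, orth_mul_apply, ← orth_mul_apply (refl Q x) (refl Q x), refl_mul_self] at h1
    rw [refl_apply, hvc] at hfix
    rw [map_add, map_add, map_smul, map_smul, map_smul, refl_apply_self hqx,
      refl_apply_of_ortho (v := x) hxy, refl_apply_of_ortho (v := x) hxr] at hfix
    set k := (Q z)⁻¹ * polar Q z (p • x + q • y + w • r) with hk
    rw [← sub_eq_zero] at hfix
    obtain ⟨f1, f2, f3⟩ := hB'.combo_eq_zero h2 (α := 2 * p - k * γ) (β := -(k * δ)) (γ := -k)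
      (by rw [← hfix, hzx]; module)
    have hk0 : k = 0 := neg_eq_zero.1 f3
    rw [hk0, zero_mul, sub_zero] at f1
    have hp : p = 0 := (mul_eq_zero.1 f1).resolve_left h2
    have hpol : polar Q z (p • x + q • y + w • r) = 0 :=
      (mul_eq_zero.1 hk0).resolve_left (inv_ne_zero hqz)
    rw [hp, hzx] at hpol
    simp [polar_add_left, polar_add_right, polar_smul_left, polar_smul_right, polar_self', hxy, hxr,
      hyr, polar_comm (⇑Q) r y, polar_comm (⇑Q) r x, polar_comm (⇑Q) y x] at hpol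
    rcases eq_or_ne w 0 with hw | hw
    · rw [hw] at hpol
      have : q = 0 := by simpa [hδ, h2, hqy] using hpol
      exact hv0 (by rw [hvc, hp, this, hw]; simp)
    · have hs1 : s = 1 := mul_right_cancel₀ hw (by linear_combination e3)
      rw [hs1] at e2
      have hq : q = 0 := (mul_eq_zero.1 (show 2 * q = 0 by linear_combination e2)).resolve_left h2
      rw [hq] at hpol
      simp [h2, hw, hB.qr] at hpol
  refine ⟨key a b α β haW hbW hB.qa hB.ab hz hB.ar hB.br hα hβ hKa hKb hB.qb hB rfl,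
    key b a β α hbW haW hB.qb (by rw [polar_comm]; exact hB.ab) (by rw [hz]; abel) hB.br hB.ar hβ hα
      hKb hKa hB.qa ⟨hB.qb, hB.qa, hB.qr, by rw [polar_comm]; exact hB.ab, hB.br, hB.ar⟩ ?_⟩
  ext x
  simp only [hW, mem_span3]
  constructor <;> rintro ⟨p, q, w, rfl⟩ <;> exact ⟨q, p, w, by abel⟩

end Cfsg.Agent.H5
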