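import Cfsg.Agent.H5.FrameTriple
import Cfsg.Agent.H5.FrameThree
import Cfsg.Agent.H5.DecThree

/-!
A class vector off the roots of a frame leads to all of `Ω`: induction on the support.
-/

set_option autoImplicit false
set_option maxHeartbeats 400000

namespace Cfsg.Agent.H5

open QuadraticMap hiding sq

variable {F V : Type*} [Field F] [AddCommGroup V] [Module F V] {Q : QuadraticForm F V} {n : ℕ}
  {e : Fin n → V} {c : F} {M : Subgroup (orth Q)}

/-- The part of a vector off two coordinates. -/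
noncomputable def offPair (Q : QuadraticForm F V) (e : Fin n → V) (c : F) (z : V) (i j : Fin n) : V :=
  z - coordAt Q e c i z • e i - coordAt Q e c j z • e j

theorem OrthFrame.coord_offPair (h : OrthFrame Q e c) {z : V} {i j : Fin n} (hij : i ≠ j)
    (l : Fin n) : coordAt Q e c l (offPair Q e c z i j) =
      if l = i ∨ l = j then 0 else coordAt Q e c l z := by
  rw [offPair, map_sub, map_sub, map_smul, map_smul, h.coord_vec, h.coord_vec]
  by_cases h1 : l = i
  · subst h1; simp [hij]
  by_cases h2 : l = j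
  · subst h2; simp [Ne.symm hij]
  simp [h1, h2]

theorem OrthFrame.polar_offPair (h : OrthFrame Q e c) {z : V} {i j : Fin n} (hij : i ≠ j) :
    polar Q (e i) (offPair Q e c z i j) = 0 ∧ polar Q (e j) (offPair Q e c z i j) = 0 := by
  simp [h.polar_coord, h.coord_offPair hij]

theorem OrthFrame.map_offPair (h : OrthFrame Q e c) {z : V} {i j : Fin n} (hij : i ≠ j) :
    Q (offPair Q e c z i j) =
      Q z - c * (coordAt Q e c i z ^ 2 + coordAt Q e c j z ^ 2) := by
  set r := offPair Q e c z i j with hr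
  obtain ⟨h1, h2⟩ := h.polar_offPair (z := z) hij
  have hz : z = coordAt Q e c i z • e i + coordAt Q e c j z • e j + r := by
    rw [hr, offPair]; abel
  conv_rhs => rw [hz]
  rw [QuadraticMap.map_add (⇑Q), map_smul_add_smul, h.val, h.val, h.ortho hij, polar_add_left,
    polar_smul_left, polar_smul_left, ← hr] at *
  rw [h1, h2, ← hz]
  simp only [smul_eq_mul, mul_zero, add_zero]
  ring

theorem OrthFrame.val_fsupp (h : OrthFrame Q e c) (z : V) :
    Q z = c * ∑ i ∈ fsupp Q e c z, coordAt Q e c i z ^ 2 := by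
  rw [h.map_eq_sum]
  congr 1
  refine (Finset.sum_subset (Finset.subset_univ _) fun i _ hi => ?_).symm
  rw [mem_fsupp, not_not] at hi
  rw [hi]; ring

theorem RootLine.card_le (h : OrthFrame Q e c) {z : V} (hz : RootLine (F := F) e z) :
    (fsupp Q e c z).card ≤ 2 := by
  classical
  obtain ⟨f, hf, t, rfl⟩ := hz
  rcases hf with ⟨i, rfl⟩ | ⟨i, j, hij, hf⟩
  · refine le_trans (Finset.card_le_card (t := {i}) fun l hl => ?_) (by simp)
    rw [mem_fsupp, map_smul, h.coord_vec] at hl
    rw [Finset.mem_singleton]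
    by_contra hne
    rw [if_neg hne, smul_zero] at hl
    exact hl rfl
  · refine le_trans (Finset.card_le_card (t := {i, j}) fun l hl => ?_) Finset.card_le_two
    rw [mem_fsupp, map_smul] at hl
    rw [Finset.mem_insert, Finset.mem_singleton]
    by_contra hne
    push Not at hne
    rcases hf with rfl | rfl <;>
      simp [h.coord_other hne.1, h.coord_other hne.2] at hl

/-- A vector on two coordinates with equal squares is a multiple of a root. -/
theorem rootLine_of_two (h : OrthFrame Q e c) {z : V} (hc : (fsupp Q e c z).card ≤ 2) (hz : z ≠ 0)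
    (heq : ∀ i ∈ fsupp Q e c z, ∀ j ∈ fsupp Q e c z,
      coordAt Q e c i z ^ 2 = coordAt Q e c j z ^ 2) : RootLine (F := F) e z := by
  classical
  rcases Nat.eq_zero_or_pos (fsupp Q e c z).card with h0 | h0
  · refine absurd (h.ext_coord fun i => ?_) hz
    rw [map_zero]
    by_contra hne
    exact Finset.notMem_empty i (Finset.card_eq_zero.1 h0 ▸ mem_fsupp.2 hne)
  rcases Nat.lt_or_ge (fsupp Q e c z).card 2 with h1 | h1
  · obtain ⟨i, hi⟩ := Finset.card_eq_one.1 (by omega : (fsupp Q e c z).card = 1)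
    refine ⟨e i, Or.inl ⟨i, rfl⟩, coordAt Q e c i z, h.ext_coord fun l => ?_⟩
    rw [map_smul, h.coord_vec]
    by_cases hl : l = i
    · subst hl; simp
    · rw [if_neg hl, smul_zero]
      by_contra hne
      have := mem_fsupp.2 hne
      rw [hi, Finset.mem_singleton] at this
      exact hl this
  obtain ⟨i, j, hij, hs⟩ := Finset.card_eq_two.1 (by omega : (fsupp Q e c z).card = 2)
  have hco : ∀ l, l ≠ i → l ≠ j → coordAt Q e c l z = 0 := fun l hli hlj => by
    by_contra hne
    have := mem_fsupp.2 hne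
    rw [hs, Finset.mem_insert, Finset.mem_singleton] at this
    exact this.elim hli hlj
  have hsq := heq j (by simp [hs]) i (by simp [hs])
  rcases eq_or_eq_neg_of_sq_eq_sq _ _ hsq with hp | hp
  · refine ⟨e i + e j, Or.inr ⟨i, j, hij, Or.inl rfl⟩, coordAt Q e c i z, h.ext_coord fun l => ?_⟩
    rw [map_smul, map_add, h.coord_vec, h.coord_vec]
    by_cases hli : l = i
    · subst hli; simp [hij]
    by_cases hlj : l = j
    · subst hlj; simp [Ne.symm hij, hp]
    simp [hli, hlj, hco l hli hlj]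
  · refine ⟨e i - e j, Or.inr ⟨i, j, hij, Or.inr rfl⟩, coordAt Q e c i z, h.ext_coord fun l => ?_⟩
    rw [map_smul, map_sub, h.coord_vec, h.coord_vec]
    by_cases hli : l = i
    · subst hli; simp [hij]
    by_cases hlj : l = j
    · subst hlj; simp [Ne.symm hij, hp]
    simp [hli, hlj, hco l hli hlj]

theorem sq_eq_one_of_three (hF : ∀ t : F, ∃ k : ℕ, (k : F) = t) (h3 : (3 : F) = 0) {x : F}
    (hx : x ≠ 0) : x ^ 2 = 1 := by
  obtain ⟨k, rfl⟩ := hF x
  have hk : (k : F) = ((k % 3 : ℕ) : F) := by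
    conv_lhs => rw [← Nat.div_add_mod k 3]
    rw [Nat.cast_add, Nat.cast_mul, Nat.cast_ofNat, h3, zero_mul, zero_add]
  rw [hk] at hx ⊢
  have : k % 3 < 3 := Nat.mod_lt _ (by norm_num)
  rcases (by omega : k % 3 = 0 ∨ k % 3 = 1 ∨ k % 3 = 2) with hr | hr | hr <;> rw [hr] at hx ⊢
  · simp at hx
  · simp
  · push_cast; linear_combination h3

theorem sq_sq_of_five (hF : ∀ t : F, ∃ k : ℕ, (k : F) = t) (h5 : (5 : F) = 0) {x : F}
    (hx : x ≠ 0) : x ^ 2 = 1 ∨ x ^ 2 = -1 := by
  obtain ⟨k, rfl⟩ := hF x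
  have hk : (k : F) = ((k % 5 : ℕ) : F) := by
    conv_lhs => rw [← Nat.div_add_mod k 5]
    rw [Nat.cast_add, Nat.cast_mul, Nat.cast_ofNat, h5, zero_mul, zero_add]
  rw [hk] at hx ⊢
  have : k % 5 < 5 := Nat.mod_lt _ (by norm_num)
  rcases (by omega : k % 5 = 0 ∨ k % 5 = 1 ∨ k % 5 = 2 ∨ k % 5 = 3 ∨ k % 5 = 4) with
    hr | hr | hr | hr | hr <;> rw [hr] at hx ⊢
  · simp at hx
  · simp
  · right; push_cast; linear_combination h5
  · right; push_cast; linear_combination 2 * h5
  · left; push_cast; linear_combination 3 * h5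

theorem exists_good_square (h2 : (2 : F) ≠ 0) (h3 : (3 : F) ≠ 0) (h5 : (5 : F) ≠ 0) (X Y : F) :
    ∃ T : F, T ≠ 0 ∧ T ^ 2 ≠ X ∧ T ^ 2 ≠ Y := by
  have e14 : (1 : F) ^ 2 ≠ 2 ^ 2 := fun h0 => h3 (by linear_combination -h0)
  have e19 : (1 : F) ^ 2 ≠ 3 ^ 2 := fun h0 =>
    mul_ne_zero (mul_ne_zero h2 h2) h2 (by linear_combination -h0)
  have e49 : (2 : F) ^ 2 ≠ 3 ^ 2 := fun h0 => h5 (by linear_combination -h0)
  by_cases a1 : (1 : F) ^ 2 ≠ X ∧ (1 : F) ^ 2 ≠ Y
  · exact ⟨1, one_ne_zero, a1.1, a1.2⟩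
  by_cases a2 : (2 : F) ^ 2 ≠ X ∧ (2 : F) ^ 2 ≠ Y
  · exact ⟨2, h2, a2.1, a2.2⟩
  refine ⟨3, h3, fun h0 => ?_, fun h0 => ?_⟩
  · refine a1 ⟨fun h1 => e19 (h1.trans h0.symm), fun h1 => ?_⟩
    exact a2 ⟨fun h4 => e49 (h4.trans h0.symm), fun h4 => e14 (h1.trans h4.symm)⟩
  · refine a1 ⟨fun h1 => ?_, fun h1 => e19 (h1.trans h0.symm)⟩
    exact a2 ⟨fun h4 => e14 (h1.trans h4.symm), fun h4 => e49 (h4.trans h0.symm)⟩

variable [FiniteDimensional F V] [Finite F] [Finite V]
  (h : OrthFrame Q e c) (hn : 5 ≤ Module.finrank F V) (hn13 : 7 ≤ n)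
  (hM : ∀ g ∈ commutator (orth Q), Mono e g → g ∈ M) (hMle : M ≤ commutator (orth Q))
  (hF : ∀ t : F, ∃ k : ℕ, (k : F) = t)

include h hn hn13 hM hF in
theorem zero_sum_supp {z : V} (hz : InR e M z) {S : Finset (Fin n)} (hS : S ⊆ fsupp Q e c z)
    (hne : S.Nonempty) (hsum : ∑ i ∈ S, coordAt Q e c i z ^ 2 = 0)
    (hpar : Even S.card ∨ (fsupp Q e c z).card < n) (hc : S.card + 3 ≤ n) :
    commutator (orth Q) ≤ M := by
  obtain ⟨p, hp⟩ := hne
  refine commutator_le_of_zero_sum h hn hn13 hM hF hz hp (mem_fsupp.1 (hS hp)) hsum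
    (hpar.imp id fun hlt => ?_) hc
  obtain ⟨w, -, hw⟩ := Finset.exists_mem_notMem_of_card_lt_card
    (t := (Finset.univ : Finset (Fin n))) (s := fsupp Q e c z) (by simpa using hlt)
  exact ⟨w, fun hwS => hw (hS hwS), by simpa [mem_fsupp] using hw⟩

include h hn hn13 hM hF in
theorem zero_sum_const {z : V} (hz : InR e M z) {T : Finset (Fin n)} (hT : T ⊆ fsupp Q e c z)
    {σ : F} (hσ : ∀ i ∈ T, coordAt Q e c i z ^ 2 = σ) {m : ℕ} (hm : 0 < m) (hm0 : (m : F) = 0)
    (hmT : m ≤ T.card) (hpar : Even m ∨ (fsupp Q e c z).card < n) (hc : m + 3 ≤ n) :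
    commutator (orth Q) ≤ M := by
  obtain ⟨S, hST, hSc⟩ := Finset.exists_subset_card_eq hmT
  refine zero_sum_supp h hn hn13 hM hF hz (hST.trans hT) (Finset.card_pos.1 (hSc ▸ hm)) ?_
    (hSc ▸ hpar) (hSc ▸ hc)
  rw [Finset.sum_congr rfl fun i hi => hσ i (hST hi), Finset.sum_const, hSc, nsmul_eq_mul, hm0,
    zero_mul]

include h hn hn13 hM hF in
/-- Characteristic three. -/
theorem commutator_le_of_three (hdim : n = 7 ∨ 9 ≤ n) (h3 : (3 : F) = 0) {z : V} (hz : InR e M z)
    (hroot : ¬ RootLine (F := F) e z) : commutator (orth Q) ≤ M := by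
  have hσ : ∀ i ∈ fsupp Q e c z, coordAt Q e c i z ^ 2 = 1 := fun i hi =>
    sq_eq_one_of_three hF h3 (mem_fsupp.1 hi)
  have hz0 : z ≠ 0 := fun h0 => hz.1 (by rw [h0, QuadraticMap.map_zero])
  have hk3 : ¬ (fsupp Q e c z).card ≤ 2 := fun hle => hroot (rootLine_of_two h hle hz0
    fun i hi j hj => by rw [hσ i hi, hσ j hj])
  rcases Nat.lt_or_ge (fsupp Q e c z).card 4 with hk4 | hk4
  · exfalso
    refine hz.1 ?_
    rw [h.val_fsupp, Finset.sum_congr rfl hσ, Finset.sum_const,
      show (fsupp Q e c z).card = 3 by omega, nsmul_eq_mul, Nat.cast_ofNat, h3]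
    ring
  by_cases hk : (fsupp Q e c z).card < n
  · exact zero_sum_const h hn hn13 hM hF hz subset_rfl hσ (m := 3) (by norm_num) (by simp [h3])
      (by omega) (Or.inr hk) (by omega)
  · by_cases hn10 : 9 ≤ n
    · exact zero_sum_const h hn hn13 hM hF hz subset_rfl hσ (m := 6) (by norm_num)
        (by push_cast; linear_combination 2 * h3) (by omega) (Or.inl ⟨3, rfl⟩) (by omega)
    -- seven coordinates: changing four signs leaves four coordinates
    have hn7 : n = 7 := hdim.resolve_right hn10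
    have hK : (fsupp Q e c z).card = n := le_antisymm (by simpa using Finset.card_le_univ (fsupp Q e c z))
      (by omega)
    obtain ⟨S, hS, hSc⟩ := Finset.exists_subset_card_eq (show 4 ≤ (fsupp Q e c z).card by omega)
    obtain ⟨g, hgm, hgv, heven, -⟩ := exists_flips h hn hM S
    have hz' : InR e M (z - (2 : F) • partOn Q e c S z) := hz.flips h hn hM (Or.inl (hSc ▸ ⟨2, rfl⟩))
    have hq' : Q (z - (2 : F) • partOn Q e c S z) = Q z := by rw [← h.flips_apply hgv, orth_map]
    set u := (refl Q z : V ≃ₗ[F] V) (z - (2 : F) • partOn Q e c S z) with hu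
    have huin : InR e M u := hz.reflect h hn hM hz' (by rw [hq']; exact IsSquare.mul_self _)
    have hqz : Q z = c := by
      rw [h.val_fsupp, Finset.sum_congr rfl hσ, Finset.sum_const, hK, hn7, nsmul_eq_mul]
      push_cast; linear_combination (2 * c) * h3
    have hqS : Q (partOn Q e c S z) = c := by
      rw [h.map_partOn, Finset.sum_congr rfl (fun i hi => hσ i (hS hi)), Finset.sum_const, hSc, nsmul_eq_mul]
      push_cast; linear_combination c * h3
    have hcu : ∀ l, coordAt Q e c l u = if l ∈ S then coordAt Q e c l z else 0 := by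
      intro l
      have hc' : (Q z)⁻¹ * polar Q z (z - (2 : F) • partOn Q e c S z) = -2 := by
        rw [polar_sub_right, polar_smul_right, polar_self', h.polar_partOn, hqz,
          Finset.sum_congr rfl (fun i hi => hσ i (hS hi)), Finset.sum_const, hSc, nsmul_eq_mul, smul_eq_mul]
        have := h.ne_zero
        push_cast
        field_simp
        linear_combination (-4 : F) * h3
      rw [hu, refl_apply, hc', map_sub, map_sub, map_smul, map_smul, h.coord_partOn, smul_eq_mul, smul_eq_mul]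
      split_ifs with hl
      · ring
      · linear_combination coordAt Q e c l z * h3
    have hus : fsupp Q e c u = S := by
      ext l
      rw [mem_fsupp, hcu]
      by_cases hl : l ∈ S
      · simp [hl, mem_fsupp.1 (hS hl)]
      · simp [hl]
    exact zero_sum_const h hn hn13 hM hF huin subset_rfl
      (fun i hi => sq_eq_one_of_three hF h3 (mem_fsupp.1 hi)) (m := 3) (by norm_num) (by simp [h3])
      (by rw [hus, hSc]; norm_num) (Or.inr (by rw [hus, hSc]; omega)) (by omega)

include h hn hn13 hM hF in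
/-- Characteristic five: only four equal squares or at most three coordinates remain. -/
theorem of_five (h5 : (5 : F) = 0) {z : V} (hz : InR e M z) (hk : 4 ≤ (fsupp Q e c z).card) :
    commutator (orth Q) ≤ M ∨ ((fsupp Q e c z).card = 4 ∧
      ∀ i ∈ fsupp Q e c z, 4 * c * coordAt Q e c i z ^ 2 = Q z) ∨
      (n < 13 ∧ ((fsupp Q e c z).card = n ∨ (n = 7 ∧ (fsupp Q e c z).card = 6)) ∧
        ∃ σ, ∀ i ∈ fsupp Q e c z, coordAt Q e c i z ^ 2 = σ) := by
  classical
  set S := fsupp Q e c z with hS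
  have hScard : (fsupp Q e c z).card = S.card := rfl
  by_cases hmix : ∃ i ∈ S, ∃ j ∈ S, coordAt Q e c i z ^ 2 ≠ coordAt Q e c j z ^ 2
  · left
    obtain ⟨i, hi, j, hj, hne⟩ := hmix
    have hij : i ≠ j := fun he => hne (by rw [he])
    refine zero_sum_supp h hn hn13 hM hF hz (S := {i, j}) ?_ ⟨i, Finset.mem_insert_self _ _⟩ ?_
      (Or.inl (by rw [Finset.card_pair hij]; exact ⟨1, rfl⟩)) (by rw [Finset.card_pair hij]; omega)
    · intro l hl
      rcases Finset.mem_insert.1 hl with rfl | hl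
      exacts [hi, Finset.mem_singleton.1 hl ▸ hj]
    · rw [Finset.sum_pair hij]
      rcases sq_sq_of_five hF h5 (mem_fsupp.1 hi) with h1 | h1 <;>
        rcases sq_sq_of_five hF h5 (mem_fsupp.1 hj) with h2 | h2 <;> rw [h1, h2] at hne ⊢
      all_goals first | exact absurd rfl hne | ring
  push Not at hmix
  obtain ⟨i₀, hi₀⟩ := Finset.card_pos.1 (show 0 < S.card by omega)
  set σ := coordAt Q e c i₀ z ^ 2
  have hσ : ∀ i ∈ S, coordAt Q e c i z ^ 2 = σ := fun i hi => hmix i hi i₀ hi₀
  have hq := h.val_fsupp z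
  rw [← hS, Finset.sum_congr rfl hσ, Finset.sum_const, nsmul_eq_mul] at hq
  rcases Nat.lt_or_ge S.card 5 with hk5 | hk5
  · right; left
    refine ⟨by omega, fun i hi => ?_⟩
    rw [hσ i hi, hq, show S.card = 4 by omega]
    push_cast; ring
  rcases Nat.lt_or_ge 5 S.card with hk6 | hk6
  swap
  · exfalso
    refine hz.1 ?_
    rw [hq, show S.card = 5 by omega, Nat.cast_ofNat, h5]; ring
  by_cases hlt : S.card < n
  · by_cases hn7 : n = 7
    · exact Or.inr (Or.inr ⟨by omega, Or.inr ⟨hn7, by omega⟩, σ, hσ⟩)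
    left
    exact zero_sum_const h hn hn13 hM hF hz subset_rfl hσ (m := 5) (by norm_num) (by simp [h5])
      (by omega) (Or.inr hlt) (by omega)
  · have hcard : S.card = n := le_antisymm (by simpa using Finset.card_le_univ S) (by omega)
    rcases Nat.lt_or_ge n 13 with hsmall | hbig
    · exact Or.inr (Or.inr ⟨hsmall, Or.inl hcard, σ, hσ⟩)
    left
    exact zero_sum_const h hn hn13 hM hF hz subset_rfl hσ (m := 10) (by norm_num)
      (by push_cast; linear_combination 2 * h5) (by omega) (Or.inl ⟨5, rfl⟩) (by omega)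

include h hn hM in
theorem exists_class_pair {z : V} (hz : InR e M z) {i j : Fin n} (hij : i ≠ j) :
    ∃ f, (f = e i ∨ f = e i - e j) ∧ IsSquare (Q f * Q z) ∧ refl Q f * refl Q z ∈ M := by
  obtain ⟨-, f₀, hf₀, hsq, -⟩ := id hz
  have hroot : ∀ f, f = e i ∨ f = e i - e j → IsRootVec e f := by
    rintro f (rfl | rfl)
    exacts [Or.inl ⟨i, rfl⟩, Or.inr ⟨i, j, hij, Or.inr rfl⟩]
  rcases hf₀ with ⟨l, rfl⟩ | ⟨l, l', hll, hf₀⟩
  · have hs : IsSquare (Q (e i) * Q z) := by rwa [h.val, ← h.val l]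
    exact ⟨e i, Or.inl rfl, hs, hz.root_mem h hn hM (hroot _ (Or.inl rfl)) hs⟩
  · have hv : Q f₀ = 2 * c := by
      rcases hf₀ with rfl | rfl
      exacts [h.val_add hll, h.val_sub hll]
    have hs : IsSquare (Q (e i - e j) * Q z) := by rwa [h.val_sub hij, ← hv]
    exact ⟨_, Or.inr rfl, hs, hz.root_mem h hn hM (hroot _ (Or.inr rfl)) hs⟩

include h hn hn13 hM hF in
/-- A pair of coordinates off quarters gives two root groups. -/
theorem pair_small (h3 : (3 : F) ≠ 0) {z : V} (hz : InR e M z) {i j : Fin n} (hij : i ≠ j)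
    (hi : coordAt Q e c i z ≠ 0) (hj : coordAt Q e c j z ≠ 0) (hk : (fsupp Q e c z).card + 2 ≤ n)
    (hr : Q (offPair Q e c z i j) ≠ 0)
    (hq : ¬ (4 * c * coordAt Q e c i z ^ 2 = Q z ∧ 4 * c * coordAt Q e c j z ^ 2 = Q z)) :
    ∃ u u' g, RootTri M (span3 F (e i) (e j) (offPair Q e c z i j)) u u' g := by
  classical
  set r := offPair Q e c z i j with hrd
  have hB : Basis3 Q (e i) (e j) r :=
    ⟨by rw [h.val]; exact h.ne_zero, by rw [h.val]; exact h.ne_zero, hr, h.ortho hij,
      (h.polar_offPair hij).1, (h.polar_offPair hij).2⟩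
  have hzd : z = coordAt Q e c i z • e i + coordAt Q e c j z • e j + r := by
    rw [hrd, offPair]; abel
  obtain ⟨u, -, hu⟩ := Finset.exists_mem_notMem_of_card_lt_card
    (t := (Finset.univ : Finset (Fin n))) (s := fsupp Q e c z) (by simp; omega)
  obtain ⟨v, -, hv⟩ := Finset.exists_mem_notMem_of_card_lt_card
    (t := (Finset.univ : Finset (Fin n))) (s := insert u (fsupp Q e c z))
    (lt_of_le_of_lt (Finset.card_insert_le _ _) (by simp; omega))
  rw [Finset.mem_insert, not_or] at hv
  have hu0 : coordAt Q e c u z = 0 := by simpa [mem_fsupp] using hu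
  have hv0 : coordAt Q e c v z = 0 := by simpa [mem_fsupp] using hv.2
  have huv : u ≠ v := Ne.symm hv.1
  have hne : ∀ {l}, coordAt Q e c l z = 0 → l ≠ i ∧ l ≠ j := fun hl =>
    ⟨fun he => hi (he ▸ hl), fun he => hj (he ▸ hl)⟩
  let P : Subgroup (orth Q) :=
    { carrier := {g | Mono e g ∧ ∀ l, l ≠ u → l ≠ v → (g : V ≃ₗ[F] V) (e l) = e l}
      one_mem' := ⟨Mono.one, fun l _ _ => rfl⟩
      mul_mem' := fun {a b} ha hb => ⟨ha.1.mul hb.1, fun l h1 h2 => by
        rw [orth_mul_apply, hb.2 l h1 h2, ha.2 l h1 h2]⟩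
      inv_mem' := fun {a} ha => ⟨ha.1.inv h, fun l h1 h2 => by
        conv_lhs => rw [← ha.2 l h1 h2]
        rw [orth_inv_apply_apply]⟩ }
  have hP : ∀ g ∈ P, g ^ 4 = 1 ∧
      ∀ x ∈ span3 F (e i) (e j) r, (g : V ≃ₗ[F] V) x = x := by
    rintro g ⟨hgm, hgf⟩
    refine ⟨h.orth_ext fun l => ?_, fun x hx => h.apply_eq fun l hl => hgf l ?_ ?_⟩
    · by_cases hl : l = u ∨ l = v
      swap
      · push Not at hl
        simp only [pow_succ, pow_zero, one_mul, orth_mul_apply, hgf l hl.1 hl.2]
        rfl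
      obtain ⟨π, s, hs, hπ⟩ := hgm.exists_perm h
      have hfix : ∀ l, l ≠ u → l ≠ v → π l = l := fun l h1 h2 => by
        have h' := congrArg (coordAt Q e c l) (hgf l h1 h2)
        rw [hπ, map_smul, h.coord_self, h.coord_vec] at h'
        by_contra hne
        rw [if_neg (Ne.symm hne), smul_zero] at h'
        exact zero_ne_one h'
      have hmem : ∀ l, (l = u ∨ l = v) → (π l = u ∨ π l = v) := fun l hl => by
        by_contra hc
        push Not at hc
        have := π.injective (hfix _ hc.1 hc.2)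
        rw [this] at hc
        exact hl.elim hc.1 hc.2
      have hπu : π (π l) = l := by
        rcases hl with rfl | rfl
        · rcases hmem l (Or.inl rfl) with h1 | h1
          · rw [h1, h1]
          · rcases hmem v (Or.inr rfl) with h2 | h2
            · rw [h1, h2]
            · exact absurd (π.injective (h1.trans h2.symm)) huv
        · rcases hmem l (Or.inr rfl) with h1 | h1
          · rcases hmem u (Or.inl rfl) with h2 | h2
            · exact absurd (π.injective (h2.trans h1.symm)) huv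
            · rw [h1, h2]
          · rw [h1, h1]
      have hone : ∀ x, s x * s x = 1 := fun x => by rcases hs x with h' | h' <;> rw [h'] <;> ring
      simp only [pow_succ, pow_zero, one_mul, orth_mul_apply, map_smul, hπ, hπu, smul_smul]
      rw [show s l * (s (π l) * (s l * s (π l))) = (s l * s l) * (s (π l) * s (π l)) by ring,
        hone, hone, one_mul, one_smul]
      rfl
    all_goals
      intro he
      subst he
      refine hl ?_
      obtain ⟨α, β, γ, rfl⟩ := mem_span3.1 hx
      simp [h.coord_other (hne ‹coordAt Q e c l z = 0›).1, h.coord_other (hne ‹coordAt Q e c l z = 0›).2,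
        hrd, h.coord_offPair hij, (hne ‹coordAt Q e c l z = 0›).1, (hne ‹coordAt Q e c l z = 0›).2, ‹coordAt Q e c l z = 0›]
  have hrefu : refl Q (e u) ∈ P := ⟨h.mono_refl u, fun l h1 _ => h.refl_other (Ne.symm h1)⟩
  have hswap : refl Q (e u - e v) ∈ P := ⟨h.mono_swap huv, fun l h1 h2 => h.swap_other h1 h2⟩
  have hR : ∃ g ∈ P, refl Q (e i) * refl Q (e i - e j) * g ∈ M := by
    refine ⟨_, mul_mem hrefu hswap, hM _ ?_
      (((h.mono_refl i).mul (h.mono_swap hij)).mul ((h.mono_refl u).mul (h.mono_swap huv)))⟩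
    have hh := (list_prod_mem_commutator_iff h.nondeg (Or.inr (by omega))
      (vs := [e i, e i - e j, e u, e u - e v])
      (by simp [h.val, h.val_sub hij, h.val_sub huv, h.ne_zero, h.two_ne])).2
      ⟨⟨2, rfl⟩, ⟨c * (2 * c), by simp [h.val, h.val_sub hij, h.val_sub huv]; ring⟩⟩
    simpa [mul_assoc] using hh
  have hA : ∃ g ∈ P, refl Q (e i) * g ∈ M := ⟨_, hrefu, flip_mem_M h hn hM i u⟩
  have hZ : ∃ g ∈ P, refl Q z * g ∈ M := by
    obtain ⟨f, hf, -, hm⟩ := exists_class_pair h hn hM hz huv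
    refine ⟨refl Q f, ?_, ?_⟩
    · rcases hf with rfl | rfl
      exacts [hrefu, hswap]
    · have := inv_mem hm
      rwa [mul_inv_rev, refl_inv, refl_inv] at this
  rcases three_compensated hB h.two_ne h3 h.nondeg hn hF (by rw [h.val, h.val])
    (by rw [h.val_sub hij]; exact mul_ne_zero h.two_ne h.ne_zero) hzd hz.1 hi hj P hP hR hA hZ
    (flip_mem_M h hn hM i j) with h1 | h1
  · exact h1
  · refine absurd ⟨?_, ?_⟩ hq
    · rw [← h1.1, h.val]; ring
    · rw [← h1.2, h.val]; ring

include h hn hM hMle hF in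
/-- A pair of coordinates with different squares, without compensators. -/
theorem pair_big (h3 : (3 : F) ≠ 0) {z : V} (hz : InR e M z) {i j : Fin n} (hij : i ≠ j)
    (hi : coordAt Q e c i z ≠ 0) (hj : coordAt Q e c j z ≠ 0)
    (hne : coordAt Q e c i z ^ 2 ≠ coordAt Q e c j z ^ 2)
    (hr : Q (offPair Q e c z i j) ≠ 0) :
    (∃ u u' g, RootTri M (span3 F (e i) (e j) (offPair Q e c z i j)) u u' g) ∨
      InR e M (offPair Q e c z i j) := by
  set r := offPair Q e c z i j with hrd
  have hir : polar Q (e i) r = 0 := (h.polar_offPair hij).1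
  have hjr : polar Q (e j) r = 0 := (h.polar_offPair hij).2
  have hzd : z = coordAt Q e c i z • e i + coordAt Q e c j z • e j + r := by
    rw [hrd, offPair]; abel
  have fin : ∀ {b}, IsRootVec e b → refl Q b * refl Q r ∈ M → InR e M r := fun {b} hb hm =>
    ⟨hr, b, hb, isSquare_of_pair h hn hMle (hb.ne_zero h) hr hm, hm⟩
  obtain ⟨f, hf, hsq, hm⟩ := exists_class_pair h hn hM hz hij
  rcases hf with rfl | rfl
  · have hB : Basis3 Q (e i) (e j) r :=
      ⟨by rw [h.val]; exact h.ne_zero, by rw [h.val]; exact h.ne_zero, hr, h.ortho hij, hir, hjr⟩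
    rcases three_pairs hB h.two_ne h3 h.nondeg hn hF (by rw [h.val, h.val]) hzd hz.1 hi hj
      (flip_mem_M h hn hM i j) hm with h1 | h1 | h1
    · exact Or.inl h1
    · exact Or.inr (fin (Or.inl ⟨j, rfl⟩) h1)
    · refine absurd (mul_left_cancel₀ (mul_ne_zero (mul_ne_zero h.two_ne h.two_ne) h.ne_zero) ?_) hne
      rw [h.val] at h1
      rw [h.val] at h1
      linear_combination h1.1 - h1.2
  · set zi := coordAt Q e c i z
    set zj := coordAt Q e c j z
    have hp1 : IsRootVec e (e i + e j) := Or.inr ⟨i, j, hij, Or.inl rfl⟩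
    have hp2 : IsRootVec e (e i - e j) := Or.inr ⟨i, j, hij, Or.inr rfl⟩
    have hji : polar Q (e j) (e i) = 0 := h.ortho (Ne.symm hij)
    have hB : Basis3 Q (e i - e j) (e i + e j) r :=
      ⟨hp2.ne_zero h, hp1.ne_zero h, hr,
        by simp [polar_sub_left, polar_add_right, polar_self', h.val, h.ortho hij, hji],
        by simp [polar_sub_left, hir, hjr], by simp [polar_add_left, hir, hjr]⟩
    have hW : span3 F (e i - e j) (e i + e j) r = span3 F (e i) (e j) r := by
      ext x
      simp only [mem_span3]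
      constructor
      · rintro ⟨p, q, w, rfl⟩
        exact ⟨p + q, q - p, w, by module⟩
      · rintro ⟨p, q, w, rfl⟩
        refine ⟨(p - q) / 2, (p + q) / 2, w, ?_⟩
        have := h.two_ne
        match_scalars <;> field_simp <;> ring
    have h2 := h.two_ne
    have hα : (zi - zj) / 2 ≠ 0 := div_ne_zero (sub_ne_zero.2 fun he => hne (by rw [he])) h2
    have hβ : (zi + zj) / 2 ≠ 0 :=
      div_ne_zero (fun he => hne (by linear_combination (zi - zj) * he)) h2
    have hzd' : z = ((zi - zj) / 2) • (e i - e j) + ((zi + zj) / 2) • (e i + e j) + r := by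
      conv_lhs => rw [hzd]
      match_scalars <;> field_simp <;> ring
    have hqab : Q (e i - e j) = Q (e i + e j) := by rw [h.val_sub hij, h.val_add hij]
    rcases three_pairs hB h.two_ne h3 h.nondeg hn hF hqab hzd' hz.1 hα hβ
      (root_pair_mem h hn hM hp2 hp1 (by rw [hqab]; exact IsSquare.mul_self _)) hm with h1 | h1 | h1
    · rw [hW] at h1; exact Or.inl h1
    · exact Or.inr (fin hp1 h1)
    · exfalso
      rw [h.val_sub hij, h.val_add hij] at h1
      have h4 := h1.1.trans h1.2.symm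
      field_simp at h4
      have h5 : (2 : F) * 2 * 2 * 2 * c * (zi * zj) = 0 := by linear_combination -h4
      exact mul_ne_zero (mul_ne_zero (mul_ne_zero (mul_ne_zero (mul_ne_zero h2 h2) h2) h2) h.ne_zero)
        (mul_ne_zero hi hj) h5

include h hn hn13 hM hF in
/-- Two root groups on a pair and the rest reduce the support by one. -/
theorem descend_tri (h3 : (3 : F) ≠ 0) (h5 : (5 : F) ≠ 0) {z : V} (hz : InR e M z) {i j : Fin n}
    (hij : i ≠ j) (hi : coordAt Q e c i z ≠ 0) (hj : coordAt Q e c j z ≠ 0)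
    (hr : Q (offPair Q e c z i j) ≠ 0) {u u' g : V}
    (hT : RootTri M (span3 F (e i) (e j) (offPair Q e c z i j)) u u' g) :
    ∃ v, InR e M v ∧ fsupp Q e c v = (fsupp Q e c z).erase i ∧
      ∃ w : F, w ≠ 0 ∧ ∀ l, l ≠ i → l ≠ j → coordAt Q e c l v = w * coordAt Q e c l z := by
  classical
  set r := offPair Q e c z i j with hrd
  obtain ⟨f, hf, -, -⟩ := exists_class_pair h hn hM hz hij
  have hfW : f ∈ span3 F (e i) (e j) r := by
    rcases hf with rfl | rfl
    exacts [left_mem_span3 _ _ _, Submodule.sub_mem _ (left_mem_span3 _ _ _) (mid_mem_span3 _ _ _)]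
  have hfr : IsRootVec e f := by
    rcases hf with rfl | rfl
    exacts [Or.inl ⟨i, rfl⟩, Or.inr ⟨i, j, hij, Or.inr rfl⟩]
  obtain ⟨T, hT0, hT1, hT2⟩ := exists_good_square h.two_ne h3 h5 (Q r / c) (-(Q r / c))
  have hc := h.ne_zero
  obtain ⟨y, w, hy, hw, hyw⟩ := exists_conic_point h.two_ne hc hr (hfr.ne_zero h) hT0
    (fun h0 => hT1 (by field_simp; linear_combination h0))
    (fun h0 => hT2 (by field_simp; linear_combination h0))
  set v := y • e j + w • r with hv
  have hvW : v ∈ span3 F (e i) (e j) r :=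
    Submodule.add_mem _ (Submodule.smul_mem _ _ (mid_mem_span3 _ _ _))
      (Submodule.smul_mem _ _ (right_mem_span3 _ _ _))
  have hqv : Q v = Q f := by
    rw [hv, map_smul_add_smul, h.val, (h.polar_offPair hij).2, ← hyw]; ring
  have hcv : ∀ l, coordAt Q e c l v =
      if l = i then 0 else if l = j then y else w * coordAt Q e c l z := fun l => by
    rw [hv, map_add, map_smul, map_smul, h.coord_vec, hrd, h.coord_offPair hij]
    by_cases h1 : l = i
    · subst h1; simp [hij]
    by_cases h2 : l = j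
    · subst h2; simp [h1]
    simp [h1, h2]
  refine ⟨v, ⟨by rw [hqv]; exact hfr.ne_zero h, f, hfr, by rw [hqv]; exact IsSquare.mul_self _,
    hT.pair_mem hF h.two_ne h3 hfW hvW hqv.symm (hfr.ne_zero h)⟩, ?_, w, hw, fun l h1 h2 => by
      rw [hcv, if_neg h1, if_neg h2]⟩
  ext l
  rw [Finset.mem_erase, mem_fsupp, mem_fsupp, hcv]
  by_cases h1 : l = i
  · simp [h1]
  by_cases h2 : l = j
  · subst h2; simp [h1, hy, hj]
  simp [h1, h2, hw]

include h hn hn13 hM hF in
/-- Three coordinates. -/
theorem commutator_le_of_supp_three (h3 : (3 : F) ≠ 0) {z : V} (hz : InR e M z)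
    (hk : (fsupp Q e c z).card = 3) : commutator (orth Q) ≤ M := by
  classical
  obtain ⟨a, b, d, hab, had, hbd, hS⟩ := Finset.card_eq_three.1 hk
  have hmem : ∀ l, coordAt Q e c l z ≠ 0 ↔ l = a ∨ l = b ∨ l = d := fun l => by
    rw [← mem_fsupp, hS]; simp
  have key : ∀ i j l : Fin n, i ≠ j → i ≠ l → j ≠ l → fsupp Q e c z = {i, j, l} →
      ¬ (4 * c * coordAt Q e c i z ^ 2 = Q z ∧ 4 * c * coordAt Q e c j z ^ 2 = Q z) →
      commutator (orth Q) ≤ M := by
    intro i j l hij hil hjl hS' hq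
    have hin : ∀ {x}, x ∈ ({i, j, l} : Finset (Fin n)) → coordAt Q e c x z ≠ 0 := fun hx =>
      mem_fsupp.1 (hS' ▸ hx)
    have hout : ∀ x, x ≠ i → x ≠ j → x ≠ l → coordAt Q e c x z = 0 := fun x h1 h2 h3' => by
      by_contra hne
      have := mem_fsupp.2 hne
      rw [hS'] at this
      simp [h1, h2, h3'] at this
    have hr : offPair Q e c z i j = coordAt Q e c l z • e l := h.ext_coord fun x => by
      rw [h.coord_offPair hij, map_smul, h.coord_vec]
      by_cases hx : x = i ∨ x = j
      · rw [if_pos hx, if_neg (by rcases hx with rfl | rfl; exacts [hil, hjl]), smul_zero]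
      rw [if_neg hx]
      push Not at hx
      by_cases hxl : x = l
      · subst hxl; simp
      · rw [if_neg hxl, smul_zero, hout x hx.1 hx.2 hxl]
    have hl0 : coordAt Q e c l z ≠ 0 := hin (by simp)
    have hr0 : Q (offPair Q e c z i j) ≠ 0 := by
      rw [hr, QuadraticMap.map_smul, h.val]
      exact mul_ne_zero (mul_ne_zero hl0 hl0) h.ne_zero
    obtain ⟨u, u', g, hT⟩ := pair_small h hn hn13 hM hF h3 hz hij (hin (by simp)) (hin (by simp))
      (by omega) hr0 hq
    have hW : span3 F (e i) (e j) (offPair Q e c z i j) = spanOn F e {i, j, l} := by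
      refine le_antisymm ?_ (Submodule.span_le.2 ?_)
      · intro x hx
        obtain ⟨p, q, w, rfl⟩ := mem_span3.1 hx
        rw [hr]
        exact add_mem (add_mem (Submodule.smul_mem _ _ (vec_mem_spanOn (by simp)))
          (Submodule.smul_mem _ _ (vec_mem_spanOn (by simp))))
          (Submodule.smul_mem _ _ (Submodule.smul_mem _ _ (vec_mem_spanOn (by simp))))
      · rintro _ ⟨x, hx, rfl⟩
        simp only [Finset.mem_coe, Finset.mem_insert, Finset.mem_singleton] at hx
        rcases hx with rfl | rfl | rfl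
        · exact left_mem_span3 _ _ _
        · exact mid_mem_span3 _ _ _
        · refine mem_span3.2 ⟨0, 0, (coordAt Q e c x z)⁻¹, ?_⟩
          rw [hr, smul_smul, inv_mul_cancel₀ hl0]; simp
    rw [hW] at hT
    exact commutator_le_of_triple h hn hn13 hM hF h3
      (Finset.card_eq_three.2 ⟨i, j, l, hij, hil, hjl, rfl⟩) hT
  by_cases h1 : 4 * c * coordAt Q e c a z ^ 2 = Q z
  swap
  · exact key a b d hab had hbd hS fun hq => h1 hq.1
  by_cases h2 : 4 * c * coordAt Q e c b z ^ 2 = Q z
  swap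
  · exact key a b d hab had hbd hS fun hq => h2 hq.2
  refine key a d b had hab (Ne.symm hbd) (by rw [hS]; ext; simp; tauto) fun hq => hz.1 ?_
  have hv := h.val_fsupp z
  rw [hS, Finset.sum_insert (by simp [hab, had]), Finset.sum_pair hbd] at hv
  linear_combination 4 * hv + h1 + h2 + hq.2

include h hn hn13 hM hF in
/-- At most `n - 2` coordinates and not four quarters: done or shorter. -/
theorem step_small (h3 : (3 : F) ≠ 0) {z : V} (hz : InR e M z) (hk4 : 4 ≤ (fsupp Q e c z).card)
    (hk : (fsupp Q e c z).card + 2 ≤ n)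
    (hnq : (fsupp Q e c z).card = 4 →
      ∃ i ∈ fsupp Q e c z, 4 * c * coordAt Q e c i z ^ 2 ≠ Q z) :
    commutator (orth Q) ≤ M ∨ ∃ v, InR e M v ∧ (fsupp Q e c v).card + 1 = (fsupp Q e c z).card := by
  classical
  set S := fsupp Q e c z with hS
  have hScard : (fsupp Q e c z).card = S.card := rfl
  by_cases h5 : (5 : F) = 0
  · rcases of_five h hn hn13 hM hF h5 hz hk4 with h' | ⟨h4, hq⟩ | ⟨-, h', -⟩
    · exact Or.inl h'
    · obtain ⟨i, hi, hne⟩ := hnq h4
      exact absurd (hq i hi) hne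
    · omega
  by_cases hquart : ∀ i ∈ S, 4 * c * coordAt Q e c i z ^ 2 = Q z
  · left
    have hk5 : 5 ≤ S.card := by
      by_contra hc
      obtain ⟨i, hi, hne⟩ := hnq (by omega)
      exact hne (hquart i hi)
    have h40 : (4 : F) * c ≠ 0 := by
      refine mul_ne_zero ?_ h.ne_zero
      rw [show (4 : F) = 2 * 2 by norm_num]; exact mul_ne_zero h.two_ne h.two_ne
    have hσ : ∀ i ∈ S, coordAt Q e c i z ^ 2 = Q z / (4 * c) := fun i hi => by
      rw [eq_div_iff h40]; linear_combination hquart i hi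
    refine zero_sum_const h hn hn13 hM hF hz subset_rfl hσ (m := S.card - 4) (by omega) ?_ (by omega)
      (Or.inr (by omega)) (by omega)
    have hq := h.val_fsupp z
    rw [← hS, Finset.sum_congr rfl hσ, Finset.sum_const, nsmul_eq_mul] at hq
    rw [Nat.cast_sub (by omega), Nat.cast_ofNat, sub_eq_zero]
    refine mul_right_cancel₀ hz.1 ?_
    have := h.ne_zero
    have := h.two_ne
    have h4 : (4 : F) ≠ 0 := fun h0 => h40 (by rw [h0, zero_mul])
    field_simp at hq
    linear_combination -hq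
  push Not at hquart
  obtain ⟨i, hi, hne⟩ := hquart
  obtain ⟨j, hj, hji⟩ := Finset.exists_mem_ne (by omega : 1 < S.card) i
  have hij : i ≠ j := Ne.symm hji
  by_cases hr : Q (offPair Q e c z i j) = 0
  · left
    have hsub : (S.erase i).erase j ⊆ S :=
      (Finset.erase_subset _ _).trans (Finset.erase_subset _ _)
    have hcard : ((S.erase i).erase j).card + 2 = S.card := by
      rw [Finset.card_erase_of_mem (Finset.mem_erase.2 ⟨hji, hj⟩), Finset.card_erase_of_mem hi]
      omega
    refine zero_sum_supp h hn hn13 hM hF hz hsub (Finset.card_pos.1 (by omega)) ?_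
      (Or.inr (by omega)) (by omega)
    rw [h.map_offPair hij, h.val_fsupp z, ← hS, ← Finset.add_sum_erase _ _ hi,
      ← Finset.add_sum_erase _ _ (Finset.mem_erase.2 ⟨hji, hj⟩)] at hr
    exact (mul_eq_zero.1 (show c * _ = 0 by linear_combination hr)).resolve_left h.ne_zero
  obtain ⟨u, u', g, hT⟩ := pair_small h hn hn13 hM hF h3 hz hij (mem_fsupp.1 hi) (mem_fsupp.1 hj) hk
    hr fun hq => hne hq.1
  obtain ⟨v, hv, hvs, -⟩ :=
    descend_tri h hn hn13 hM hF h3 h5 hz hij (mem_fsupp.1 hi) (mem_fsupp.1 hj) hr hT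
  exact Or.inr ⟨v, hv, by rw [hvs, Finset.card_erase_of_mem hi]; omega⟩

include h hn hn13 hM hF in
/-- Four coordinates. -/
theorem commutator_le_of_supp_four (h3 : (3 : F) ≠ 0) {z : V} (hz : InR e M z)
    (hk : (fsupp Q e c z).card = 4) : commutator (orth Q) ≤ M := by
  classical
  have go : ∀ x, InR e M x → (fsupp Q e c x).card = 4 →
      (∃ i ∈ fsupp Q e c x, 4 * c * coordAt Q e c i x ^ 2 ≠ Q x) → commutator (orth Q) ≤ M := by
    intro x hx hx4 hne
    rcases step_small h hn hn13 hM hF h3 hx (by omega) (by omega) (fun _ => hne) with h' | h'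
    · exact h'
    · obtain ⟨v, hv, hvc⟩ := h'
      exact commutator_le_of_supp_three h hn hn13 hM hF h3 hv (by omega)
  by_cases hne : ∃ i ∈ fsupp Q e c z, 4 * c * coordAt Q e c i z ^ 2 ≠ Q z
  · exact go z hz hk hne
  push Not at hne
  obtain ⟨a, ha⟩ := Finset.card_pos.1 (by omega : 0 < (fsupp Q e c z).card)
  obtain ⟨b, hb, hba⟩ := Finset.exists_mem_ne (by omega : 1 < (fsupp Q e c z).card) a
  obtain ⟨d, hd, hdn⟩ := Finset.exists_mem_notMem_of_card_lt_card (t := fsupp Q e c z)
    (s := ({a, b} : Finset (Fin n))) (lt_of_le_of_lt Finset.card_le_two (by omega))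
  obtain ⟨l, hl, hln⟩ := Finset.exists_mem_notMem_of_card_lt_card (t := fsupp Q e c z)
    (s := ({a, b, d} : Finset (Fin n))) (lt_of_le_of_lt Finset.card_le_three (by omega))
  simp only [Finset.mem_insert, Finset.mem_singleton, not_or] at hdn hln
  obtain ⟨o, ho, hol, -⟩ := exists_notMem_two (S := fsupp Q e c z) l l (by omega)
  obtain ⟨o', ho', ho'l, ho'o⟩ := exists_notMem_two (S := fsupp Q e c z) l o (by omega)
  obtain ⟨g, hg, hgm, hgl, hgo, hgo', hgf⟩ :=
    exists_cycle h hn hM (Ne.symm hol) (Ne.symm ho'o) (Ne.symm ho'l)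
  have hl0 := mem_fsupp.1 hl
  have hout : ∀ {x}, x ∉ fsupp Q e c z → coordAt Q e c x z = 0 := fun hx => by
    by_contra h0
    exact hx (mem_fsupp.2 h0)
  set z' := (g : V ≃ₗ[F] V) z with hz'
  have hz'in : InR e M z' := hz.conj_mono h hg hgm
  have hz'c : ∀ x, coordAt Q e c x z' =
      if x = l then 0 else if x = o then coordAt Q e c l z else coordAt Q e c x z := by
    intro x
    by_cases h1 : x = l
    · subst h1; rw [if_pos rfl, hz', h.coord_map hgo', hout ho']
    rw [if_neg h1]
    by_cases h2 : x = o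
    · subst h2; rw [if_pos rfl, hz', h.coord_map hgl]
    rw [if_neg h2, hz']
    by_cases h3' : x = o'
    · subst h3'; rw [h.coord_map hgo, hout ho, hout ho']
    rw [h.coord_map (hgf x h1 h2 h3')]
  set u := (refl Q z : V ≃ₗ[F] V) z' with hu
  have huin : InR e M u :=
    hz.reflect h hn hM hz'in (by rw [hz', orth_map]; exact IsSquare.mul_self _)
  have hfour : (4 : F) ≠ 0 := by
    rw [show (4 : F) = 2 * 2 by norm_num]; exact mul_ne_zero h.two_ne h.two_ne
  have hσ : ∀ x ∈ fsupp Q e c z, coordAt Q e c x z ^ 2 = Q z / (4 * c) := fun x hx => by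
    rw [eq_div_iff (mul_ne_zero hfour h.ne_zero)]; linear_combination hne x hx
  have hpz : (Q z)⁻¹ * polar Q z z' = 3 / 2 := by
    have h1 : polar Q z z' = 2 * c * ∑ x ∈ (fsupp Q e c z).erase l, coordAt Q e c x z ^ 2 := by
      rw [h.polar_eq_sum, ← Finset.sum_subset (Finset.subset_univ ((fsupp Q e c z).erase l))]
      · congr 1
        refine Finset.sum_congr rfl fun x hx => ?_
        rw [Finset.mem_erase] at hx
        rw [hz'c, if_neg hx.1, if_neg (show x ≠ o from fun he => ho (he ▸ hx.2))]; ring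
      · intro x _ hx
        rw [Finset.mem_erase, not_and] at hx
        by_cases hxl : x = l
        · rw [hz'c, if_pos hxl, mul_zero]
        · rw [hout (hx hxl), zero_mul]
    rw [h1, Finset.sum_congr rfl (fun x hx => hσ x (Finset.mem_of_mem_erase hx)), Finset.sum_const,
      Finset.card_erase_of_mem hl, hk, nsmul_eq_mul]
    have := h.ne_zero
    have := h.two_ne
    have := hz.1
    push_cast
    field_simp
    ring
  have huc : ∀ x, coordAt Q e c x u = coordAt Q e c x z' - 3 / 2 * coordAt Q e c x z := fun x => by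
    rw [hu, refl_apply, hpz, map_sub, map_smul, smul_eq_mul]
  have h2 := h.two_ne
  have uco : ∀ x ∈ fsupp Q e c z, x ≠ l → coordAt Q e c x u = -(coordAt Q e c x z) / 2 :=
    fun x hx hxl => by
      rw [huc, hz'c, if_neg hxl, if_neg (show x ≠ o from fun he => ho (he ▸ hx))]
      field_simp
      ring
  have uo : coordAt Q e c o u = coordAt Q e c l z := by
    rw [huc, hz'c, if_neg hol, if_pos rfl, hout ho, mul_zero, sub_zero]
  have ul : coordAt Q e c l u = -(3 / 2) * coordAt Q e c l z := by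
    rw [huc, hz'c, if_pos rfl]; ring
  have hus : fsupp Q e c u = insert o (fsupp Q e c z) := by
    ext x
    rw [Finset.mem_insert, mem_fsupp]
    by_cases hx : x ∈ fsupp Q e c z
    · simp only [hx, or_true, iff_true]
      by_cases hxl : x = l
      · subst hxl
        rw [ul]
        exact mul_ne_zero (neg_ne_zero.2 (div_ne_zero h3 h2)) hl0
      · rw [uco x hx hxl]
        exact div_ne_zero (neg_ne_zero.2 (mem_fsupp.1 hx)) h2
    · by_cases hxo : x = o
      · subst hxo; simp [uo, hl0]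
      · simp only [hx, hxo, or_self, iff_false, not_not]
        rw [huc, hz'c, if_neg fun he : x = l => hx (he ▸ hl), if_neg hxo, hout hx]; ring
  have hucard : (fsupp Q e c u).card = 5 := by rw [hus, Finset.card_insert_of_notMem ho, hk]
  by_cases h5 : (5 : F) = 0
  · rcases of_five h hn hn13 hM hF h5 huin (by omega) with h' | ⟨h', -⟩ | ⟨-, h', -⟩
    · exact h'
    · omega
    · omega
  have hsa : coordAt Q e c a u ^ 2 = Q z / (16 * c) := by
    rw [uco a ha (Ne.symm hln.1), div_pow, neg_sq, hσ a ha]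
    have := h.ne_zero
    have : (16 : F) ≠ 0 := by
      rw [show (16 : F) = 4 * 4 by norm_num]; exact mul_ne_zero hfour hfour
    field_simp
    ring
  have hsb : coordAt Q e c b u ^ 2 = Q z / (16 * c) := by
    rw [uco b hb (Ne.symm hln.2.1), div_pow, neg_sq, hσ b hb]
    have := h.ne_zero
    have : (16 : F) ≠ 0 := by
      rw [show (16 : F) = 4 * 4 by norm_num]; exact mul_ne_zero hfour hfour
    field_simp
    ring
  have hQu : Q u = Q z := by rw [hu, orth_map, hz', orth_map]
  have hab : a ≠ b := Ne.symm hba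
  have ha' : a ∈ fsupp Q e c u := by rw [hus]; exact Finset.mem_insert_of_mem ha
  have hb' : b ∈ fsupp Q e c u := by rw [hus]; exact Finset.mem_insert_of_mem hb
  by_cases hr : Q (offPair Q e c u a b) = 0
  · have hsub : ((fsupp Q e c u).erase a).erase b ⊆ fsupp Q e c u :=
      (Finset.erase_subset _ _).trans (Finset.erase_subset _ _)
    have hcard : (((fsupp Q e c u).erase a).erase b).card = 3 := by
      rw [Finset.card_erase_of_mem (Finset.mem_erase.2 ⟨hba, hb'⟩), Finset.card_erase_of_mem ha',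
        hucard]
    refine zero_sum_supp h hn hn13 hM hF huin hsub (Finset.card_pos.1 (by omega)) ?_
      (Or.inr (by omega)) (by omega)
    rw [h.map_offPair hab, h.val_fsupp u, ← Finset.add_sum_erase _ _ ha',
      ← Finset.add_sum_erase _ _ (Finset.mem_erase.2 ⟨hba, hb'⟩)] at hr
    exact (mul_eq_zero.1 (show c * _ = 0 by linear_combination hr)).resolve_left h.ne_zero
  obtain ⟨p, p', q, hT⟩ := pair_small h hn hn13 hM hF h3 huin hab (mem_fsupp.1 ha') (mem_fsupp.1 hb')
    (by omega) hr fun hq => by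
      have h1 := hq.1
      rw [hsa, hQu] at h1
      have := h.ne_zero
      have h16 : (16 : F) ≠ 0 := by
        rw [show (16 : F) = 4 * 4 by norm_num]; exact mul_ne_zero hfour hfour
      field_simp at h1
      exact h3 ((mul_eq_zero.1 ((mul_eq_zero.1 (show (4 : F) * 3 * Q z = 0 by
        linear_combination -h1)).resolve_right hz.1)).resolve_left hfour)
  obtain ⟨v, hv, hvs, w, hw, hvc⟩ :=
    descend_tri h hn hn13 hM hF h3 h5 huin hab (mem_fsupp.1 ha') (mem_fsupp.1 hb') hr hT
  refine go v hv (by rw [hvs, Finset.card_erase_of_mem ha', hucard]) ?_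
  by_contra hcon
  push Not at hcon
  have hdu : d ∈ fsupp Q e c u := by rw [hus]; exact Finset.mem_insert_of_mem hd
  have hou : o ∈ fsupp Q e c u := by rw [hus]; exact Finset.mem_insert_self _ _
  have hoa : o ≠ a := fun he => ho (he ▸ ha)
  have hob : o ≠ b := fun he => ho (he ▸ hb)
  have h1 := hcon d (by rw [hvs]; exact Finset.mem_erase.2 ⟨hdn.1, hdu⟩)
  have h4 := hcon o (by rw [hvs]; exact Finset.mem_erase.2 ⟨hoa, hou⟩)
  rw [hvc d hdn.1 hdn.2, uco d hd (Ne.symm hln.2.2), mul_pow, div_pow, neg_sq, hσ d hd] at h1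
  rw [hvc o hoa hob, uo, mul_pow, hσ l hl] at h4
  have h6 := h1.trans h4.symm
  have := h.ne_zero
  field_simp at h6
  exact h3 ((mul_eq_zero.1 (show (3 : F) * Q z = 0 by linear_combination -h6)).resolve_right hz.1)

end Cfsg.Agent.H5
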