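import Cfsg.Agent.H5.FrameLarge
import Cfsg.Agent.H5.DecGL

/-!
Maximality of frame stabilisers inside `Ω`.
-/

set_option autoImplicit false

namespace Cfsg.Agent.H5

open QuadraticMap hiding sq

variable {ι : Type} [Fintype ι] [DecidableEq ι] {F : Type*} [Field F] [Fintype F]
  {Q : QuadraticForm F (ι → F)} {f : (ι → F) → F} {t : ℕ} {D : Fin t → Submodule F (ι → F)}

omit [DecidableEq ι] in
/-- A decomposition into lines comes from a frame. -/
theorem exists_frame (h : OrthDec Q 1 D) (h2 : (2 : F) ≠ 0) (ht : 0 < t) :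
    ∃ (e : Fin t → ι → F) (c : F), OrthFrame Q e c ∧ ∀ i, D i = Submodule.span F {e i} := by
  set i₀ : Fin t := ⟨0, ht⟩
  have hspan : ∀ i, ∀ v ∈ D i, v ≠ 0 → D i = Submodule.span F {v} := fun i v hv hv0 =>
    (Submodule.eq_of_le_of_finrank_eq ((Submodule.span_singleton_le_iff_mem _ _).2 hv)
      (by rw [finrank_span_singleton hv0, h.finrank_eq])).symm
  obtain ⟨v₀, hv₀, hv00⟩ := Submodule.exists_mem_ne_zero_of_ne_bot (p := D i₀) fun hb => by
    have := h.finrank_eq i₀
    rw [hb, finrank_bot] at this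
    omega
  have hq : Q v₀ ≠ 0 := fun hq0 => hv00 (eq_zero_of_mem_mem (h.inf_perp i₀) hv₀
    (mem_perp.2 fun r hr => by
      rw [hspan i₀ v₀ hv₀ hv00, Submodule.mem_span_singleton] at hr
      obtain ⟨s, rfl⟩ := hr
      rw [polar_smul_left, polar_self', hq0, mul_zero, smul_zero]))
  choose φ hφ using h.isom i₀
  set e : Fin t → ι → F := fun i => (φ i ⟨v₀, hv₀⟩ : ι → F) with he
  have hval : ∀ i, Q (e i) = Q v₀ := fun i => hφ i ⟨v₀, hv₀⟩
  have hmem : ∀ i, e i ∈ D i := fun i => SetLike.coe_mem _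
  have he0 : ∀ i, e i ≠ 0 := fun i h0 => hq (by rw [← hval i, h0, QuadraticMap.map_zero])
  have hD : ∀ i, D i = Submodule.span F {e i} := fun i => hspan i _ (hmem i) (he0 i)
  refine ⟨e, Q v₀, ⟨h.nondeg, h2, hq, hval,
    fun hij => h.polar_zero hij (hmem _) (hmem _), fun x => ?_⟩, hD⟩
  conv_rhs => rw [← h.sum_cmp x]
  refine Finset.sum_congr rfl fun i _ => ?_
  obtain ⟨r, hr⟩ := Submodule.mem_span_singleton.1 (hD i ▸ h.cmp_mem i x)
  have h1 : polar Q (e i) x = r * (2 * Q v₀) := by
    rw [← h.polar_cmp (hmem i), ← hr, polar_smul_right, polar_self', hval, smul_eq_mul]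
  rw [← hr]
  congr 1
  simp [coordAt, h1]
  field_simp

/-- Stabilisers of frames over prime fields are maximal, in dimension seven or at least nine. -/
theorem isMaximalIn_frame_of (hf : ⇑Q = f) (hQ : (polarBilin Q).Nondegenerate)
    (hn : Fintype.card ι = 7 ∨ 9 ≤ Fintype.card ι) (hD : Cfsg.Geo.IsOrthogonalMDecomposition f 1 D)
    (hodd : Odd (Fintype.card F)) (hprime : (Fintype.card F).Prime) :
    Cfsg.Geo.IsMaximalIn (Cfsg.Geo.omegaGL f)
      (Cfsg.Geo.decompositionStabilizer D ⊓ Cfsg.Geo.omegaGL f) := by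
  classical
  have : Finite (ι → F) := Pi.finite
  have h := orthDec_of_geo hf hQ hD
  have hr : Module.finrank F (ι → F) = Fintype.card ι := Module.finrank_fintype_fun_eq_card F
  have hc := card_eq_mul_of_mdecomposition hD.decomp.decomp
  rw [mul_one] at hc
  have h2 : (2 : F) ≠ 0 := Ring.two_ne_zero fun hchar => by
    have := FiniteField.even_card_of_char_two hchar
    obtain ⟨k, hk⟩ := hodd
    omega
  have hF : ∀ s : F, ∃ k : ℕ, (k : F) = s := by
    intro s
    have : Fact (Fintype.card F).Prime := ⟨hprime⟩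
    have hchar : CharP F (Fintype.card F) :=
      charP_of_card_eq_prime (Nat.card_eq_fintype_card (α := F) ▸ rfl)
    obtain ⟨x, hx⟩ := (ZMod.ringEquiv F (rfl : Fintype.card F = Fintype.card F)).surjective s
    exact ⟨x.val, by rw [← hx, ← map_natCast (ZMod.ringEquiv F rfl), ZMod.natCast_zmod_val]⟩
  obtain ⟨e, c, he, hspan⟩ := exists_frame h h2 (by omega)
  have hiff : ∀ g : orth Q, PresD D g ↔ Mono e g := by
    intro g
    constructor
    · intro hP i
      obtain ⟨j, hj⟩ := hP i
      refine ⟨j, ?_⟩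
      have h1 := hj (e i) (hspan i ▸ Submodule.mem_span_singleton_self _)
      rw [hspan j, Submodule.mem_span_singleton] at h1
      obtain ⟨s, hs⟩ := h1
      have h2 := orth_map g (e i)
      rw [← hs, QuadraticMap.map_smul, he.val, he.val, smul_eq_mul] at h2
      rcases mul_self_eq_one_iff.1 (mul_right_cancel₀ he.ne_zero (h2.trans (one_mul c).symm)) with
        h' | h'
      · left; rw [← hs, h', one_smul]
      · right; rw [← hs, h', neg_one_smul]
    · intro hm i
      obtain ⟨j, hj⟩ := hm i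
      refine ⟨j, fun x hx => ?_⟩
      rw [hspan i, Submodule.mem_span_singleton] at hx
      obtain ⟨s, rfl⟩ := hx
      rw [map_smul, hspan j]
      refine Submodule.smul_mem _ _ ?_
      rcases hj with hj | hj <;> rw [hj]
      · exact Submodule.mem_span_singleton_self _
      · exact neg_mem (Submodule.mem_span_singleton_self _)
  refine isMaximalIn_omegaGL Q hf _ ?_ ?_
  · -- an element moving the frame
    let j : Fin 5 → Fin t := Fin.castLE (by omega)
    have hj : ∀ {a b : Fin 5}, a ≠ b → j a ≠ j b := fun hab h0 =>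
      hab (Fin.castLE_injective (by omega) h0)
    obtain ⟨α, β, hαβ⟩ := exists_sq_add h2 (-1 : F)
    set p := α • e (j 0) + β • e (j 1) + (e (j 2) + e (j 3)) with hp
    have hcp : ∀ l, coordAt Q e c l p = α * (if l = j 0 then 1 else 0) +
        β * (if l = j 1 then 1 else 0) + ((if l = j 2 then 1 else 0) + (if l = j 3 then 1 else 0)) :=
      fun l => by simp [hp, he.coord_vec]
    have hqp : Q p = c := by
      rw [hp, QuadraticMap.map_add (⇑Q), map_smul_add_smul, he.val_add (hj (by decide : (2 : Fin 5) ≠ 3)),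
        he.val, he.val, he.ortho (hj (by decide : (0 : Fin 5) ≠ 1))]
      simp only [polar_add_left, polar_add_right, polar_smul_left,
        he.ortho (hj (by decide : (0 : Fin 5) ≠ 2)), he.ortho (hj (by decide : (0 : Fin 5) ≠ 3)),
        he.ortho (hj (by decide : (1 : Fin 5) ≠ 2)), he.ortho (hj (by decide : (1 : Fin 5) ≠ 3)),
        smul_eq_mul]
      linear_combination c * hαβ
    refine ⟨refl Q p * refl Q (e (j 4)), ?_, fun hm => ?_⟩
    · have hh := (list_prod_mem_commutator_iff he.nondeg (Or.inr (by omega)) (vs := [p, e (j 4)])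
        (by simp [hqp, he.val, he.ne_zero])).2 ⟨by simp, by simp [hqp, he.val]⟩
      simpa using hh
    obtain ⟨l, hl⟩ := (hiff _).1 ((toGLHom_mem_dec_iff hf h le_rfl _).1 hm) (j 2)
    have hg : ((refl Q p * refl Q (e (j 4)) : orth Q) : (ι → F) ≃ₗ[F] (ι → F)) (e (j 2)) =
        e (j 2) - (2 : F) • p := by
      rw [orth_mul_apply, he.refl_other (hj (by decide : (4 : Fin 5) ≠ 2)), refl_apply, hqp,
        polar_comm, he.polar_coord, hcp]
      congr 2
      have := he.ne_zero
      simp [hj (by decide : (2 : Fin 5) ≠ 0), hj (by decide : (2 : Fin 5) ≠ 1),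
        hj (by decide : (2 : Fin 5) ≠ 3)]
      field_simp
    rw [hg] at hl
    have key : ∀ x : Fin t, x ≠ l → coordAt Q e c x (e (j 2) - (2 : F) • p) = 0 := fun x hx => by
      rcases hl with hl | hl <;> simp [hl, he.coord_other hx]
    by_cases hl3 : l = j 3
    · have h1 := key (j 2) (hl3 ▸ hj (by decide : (2 : Fin 5) ≠ 3))
      simp [he.coord_self, hcp, hj (by decide : (2 : Fin 5) ≠ 0), hj (by decide : (2 : Fin 5) ≠ 1),
        hj (by decide : (2 : Fin 5) ≠ 3)] at h1
      exact one_ne_zero (show (1 : F) = 0 by linear_combination -h1)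
    · have h1 := key (j 3) (Ne.symm hl3)
      simp [he.coord_other (hj (by decide : (3 : Fin 5) ≠ 2)), hcp,
        hj (by decide : (3 : Fin 5) ≠ 0), hj (by decide : (3 : Fin 5) ≠ 1),
        hj (by decide : (3 : Fin 5) ≠ 2), h2] at h1
  · intro M hM g hgM hgC hgS
    have hle := commutator_le_of_not_mono he (by omega) (by omega)
      (M := M ⊓ commutator (orth Q))
      (fun x hx hxm => ⟨hM x hx ((toGLHom_mem_dec_iff hf h le_rfl x).2 ((hiff x).2 hxm)), hx⟩)
      inf_le_right hF (by omega) (g := g) ⟨hgM, hgC⟩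
      (fun hm => hgS ((toGLHom_mem_dec_iff hf h le_rfl g).2 ((hiff g).2 hm)))
    exact hle.trans inf_le_left

/-- Stabilisers of frames over prime fields are maximal. -/
theorem isMaximalIn_frame (hf : ⇑Q = f) (hQ : (polarBilin Q).Nondegenerate)
    (hn : 10 ≤ Fintype.card ι) (hD : Cfsg.Geo.IsOrthogonalMDecomposition f 1 D)
    (hodd : Odd (Fintype.card F)) (hprime : (Fintype.card F).Prime) :
    Cfsg.Geo.IsMaximalIn (Cfsg.Geo.omegaGL f)
      (Cfsg.Geo.decompositionStabilizer D ⊓ Cfsg.Geo.omegaGL f) :=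
  isMaximalIn_frame_of hf hQ (Or.inr (by omega)) hD hodd hprime

end Cfsg.Agent.H5
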