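import Cfsg.Agent.H5.FrameClass

/-!
Frames of seven vectors: without a moved root, an overgroup of the frame stabiliser consists of signed
permutations.

The engine: an element conjugating a non-trivial diagonal sign change into a diagonal one is monomial, and a set of
at least sixteen commuting monomial involutions contains a diagonal one, as the symmetric group of degree seven
has no elementary abelian subgroup of order sixteen.
-/

set_option autoImplicit false
set_option linter.unusedSectionVars false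

namespace Cfsg.Agent.H5

open QuadraticMap hiding sq

variable {F V : Type*} [Field F] [AddCommGroup V] [Module F V] {Q : QuadraticForm F V} {n : ℕ}
  {e : Fin n → V} {c : F}

/-- The isometry only changes signs of frame vectors. -/
def DiagF (e : Fin n → V) (g : orth Q) : Prop :=
  ∀ i, (g : V ≃ₗ[F] V) (e i) = e i ∨ (g : V ≃ₗ[F] V) (e i) = -e i

theorem DiagF.mono {g : orth Q} (hg : DiagF e g) : Mono e g := fun i => ⟨i, hg i⟩

theorem OrthFrame.line_eq (h : OrthFrame Q e c) {x : V} {i j : Fin n} (hi : x = e i ∨ x = -e i)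
    (hj : x = e j ∨ x = -e j) : i = j := by
  rcases hi with rfl | rfl <;> rcases hj with hj | hj
  · exact h.injective hj
  · exact absurd hj (h.ne_neg i j)
  · exact absurd hj.symm (h.ne_neg j i)
  · exact h.injective (neg_inj.1 hj)

theorem DiagF.commute (h : OrthFrame Q e c) {g g' : orth Q} (hg : DiagF e g) (hg' : DiagF e g') :
    g * g' = g' * g := by
  refine h.orth_ext fun i => ?_
  rw [orth_mul_apply, orth_mul_apply]
  rcases hg i with h1 | h1 <;> rcases hg' i with h2 | h2 <;> simp [h1, h2]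

theorem DiagF.sq_one (h : OrthFrame Q e c) {g : orth Q} (hg : DiagF e g) : g * g = 1 := by
  refine h.orth_ext fun i => ?_
  rw [orth_mul_apply]
  rcases hg i with h1 | h1 <;> simp [h1]

theorem OrthFrame.list_refl_apply (h : OrthFrame Q e c) :
    ∀ (l : List (Fin n)), l.Nodup → ∀ j,
      ((l.map fun i => refl Q (e i)).prod : V ≃ₗ[F] V) (e j) = if j ∈ l then -e j else e j
  | [], _, j => by simp
  | a :: l, hnd, j => by
    rw [List.nodup_cons] at hnd
    rw [List.map_cons, List.prod_cons, orth_mul_apply, h.list_refl_apply l hnd.2]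
    rcases eq_or_ne j a with rfl | hja
    · rw [if_neg hnd.1, h.refl_self, if_pos List.mem_cons_self]
    · by_cases hjl : j ∈ l <;> simp [hjl, hja, h.refl_other (Ne.symm hja)]

/-- The group of signed permutations. -/
def monoGroup (h : OrthFrame Q e c) : Subgroup (orth Q) where
  carrier := {g | Mono e g}
  one_mem' := Mono.one
  mul_mem' := fun hg hg' => hg.mul hg'
  inv_mem' := fun hg => hg.inv h

/-- The permutation of a signed permutation. -/
noncomputable def permF (h : OrthFrame Q e c) (g : monoGroup h) : Equiv.Perm (Fin n) :=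
  (g.2.exists_perm h).choose

theorem permF_spec (h : OrthFrame Q e c) (g : monoGroup h) (i : Fin n) :
    ((g : orth Q) : V ≃ₗ[F] V) (e i) = e (permF h g i) ∨
      ((g : orth Q) : V ≃ₗ[F] V) (e i) = -e (permF h g i) := by
  obtain ⟨s, hs, hπ⟩ := (g.2.exists_perm h).choose_spec
  rw [hπ]
  rcases hs i with h' | h' <;> simp [h', permF]

/-- Signed permutations map to permutations. -/
noncomputable def permHom (h : OrthFrame Q e c) : monoGroup h →* Equiv.Perm (Fin n) where
  toFun := permF h
  map_one' := Equiv.ext fun i => h.line_eq (permF_spec h 1 i) (Or.inl (by simp))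
  map_mul' g g' := Equiv.ext fun i => h.line_eq (permF_spec h (g * g') i) (by
    rw [Equiv.Perm.mul_apply, Subgroup.coe_mul, orth_mul_apply]
    rcases permF_spec h g' i with h1 | h1 <;> rcases permF_spec h g (permF h g' i) with h2 | h2 <;>
      simp [h1, h2])

/-- The symmetric group of degree seven has no elementary abelian subgroup of order sixteen. -/
theorem card_le_eight_of_exp_two {n : ℕ} (hn : n = 7) (A : Subgroup (Equiv.Perm (Fin n)))
    (hA : ∀ a ∈ A, a * a = 1) : Nat.card A ≤ 8 := by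
  subst hn
  haveI : Fact (Nat.Prime 2) := ⟨Nat.prime_two⟩
  have hAp : IsPGroup 2 A := fun a => ⟨1, Subtype.ext (by rw [pow_one, pow_two]; exact hA a a.2)⟩
  obtain ⟨P, hAP⟩ := hAp.exists_le_sylow
  obtain ⟨k, hk⟩ := IsPGroup.iff_card.1 hAp
  obtain ⟨l, hl⟩ := IsPGroup.iff_card.1 P.isPGroup'
  have hdvd := Subgroup.card_subgroup_dvd_card (P : Subgroup (Equiv.Perm (Fin 7)))
  rw [show Nat.card (Equiv.Perm (Fin 7)) = 5040 by
    rw [Nat.card_eq_fintype_card, Fintype.card_perm, Fintype.card_fin]; rfl, hl] at hdvd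
  have hl4 : l ≤ 4 := by
    by_contra hc
    have := (Nat.pow_dvd_pow 2 (show 5 ≤ l by omega)).trans hdvd
    norm_num at this
  have hkl : k ≤ l := by
    have := Subgroup.card_dvd_of_le hAP
    rw [hk, hl] at this
    exact (Nat.pow_dvd_pow_iff_le_right (by norm_num)).1 this
  by_contra hc
  have hk4 : k = 4 := by
    by_contra hne
    have : (2 : ℕ) ^ k ≤ 2 ^ 3 := Nat.pow_le_pow_right (by norm_num) (by omega)
    omega
  have hAeq : A = (P : Subgroup (Equiv.Perm (Fin 7))) := by
    refine Subgroup.eq_of_le_of_card_ge hAP ?_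
    rw [hk, hl]
    exact Nat.pow_le_pow_right (by norm_num) (by omega)
  set σ : Equiv.Perm (Fin 7) := Equiv.swap 0 1 * Equiv.swap 1 2 * Equiv.swap 2 3 with hσ
  have h4 : σ ^ 4 = 1 := by rw [hσ]; decide
  have h2 : σ * σ ≠ 1 := by rw [hσ]; decide
  have hσp : IsPGroup 2 (Subgroup.zpowers σ) := by
    rintro ⟨x, hx⟩
    obtain ⟨m, rfl⟩ := Subgroup.mem_zpowers_iff.1 hx
    refine ⟨2, Subtype.ext ?_⟩
    simp only [SubgroupClass.coe_pow, OneMemClass.coe_one]
    rw [← zpow_natCast, ← zpow_mul, mul_comm, zpow_mul, zpow_natCast]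
    norm_num [h4]
  obtain ⟨R, hR⟩ := hσp.exists_le_sylow
  obtain ⟨g, hg⟩ := MulAction.exists_smul_eq (Equiv.Perm (Fin 7)) P R
  have hmem : σ ∈ ((g • P : Sylow 2 (Equiv.Perm (Fin 7))) : Subgroup (Equiv.Perm (Fin 7))) :=
    hg ▸ hR (Subgroup.mem_zpowers σ)
  rw [Sylow.coe_subgroup_smul, ← hAeq, Subgroup.mem_pointwise_smul_iff_inv_smul_mem] at hmem
  have h3 := hA _ hmem
  rw [← smul_mul', smul_eq_iff_eq_inv_smul, smul_one] at h3
  exact h2 h3

/-- Sixteen commuting monomial involutions contain a diagonal one. -/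
theorem exists_diag_of_card (h : OrthFrame Q e c) (hn7 : n = 7) {E : Subgroup (orth Q)}
    (hmono : ∀ g ∈ E, Mono e g) (hexp : ∀ g ∈ E, g * g = 1) (hcard : 16 ≤ Nat.card E) :
    ∃ g ∈ E, g ≠ 1 ∧ DiagF e g := by
  have hle : E ≤ monoGroup h := hmono
  set φ : E →* Equiv.Perm (Fin n) := (permHom h).comp (Subgroup.inclusion hle) with hφ
  by_cases hinj : Function.Injective φ
  · exfalso
    have h8 := card_le_eight_of_exp_two hn7 φ.range (by
      rintro _ ⟨a, rfl⟩
      rw [← map_mul, show a * a = 1 from Subtype.ext (hexp a a.2), map_one])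
    rw [← Nat.card_congr (MonoidHom.ofInjective hinj).toEquiv] at h8
    omega
  rw [injective_iff_map_eq_one] at hinj
  push Not at hinj
  obtain ⟨g, hg1, hgne⟩ := hinj
  refine ⟨g, g.2, fun h0 => hgne (Subtype.ext h0), fun i => ?_⟩
  have h1 := permF_spec h (Subgroup.inclusion hle g) i
  have h2 : permF h (Subgroup.inclusion hle g) = 1 := hg1
  rwa [h2] at h1

variable [FiniteDimensional F V] [Finite F] [Finite V]

theorem OrthFrame.odd_refl_not_mem (h : OrthFrame Q e c) (hn : 5 ≤ Module.finrank F V) {vs : List V}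
    (hvs : ∀ v ∈ vs, Q v ≠ 0) (hodd : Odd vs.length) : (vs.map (refl Q)).prod ∉ commutator (orth Q) :=
  fun hm => Nat.not_even_iff_odd.2 hodd ((list_prod_mem_commutator_iff h.nondeg (Or.inr (by omega)) hvs).1 hm).1

theorem OrthFrame.refl_pair_mem (h : OrthFrame Q e c) (hn : 5 ≤ Module.finrank F V) {v w : V}
    (hv : Q v ≠ 0) (hw : Q w = Q v) : refl Q v * refl Q w ∈ commutator (orth Q) := by
  have := (list_prod_mem_commutator_iff h.nondeg (Or.inr (by omega)) (vs := [v, w]) (by simp [hv, hw])).2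
    ⟨by simp, by simp [hw, IsSquare.mul_self]⟩
  simpa using this

theorem OrthFrame.exists_fixed_of_diag (h : OrthFrame Q e c) (hn : 5 ≤ Module.finrank F V) (hn7 : n = 7)
    {d : orth Q} (hd : DiagF e d) (hC : d ∈ commutator (orth Q)) :
    ∃ i, (d : V ≃ₗ[F] V) (e i) = e i := by
  by_contra hc
  push Not at hc
  have heq : d = ((List.finRange n).map fun i => refl Q (e i)).prod := h.orth_ext fun i => by
    rw [h.list_refl_apply _ (List.nodup_finRange n), if_pos (List.mem_finRange i)]
    exact (hd i).resolve_left (hc i)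
  refine h.odd_refl_not_mem hn (vs := (List.finRange n).map e) (fun v hv => ?_) ?_ ?_
  · obtain ⟨i, -, rfl⟩ := List.mem_map.1 hv
    rw [h.val]; exact h.ne_zero
  · rw [List.length_map, List.length_finRange, hn7]; decide
  · rw [List.map_map]; exact heq ▸ hC

/-- Changing the signs on an even set. -/
theorem OrthFrame.exists_diag (h : OrthFrame Q e c) (hn : 5 ≤ Module.finrank F V) (S : Finset (Fin n))
    (hS : Even S.card) : ∃ g ∈ commutator (orth Q), DiagF e g ∧
      ∀ i, (g : V ≃ₗ[F] V) (e i) = if i ∈ S then -e i else e i := by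
  have hv : ∀ i, ((S.toList.map fun i => refl Q (e i)).prod : V ≃ₗ[F] V) (e i) = if i ∈ S then -e i else e i :=
    fun i => by rw [h.list_refl_apply _ S.nodup_toList]; simp
  refine ⟨_, ?_, fun i => ?_, hv⟩
  · have := (list_prod_mem_commutator_iff h.nondeg (Or.inr (by omega)) (vs := S.toList.map e) (fun v hv => by
      obtain ⟨i, -, rfl⟩ := List.mem_map.1 hv; rw [h.val]; exact h.ne_zero)).2
      ⟨by rw [List.length_map, Finset.length_toList]; exact hS, by
        rw [List.map_map, show ((fun v => Q v) ∘ e) = Function.const _ c from funext h.val, List.map_const,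
          List.prod_replicate, Finset.length_toList]
        exact hS.isSquare_pow c⟩
    rwa [List.map_map] at this
  · rw [hv]
    split_ifs
    · exact Or.inr rfl
    · exact Or.inl rfl

/-- Four distinct points covering the moved points of a permutation with at most two transpositions. -/
theorem exists_two_pairs (hn7 : n = 7) (π : Equiv.Perm (Fin n)) (hππ : ∀ i, π (π i) = i)
    (hR : (Finset.univ.filter fun i => i < π i).card ≤ 2) :
    ∃ f : Fin 4 → Fin n, Function.Injective f ∧ ∀ i, π i = i ∨ ((i = f 0 ∨ i = f 1) ∧ (π i = f 0 ∨ π i = f 1)) ∨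
      ((i = f 2 ∨ i = f 3) ∧ (π i = f 2 ∨ π i = f 3)) := by
  classical
  set R := Finset.univ.filter fun i => i < π i with hRdef
  have hmem : ∀ i, π i ≠ i → i ∈ R ∨ π i ∈ R := fun i hi => by
    rcases lt_or_gt_of_ne hi with h' | h'
    · exact Or.inr (by simp [hRdef, hππ, h'])
    · exact Or.inl (by simp [hRdef, h'])
  have hother : ∀ S : Finset (Fin n), S.card ≤ 3 → ∃ x, x ∉ S := fun S hS => by
    obtain ⟨x, -, hx⟩ := Finset.exists_mem_notMem_of_card_lt_card (s := S) (t := Finset.univ)
      (by simp; omega)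
    exact ⟨x, hx⟩
  have build : ∀ a b u v : Fin n, a ≠ b → u ≠ v → a ≠ u → a ≠ v → b ≠ u → b ≠ v →
      (∀ i, π i = i ∨ ((i = a ∨ i = b) ∧ (π i = a ∨ π i = b)) ∨ ((i = u ∨ i = v) ∧ (π i = u ∨ π i = v))) →
      ∃ f : Fin 4 → Fin n, Function.Injective f ∧ ∀ i, π i = i ∨
        ((i = f 0 ∨ i = f 1) ∧ (π i = f 0 ∨ π i = f 1)) ∨ ((i = f 2 ∨ i = f 3) ∧ (π i = f 2 ∨ π i = f 3)) := by
    intro a b u v h1 h2 h3 h4 h5 h6 hall
    refine ⟨![a, b, u, v], fun i j hij => ?_, hall⟩
    fin_cases i <;> fin_cases j <;>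
      simp [h1, h1.symm, h2, h2.symm, h3, h3.symm, h4, h4.symm, h5, h5.symm, h6, h6.symm] at hij ⊢
  have hpair : ∀ r ∈ R, ∀ i, i = r ∨ π i = r → (i = r ∨ i = π r) ∧ (π i = r ∨ π i = π r) := by
    rintro r - i (rfl | hi)
    · exact ⟨Or.inl rfl, Or.inr rfl⟩
    · exact ⟨Or.inr (by rw [← hi, hππ]), Or.inl hi⟩
  have hne : ∀ r ∈ R, r ≠ π r := fun r hr => ne_of_lt (Finset.mem_filter.1 hr).2
  rcases Nat.lt_or_ge R.card 1 with h0 | h1
  · let j : Fin 4 → Fin n := Fin.castLE (by omega)
    refine ⟨j, Fin.castLE_injective _, fun i => Or.inl ?_⟩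
    by_contra hi
    rw [Finset.card_eq_zero.1 (by omega : R.card = 0)] at hmem
    simpa using hmem i hi
  rcases Nat.lt_or_ge R.card 2 with h1' | h2
  · obtain ⟨r, hr⟩ := Finset.card_eq_one.1 (by omega : R.card = 1)
    have hrR : r ∈ R := by simp [hr]
    obtain ⟨u, hu⟩ := hother {r, π r} (Finset.card_le_two.trans (by omega))
    obtain ⟨v, hv⟩ := hother {r, π r, u} (Finset.card_le_three)
    simp only [Finset.mem_insert, Finset.mem_singleton, not_or] at hu hv
    refine build r (π r) u v (hne r hrR) (Ne.symm hv.2.2) (Ne.symm hu.1) (Ne.symm hv.1) (Ne.symm hu.2)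
      (Ne.symm hv.2.1) fun i => ?_
    by_cases hi : π i = i
    · exact Or.inl hi
    refine Or.inr (Or.inl (hpair r hrR i ?_))
    simpa [hr] using hmem i hi
  · obtain ⟨r, s, hrs, hr⟩ := Finset.card_eq_two.1 (by omega : R.card = 2)
    have hrR : r ∈ R := by simp [hr]
    have hsR : s ∈ R := by simp [hr]
    have hl1 := (Finset.mem_filter.1 hrR).2
    have hl2 := (Finset.mem_filter.1 hsR).2
    refine build r (π r) s (π s) (hne r hrR) (hne s hsR) hrs (fun he => ?_) (fun he => ?_)
      (fun he => hrs (π.injective he)) fun i => ?_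
    · rw [he, hππ] at hl1; exact lt_asymm hl1 hl2
    · rw [← he, hππ] at hl2; exact lt_asymm hl1 hl2
    by_cases hi : π i = i
    · exact Or.inl hi
    rcases hmem i hi with h' | h' <;> rw [hr] at h' <;>
      simp only [Finset.mem_insert, Finset.mem_singleton] at h' <;> rcases h' with h' | h'
    · exact Or.inr (Or.inl (hpair r hrR i (Or.inl h')))
    · exact Or.inr (Or.inr (hpair s hsR i (Or.inl h')))
    · exact Or.inr (Or.inl (hpair r hrR i (Or.inr h')))
    · exact Or.inr (Or.inr (hpair s hsR i (Or.inr h')))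

/-- Many sets of coordinates invariant under such a permutation. -/
theorem exists_even_invariant (hn7 : n = 7) (π : Equiv.Perm (Fin n)) (hππ : ∀ i, π (π i) = i)
    (hR : (Finset.univ.filter fun i => i < π i).card ≤ 2) :
    ∃ S : (Fin 4 → Bool) → Finset (Fin n), Function.Injective S ∧
      ∀ β, Even (S β).card ∧ ∀ i, (π i ∈ S β ↔ i ∈ S β) := by
  classical
  obtain ⟨f, hf, hπ⟩ := exists_two_pairs hn7 π hππ hR
  subst hn7
  let g : Fin 4 → Fin 7 := Fin.castLE (by omega)
  have hg : Function.Injective g := Fin.castLE_injective _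
  let σ : Equiv.Perm (Fin 7) := Equiv.extendSubtype
    ((Equiv.ofInjective g hg).symm.trans (Equiv.ofInjective f hf))
  have hσ : ∀ k : Fin 4, σ (g k) = f k := fun k => by
    have := Equiv.extendSubtype_apply_of_mem
      ((Equiv.ofInjective g hg).symm.trans (Equiv.ofInjective f hf)) (g k) ⟨k, rfl⟩
    simpa [σ, Equiv.ofInjective_symm_apply] using this
  let bit : (Fin 4 → Bool) → Fin 7 → Bool := fun β => ![β 0, β 0, β 1, β 1, β 2, xor (β 2) (β 3), β 3]
  refine ⟨fun β => (Finset.univ.filter fun k => bit β k = true).map σ.toEmbedding, ?_, fun β => ⟨?_, fun i => ?_⟩⟩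
  · intro β β' he
    have he' := Finset.map_injective _ he
    have hk : ∀ k, bit β k = bit β' k := fun k => by
      have := congrArg (k ∈ ·) he'
      simp only [Finset.mem_filter, Finset.mem_univ, true_and, eq_iff_iff] at this
      exact Bool.eq_iff_iff.2 this
    funext l
    fin_cases l
    exacts [hk 0, hk 2, hk 4, hk 6]
  · rw [Finset.card_map]
    revert β
    decide
  · have key : ∀ i, i ∈ (Finset.univ.filter fun k => bit β k = true).map σ.toEmbedding ↔
        bit β (σ.symm i) = true := fun i => by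
      rw [Finset.mem_map_equiv]; simp
    rw [key, key]
    have e : ∀ k, σ.symm (f k) = g k := fun k => by rw [← hσ k, Equiv.symm_apply_apply]
    rcases hπ i with h1 | ⟨h1, h2⟩ | ⟨h1, h2⟩
    · rw [h1]
    all_goals
      rcases h1 with h1 | h1 <;> rcases h2 with h2 | h2 <;> rw [h2, h1] <;> (try simp only [e]) <;> exact Iff.rfl

variable {M : Subgroup (orth Q)}
  (h : OrthFrame Q e c) (hn : 5 ≤ Module.finrank F V) (hn13 : 7 ≤ n)
  (hM : ∀ g ∈ commutator (orth Q), Mono e g → g ∈ M)
  (hG : ∀ m ∈ M, ∀ f, IsRootVec e f → (m : V ≃ₗ[F] V) f = f → Mono e m)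

include h in
/-- The image of a negated vector of a conjugated sign change. -/
theorem minus_supp (y : orth Q) {a b : Fin n} (hab : a ≠ b) {i : Fin n}
    (hi : ((y * flipTwo Q e a b * y⁻¹ : orth Q) : V ≃ₗ[F] V) (e i) = -e i) :
    ∀ r, r ≠ a → r ≠ b → coordAt Q e c r (((y⁻¹ : orth Q) : V ≃ₗ[F] V) (e i)) = 0 := by
  intro r hra hrb
  have h1 : (flipTwo Q e a b : V ≃ₗ[F] V) (((y⁻¹ : orth Q) : V ≃ₗ[F] V) (e i)) =
      -(((y⁻¹ : orth Q) : V ≃ₗ[F] V) (e i)) := by
    have h2 := congrArg ((y⁻¹ : orth Q) : V ≃ₗ[F] V) hi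
    simp only [orth_mul_apply, orth_inv_apply_apply, map_neg] at h2
    exact h2
  have h3 := orth_polar (flipTwo Q e a b) (e r) (((y⁻¹ : orth Q) : V ≃ₗ[F] V) (e i))
  rw [h1, flip_apply h hab, if_neg (by simp [hra, hrb]), polar_neg_right, h.polar_coord] at h3
  exact mul_left_cancel₀ (mul_ne_zero (mul_ne_zero h.two_ne h.two_ne) h.ne_zero)
    (by linear_combination -h3)

include h in
/-- A fixed vector of a conjugated sign change is orthogonal to the negated images. -/
theorem plus_zero (y : orth Q) {a b : Fin n} (hab : a ≠ b) {i : Fin n}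
    (hi : ((y * flipTwo Q e a b * y⁻¹ : orth Q) : V ≃ₗ[F] V) (e i) = e i) :
    coordAt Q e c i ((y : V ≃ₗ[F] V) (e a)) = 0 ∧ coordAt Q e c i ((y : V ≃ₗ[F] V) (e b)) = 0 := by
  have key : ∀ r, r = a ∨ r = b → coordAt Q e c i ((y : V ≃ₗ[F] V) (e r)) = 0 := fun r hr => by
    have h3 := orth_polar (y * flipTwo Q e a b * y⁻¹) (e i) ((y : V ≃ₗ[F] V) (e r))
    rw [hi, orth_mul_apply, orth_mul_apply, orth_inv_apply_apply, flip_apply h hab, if_pos hr, map_neg,
      polar_neg_right, h.polar_coord] at h3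
    exact mul_left_cancel₀ (mul_ne_zero (mul_ne_zero h.two_ne h.two_ne) h.ne_zero)
      (by linear_combination -h3)
  exact ⟨key a (Or.inl rfl), key b (Or.inr rfl)⟩

include h hn hn13 hM hG in
/-- A single image supported on one coordinate. -/
theorem mono_of_single {y : orth Q} (hy : y ∈ M) {a b : Fin n}
    (hsupp : ∀ i, i ≠ b → coordAt Q e c i ((y : V ≃ₗ[F] V) (e a)) = 0) : Mono e y := by
  set x := (y : V ≃ₗ[F] V) (e a) with hx
  have hex : x = coordAt Q e c b x • e b := by
    conv_lhs => rw [← h.expand x, Finset.sum_eq_single b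
      (fun i _ hi => by rw [hsupp i hi, zero_smul]) (by simp)]
  have hsq : coordAt Q e c b x * coordAt Q e c b x = 1 := by
    have : Q x = c := by rw [hx, orth_map, h.val]
    rw [hex, QuadraticMap.map_smul, h.val, smul_eq_mul] at this
    exact mul_right_cancel₀ h.ne_zero (by rw [this, one_mul])
  refine mono_of_maps_vec h hn hn13 hM hG hy (a := a) (k := b) ?_
  rcases mul_self_eq_one_iff.1 hsq with h' | h' <;> rw [h'] at hex
  · left; rw [← hx, hex, one_smul]
  · right; rw [← hx, hex, neg_one_smul]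

include h hn hn13 hM hG in
/-- A triple of frame vectors mapped into another one. -/
theorem mono_of_triple {y : orth Q} (hy : y ∈ M) {p q r : Fin n} (hpq : p ≠ q) (hqr : q ≠ r) (hpq_r : p ≠ r)
    {B : Finset (Fin n)} (hB : B.card ≤ 3)
    (hsupp : ∀ a, (a = p ∨ a = q ∨ a = r) → ∀ i ∉ B, coordAt Q e c i ((y : V ≃ₗ[F] V) (e a)) = 0) :
    Mono e y := by
  classical
  have claim : ∀ a b, (a = p ∨ a = q ∨ a = r) → (b = p ∨ b = q ∨ b = r) → a ≠ b → Mono e y ∨
      ∃ k ∈ B, ((y * flipTwo Q e a b * y⁻¹ : orth Q) : V ≃ₗ[F] V) (e k) = -e k ∧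
        ∀ i ∈ B, i ≠ k → ∃ j ∈ B, j ≠ i ∧ j ≠ k ∧
          (((y * flipTwo Q e a b * y⁻¹ : orth Q) : V ≃ₗ[F] V) (e i) = e j ∨
            ((y * flipTwo Q e a b * y⁻¹ : orth Q) : V ≃ₗ[F] V) (e i) = -e j) := by
    intro a b ha hb hab
    set X := y * flipTwo Q e a b * y⁻¹ with hX
    have hXM : X ∈ M := mul_mem (mul_mem hy (flip_mem_M h hn hM a b)) (inv_mem hy)
    have hout : ∀ i ∉ B, (X : V ≃ₗ[F] V) (e i) = e i := fun i hi => by
      have hz : ∀ a, (a = p ∨ a = q ∨ a = r) → polar Q ((y : V ≃ₗ[F] V) (e a)) (e i) = 0 := fun a ha => by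
        rw [polar_comm, h.polar_coord, hsupp a ha i hi, mul_zero]
      rw [hX, conj_flip_eq, orth_mul_apply, refl_apply_of_ortho (hz b hb), refl_apply_of_ortho (hz a ha)]
    obtain ⟨o, -, ho⟩ := Finset.exists_mem_notMem_of_card_lt_card (s := B) (t := Finset.univ)
      (by simp; omega)
    have hXm : Mono e X := hG X hXM (e o) (Or.inl ⟨o, rfl⟩) (hout o ho)
    have hXX : X * X = 1 := by
      rw [hX]
      calc y * flipTwo Q e a b * y⁻¹ * (y * flipTwo Q e a b * y⁻¹)
          = y * (flipTwo Q e a b * flipTwo Q e a b) * y⁻¹ := by group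
        _ = 1 := by rw [flip_mul_self h, mul_one, mul_inv_cancel]
    obtain ⟨π, s, hs, hπ⟩ := hXm.exists_perm h
    have hline : ∀ i, (X : V ≃ₗ[F] V) (e i) = e (π i) ∨ (X : V ≃ₗ[F] V) (e i) = -e (π i) := fun i => by
      rcases hs i with h' | h' <;> rw [hπ, h'] <;> simp
    have hππ : ∀ i, π (π i) = i := fun i => h.line_eq (x := (X : V ≃ₗ[F] V) ((X : V ≃ₗ[F] V) (e i)))
      (by
        rcases hline i with h1 | h1 <;> rcases hline (π i) with h2 | h2 <;> simp [h1, h2])
      (Or.inl (by rw [← orth_mul_apply, hXX]; rfl))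
    have hπout : ∀ i ∉ B, π i = i := fun i hi => h.line_eq (hline i) (Or.inl (hout i hi))
    have hπB : ∀ i ∈ B, π i ∈ B := fun i hi => by
      by_contra hc
      have := hπout _ hc
      exact hc (by rw [π.injective this]; exact hi)
    by_cases hid : ∀ i, π i = i
    · left
      by_cases htwo : ∃ k l, k ≠ l ∧ (X : V ≃ₗ[F] V) (e k) = -e k ∧ (X : V ≃ₗ[F] V) (e l) = -e l
      · obtain ⟨k, l, hkl, hk, hl⟩ := htwo
        have := (mono_of_plane h hn hn13 hM hG (inv_mem hy) hkl hab (minus_supp h y hab hk)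
          (minus_supp h y hab hl)).inv h
        rwa [inv_inv] at this
      push Not at htwo
      obtain ⟨k, hk⟩ : ∃ k, ∀ i, i ≠ k → (X : V ≃ₗ[F] V) (e i) = e i := by
        by_cases hone : ∃ k, (X : V ≃ₗ[F] V) (e k) = -e k
        · obtain ⟨k, hk⟩ := hone
          refine ⟨k, fun i hi => ?_⟩
          have h1 := hline i
          rw [hid] at h1
          exact h1.resolve_right (htwo k i (Ne.symm hi) hk)
        · push Not at hone
          refine ⟨o, fun i _ => ?_⟩
          have h1 := hline i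
          rw [hid] at h1
          exact h1.resolve_right (hone i)
      exact mono_of_single h hn hn13 hM hG hy fun i hi => (plus_zero h y hab (hk i hi)).1
    push Not at hid
    obtain ⟨i, hi⟩ := hid
    have hiB : i ∈ B := by by_contra hc; exact hi (hπout i hc)
    set j := π i with hj
    have hjB : j ∈ B := hπB i hiB
    by_cases hk : ∃ k ∈ B, k ≠ i ∧ k ≠ j ∧ (X : V ≃ₗ[F] V) (e k) = -e k
    · obtain ⟨k, hkB, hki, hkj, hk⟩ := hk
      right
      have hBeq : B = {i, j, k} := (Finset.eq_of_subset_of_card_le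
        (by intro x hx; simp only [Finset.mem_insert, Finset.mem_singleton] at hx
            rcases hx with rfl | rfl | rfl <;> assumption)
        (by rw [Finset.card_eq_three.2 ⟨i, j, k, Ne.symm hi, Ne.symm hki, Ne.symm hkj, rfl⟩]; exact hB)).symm
      refine ⟨k, hkB, hk, fun l hl hlk => ⟨π l, hπB l hl, ?_, ?_, hline l⟩⟩
      all_goals
        rw [hBeq] at hl
        simp only [Finset.mem_insert, Finset.mem_singleton] at hl
        rcases hl with rfl | rfl | rfl
      · exact hi
      · rw [hj, hππ]; exact Ne.symm hi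
      · exact absurd rfl hlk
      · exact Ne.symm hkj
      · rw [hj, hππ]; exact Ne.symm hki
      · exact absurd rfl hlk
    left
    push Not at hk
    have hfix : ∀ l, l ≠ i → l ≠ j → (X : V ≃ₗ[F] V) (e l) = e l := fun l hli hlj => by
      by_cases hlB : l ∈ B
      swap
      · exact hout l hlB
      have hπl : π l = l := by
        by_contra hc
        have h1 : π l ≠ i := fun he => hlj (by rw [hj, ← he, hππ])
        have h2 : π l ≠ j := fun he => hli (π.injective he)
        have h4 := Finset.card_le_card (show ({i, j, l, π l} : Finset (Fin n)) ⊆ B by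
          intro x hx; simp only [Finset.mem_insert, Finset.mem_singleton] at hx
          rcases hx with rfl | rfl | rfl | rfl
          exacts [hiB, hjB, hlB, hπB _ hlB])
        rw [Finset.card_insert_of_notMem (by simp [Ne.symm hi, Ne.symm hli, Ne.symm h1]),
          Finset.card_eq_three.2 ⟨j, l, π l, Ne.symm hlj, Ne.symm h2, Ne.symm hc, rfl⟩] at h4
        omega
      have h1 := hline l
      rw [hπl] at h1
      exact h1.resolve_right (hk l hlB hli hlj)
    exact mono_of_plane h hn hn13 hM hG hy hab (Ne.symm hi)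
      (fun l h1 h2 => (plus_zero h y hab (hfix l h1 h2)).1)
      (fun l h1 h2 => (plus_zero h y hab (hfix l h1 h2)).2)
  rcases claim p q (Or.inl rfl) (Or.inr (Or.inl rfl)) hpq with h1 | ⟨k, hkB, hak, hperma⟩
  · exact h1
  rcases claim q r (Or.inr (Or.inl rfl)) (Or.inr (Or.inr rfl)) hqr with h1 | ⟨k', hk'B, hbk, hpermb⟩
  · exact h1
  rcases eq_or_ne k k' with rfl | hkk
  · -- a common negated vector is the image of the common index
    have s1 := minus_supp h y hpq hak
    have s2 := minus_supp h y hqr hbk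
    have := (mono_of_single h hn hn13 hM hG (inv_mem hy) (a := k) (b := q) fun l hl => by
      by_cases hlp : l = p
      · by_cases hlr : l = r
        · exact absurd (hlp.symm.trans hlr) (fun hpr => hpq_r hpr)
        · exact s2 l hl hlr
      · exact s1 l hlp hl).inv h
    rwa [inv_inv] at this
  exfalso
  obtain ⟨j, hjB, hjk', hjk, hj⟩ := hperma k' hk'B (Ne.symm hkk)
  obtain ⟨j', -, hj'j, -, hj'⟩ := hpermb j hjB hjk'
  set A := y * flipTwo Q e p q * y⁻¹ with hA
  set B' := y * flipTwo Q e q r * y⁻¹ with hB'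
  have hcomm : A * B' = B' * A := by
    rw [hA, hB']
    calc y * flipTwo Q e p q * y⁻¹ * (y * flipTwo Q e q r * y⁻¹)
        = y * (flipTwo Q e p q * flipTwo Q e q r) * y⁻¹ := by group
      _ = y * (flipTwo Q e q r * flipTwo Q e p q) * y⁻¹ := by rw [(flip_commute h _ _ _ _).eq]
      _ = _ := by group
  have h1 := congrArg (fun g : orth Q => (g : V ≃ₗ[F] V) (e k')) hcomm
  simp only [orth_mul_apply, hbk, map_neg] at h1
  refine hj'j (h.line_eq (x := (B' : V ≃ₗ[F] V) ((A : V ≃ₗ[F] V) (e k'))) ?_ ?_)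
  · rcases hj with hj | hj <;> rcases hj' with hj' | hj' <;> simp [hj, hj']
  · rw [← h1]
    rcases hj with hj | hj <;> simp [hj]

include h hn hn13 hM hG in
/-- An element conjugating a diagonal sign change into a diagonal one. -/
theorem mono_of_diag_conj (hn7 : n = 7) {y d d' : orth Q} (hy : y ∈ M) (hd : DiagF e d) (hd' : DiagF e d')
    (hd1 : d ≠ 1) (hfix : ∃ i, (d : V ≃ₗ[F] V) (e i) = e i) (hyd : y * d = d' * y) : Mono e y := by
  classical
  set U := Finset.univ.filter fun i => (d : V ≃ₗ[F] V) (e i) ≠ e i with hU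
  set U' := Finset.univ.filter fun i => (d' : V ≃ₗ[F] V) (e i) ≠ e i with hU'
  have hcm : ∀ x, (y : V ≃ₗ[F] V) ((d : V ≃ₗ[F] V) x) = (d' : V ≃ₗ[F] V) ((y : V ≃ₗ[F] V) x) := fun x => by
    rw [← orth_mul_apply, hyd, orth_mul_apply]
  -- the images respect the signs
  have hsupp : ∀ a i, ¬(a ∈ U ↔ i ∈ U') → coordAt Q e c i ((y : V ≃ₗ[F] V) (e a)) = 0 := by
    intro a i hai
    have h1 := orth_polar d' (e i) ((y : V ≃ₗ[F] V) (e a))
    rw [← hcm] at h1
    have hne : ∀ j : Fin n, -e j ≠ e j := fun j => Ne.symm (h.ne_neg j j)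
    rcases hd a with ha | ha <;> rcases hd' i with hi | hi <;>
      simp only [hU, hU', Finset.mem_filter, Finset.mem_univ, true_and, ha, hi, ne_eq, not_true_eq_false, hne,
        not_false_eq_true] at hai <;> first | exact absurd Iff.rfl hai | skip
    all_goals
      rw [ha, hi] at h1
      simp only [map_neg, polar_neg_left, polar_neg_right, h.polar_coord] at h1
      exact mul_left_cancel₀ (mul_ne_zero (mul_ne_zero h.two_ne h.two_ne) h.ne_zero)
        (by linear_combination (-1 : F) * h1)
  have hcard : ∀ A B : Finset (Fin n), (∀ a ∈ A, ∀ i ∉ B, coordAt Q e c i ((y : V ≃ₗ[F] V) (e a)) = 0) →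
      A.card ≤ B.card := by
    intro A B hAB
    let L : (A → F) →ₗ[F] (B → F) :=
      { toFun := fun φ i => coordAt Q e c (i : Fin n) ((y : V ≃ₗ[F] V) (∑ a : A, φ a • e a))
        map_add' := fun x z => by ext i; simp [add_smul, Finset.sum_add_distrib]
        map_smul' := fun t x => by ext i; simp [mul_smul, ← Finset.smul_sum] }
    have hinj : Function.Injective L := by
      rw [injective_iff_map_eq_zero]
      intro φ hφ
      have hzero : (y : V ≃ₗ[F] V) (∑ a : A, φ a • e a) = 0 := h.ext_coord fun i => by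
        rw [map_zero]
        by_cases hi : i ∈ B
        · exact congrFun hφ ⟨i, hi⟩
        · rw [map_sum, map_sum]
          exact Finset.sum_eq_zero fun a _ => by rw [map_smul, map_smul, hAB a a.2 i hi, smul_zero]
      have hsum : ∑ a : A, φ a • e a = 0 := (y : V ≃ₗ[F] V).map_eq_zero_iff.1 hzero
      funext a
      have h1 := congrArg (coordAt Q e c (a : Fin n)) hsum
      rw [map_sum, map_zero, Finset.sum_eq_single a (fun q _ hq => by
        rw [map_smul, h.coord_other (fun he => hq (Subtype.ext he.symm)), smul_zero]) (by simp),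
        map_smul, h.coord_self, smul_eq_mul, mul_one] at h1
      exact h1
    have := LinearMap.finrank_le_finrank_of_injective hinj
    simpa using this
  have hk1 := hcard U U' fun a ha i hi => hsupp a i (fun he => hi (he.1 ha))
  have hk2 := hcard Uᶜ U'ᶜ fun a ha i hi => hsupp a i
    (fun he => (Finset.mem_compl.1 ha) (he.2 (by simpa using hi)))
  rw [Finset.card_compl, Finset.card_compl, Fintype.card_fin] at hk2
  have hUn : U.card < n := by
    obtain ⟨i, hi⟩ := hfix
    have : U ⊆ Finset.univ.erase i := fun x hx => by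
      simp only [hU, Finset.mem_filter] at hx
      simp only [Finset.mem_erase, Finset.mem_univ, and_true]
      exact fun he => hx.2 (he ▸ hi)
    have := Finset.card_le_card this
    rw [Finset.card_erase_of_mem (Finset.mem_univ i), Finset.card_univ, Fintype.card_fin] at this
    omega
  have hU0 : 0 < U.card := by
    refine Finset.card_pos.2 ?_
    by_contra hc
    refine hd1 (h.orth_ext fun i => ?_)
    by_contra hi
    exact hc ⟨i, by simpa [hU] using hi⟩
  have hU'n := Finset.card_le_univ U'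
  rw [Fintype.card_fin] at hU'n
  have small : ∀ A B : Finset (Fin n), A.card = B.card → 0 < A.card → A.card ≤ 3 →
      (∀ a ∈ A, ∀ i ∉ B, coordAt Q e c i ((y : V ≃ₗ[F] V) (e a)) = 0) → Mono e y := by
    intro A B hAB h0 h3 hs
    rcases (show A.card = 1 ∨ A.card = 2 ∨ A.card = 3 by omega) with hc | hc | hc
    · obtain ⟨a, rfl⟩ := Finset.card_eq_one.1 hc
      obtain ⟨b, rfl⟩ := Finset.card_eq_one.1 (hAB ▸ hc : B.card = 1)
      exact mono_of_single h hn hn13 hM hG hy fun i hi => hs a (by simp) i (by simpa using hi)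
    · obtain ⟨a, b, hab, rfl⟩ := Finset.card_eq_two.1 hc
      obtain ⟨k, l, hkl, rfl⟩ := Finset.card_eq_two.1 (hAB ▸ hc : B.card = 2)
      exact mono_of_plane h hn hn13 hM hG hy hab hkl (fun i h1 h2 => hs a (by simp) i (by simp [h1, h2]))
        (fun i h1 h2 => hs b (by simp) i (by simp [h1, h2]))
    · obtain ⟨p, q, r, hpq, hpr, hqr, rfl⟩ := Finset.card_eq_three.1 hc
      exact mono_of_triple h hn hn13 hM hG hy hpq hqr hpr (B := B) (by omega)
        fun a ha => hs a (by simpa using ha)
  by_cases h3 : U.card ≤ 3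
  · exact small U U' (by omega) hU0 h3 fun a ha i hi => hsupp a i (fun he => hi (he.1 ha))
  · exact small Uᶜ U'ᶜ (by rw [Finset.card_compl, Finset.card_compl, Fintype.card_fin]; omega)
      (by rw [Finset.card_compl, Fintype.card_fin]; omega) (by rw [Finset.card_compl, Fintype.card_fin]; omega)
      fun a ha i hi => hsupp a i (fun he => (Finset.mem_compl.1 ha) (he.2 (by simpa using hi)))

include h hn hn13 hM hG in
/-- An element conjugating a monomial involution with two reflections to a monomial one. -/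
theorem mono_of_pair_conj (hn7 : n = 7) {y : orth Q} (hy : y ∈ M) {v w : V}
    (hcent : ∀ g ∈ M, g * (refl Q v * refl Q w) = refl Q v * refl Q w * g → Mono e g)
    (hsq : refl Q v * refl Q w * (refl Q v * refl Q w) = 1)
    (hx : Mono e (y * (refl Q v * refl Q w) * y⁻¹)) : Mono e y := by
  classical
  set x := y * (refl Q v * refl Q w) * y⁻¹ with hxdef
  have hxx : x * x = 1 := by
    rw [hxdef]
    calc y * (refl Q v * refl Q w) * y⁻¹ * (y * (refl Q v * refl Q w) * y⁻¹)
        = y * (refl Q v * refl Q w * (refl Q v * refl Q w)) * y⁻¹ := by group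
      _ = 1 := by rw [hsq, mul_one, mul_inv_cancel]
  obtain ⟨π, s, hs, hπ⟩ := hx.exists_perm h
  have hline : ∀ i, (x : V ≃ₗ[F] V) (e i) = e (π i) ∨ (x : V ≃ₗ[F] V) (e i) = -e (π i) := fun i => by
    rcases hs i with h' | h' <;> rw [hπ, h'] <;> simp
  have hππ : ∀ i, π (π i) = i := fun i => h.line_eq (x := (x : V ≃ₗ[F] V) ((x : V ≃ₗ[F] V) (e i)))
    (by rcases hline i with h1 | h1 <;> rcases hline (π i) with h2 | h2 <;> simp [h1, h2])
    (Or.inl (by rw [← orth_mul_apply, hxx]; rfl))
  have hR : (Finset.univ.filter fun i => i < π i).card ≤ 2 := by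
    have hxe : x = refl Q ((y : V ≃ₗ[F] V) v) * refl Q ((y : V ≃ₗ[F] V) w) := by
      rw [hxdef, ← refl_conj, ← refl_conj]; group
    refine le_trans (card_le_of_image h hx ∅
      (Submodule.span F {(y : V ≃ₗ[F] V) v} ⊔ Submodule.span F {(y : V ≃ₗ[F] V) w})
      (fun i => ⟨_, by rw [hxe]; exact pair_sub_mem _ _ _, fun _ _ => rfl⟩) _ (fun i hi => ⟨by simp, fun he => ?_⟩)
      (fun i hi i' hi' hne => ?_)) (finrank_span_pair_le _ _)
    · exact ne_of_lt (Finset.mem_filter.1 hi).2 (h.line_eq (Or.inl he) (hline i))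
    · rw [hπ, map_smul, h.coord_other, smul_zero]
      intro he
      have h3 := (Finset.mem_filter.1 hi').2
      have h4 := (Finset.mem_filter.1 hi).2
      rw [he, hππ] at h3
      exact lt_asymm h3 (he ▸ h4)
  obtain ⟨S, hSinj, hS⟩ := exists_even_invariant hn7 π hππ hR
  choose D hDC hDd hDv using fun β => h.exists_diag hn (S β) (hS β).1
  have hDx : ∀ β, D β * x = x * D β := fun β => h.orth_ext fun i => by
    have hiff := (hS β).2 i
    rw [orth_mul_apply (D β) x, orth_mul_apply x (D β), hDv β i]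
    rcases hline i with h1 | h1 <;> rw [h1] <;> simp only [map_neg, hDv β (π i), hiff] <;>
      split_ifs <;> simp [h1]
  let E : Subgroup (orth Q) :=
    { carrier := {g | DiagF e g ∧ g ∈ commutator (orth Q) ∧ g * x = x * g}
      one_mem' := ⟨fun i => Or.inl (by simp), one_mem _, by simp⟩
      mul_mem' := fun {g g'} hg hg' => ⟨fun i => by
          rw [orth_mul_apply]
          rcases hg.1 i with h1 | h1 <;> rcases hg'.1 i with h2 | h2 <;> simp [h1, h2],
        mul_mem hg.2.1 hg'.2.1, by rw [mul_assoc, hg'.2.2, ← mul_assoc, hg.2.2, mul_assoc]⟩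
      inv_mem' := fun {g} hg => by
        have : g⁻¹ = g := inv_eq_of_mul_eq_one_right (hg.1.sq_one h)
        simpa [this] using hg }
  have hinjD : Function.Injective fun β => (⟨D β, hDd β, hDC β, hDx β⟩ : E) := by
    intro β β' he
    refine hSinj (Finset.ext fun i => ?_)
    have h1 := congrArg (fun g : orth Q => (g : V ≃ₗ[F] V) (e i)) (congrArg Subtype.val he)
    simp only [hDv] at h1
    split_ifs at h1 with hb hb'
    · simp [hb, hb']
    · exact absurd h1.symm (h.ne_neg i i)
    · rename_i hb'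
      exact absurd h1 (h.ne_neg i i)
    · rename_i hb'
      simp [hb, hb']
  haveI : Finite (V ≃ₗ[F] V) :=
    Finite.of_injective (fun g : V ≃ₗ[F] V => (g : V → V)) DFunLike.coe_injective
  have h16 : 16 ≤ Nat.card E := by
    have := Nat.card_le_card_of_injective _ hinjD
    rwa [show Nat.card (Fin 4 → Bool) = 16 by simp] at this
  obtain ⟨g', ⟨g, hg, rfl⟩, hne, hgd⟩ := exists_diag_of_card h hn7
    (E := E.map (MulAut.conj y⁻¹).toMonoidHom)
    (by
      rintro _ ⟨g, hg, rfl⟩
      refine hcent _ (mul_mem (mul_mem (inv_mem hy) (hM g hg.2.1 hg.1.mono)) (by simpa using hy)) ?_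
      have hgx := hg.2.2
      simp only [MulEquiv.coe_toMonoidHom, MulAut.conj_apply, inv_inv]
      calc y⁻¹ * g * y * (refl Q v * refl Q w)
          = y⁻¹ * (g * x) * y := by rw [hxdef]; group
        _ = y⁻¹ * (x * g) * y := by rw [hgx]
        _ = _ := by rw [hxdef]; group)
    (by rintro _ ⟨g, hg, rfl⟩; rw [← map_mul, hg.1.sq_one h, map_one])
    (by rwa [Subgroup.card_map_of_injective (MulAut.conj y⁻¹).injective])
  simp only [MulEquiv.coe_toMonoidHom, MulAut.conj_apply, inv_inv] at hne hgd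
  refine mono_of_diag_conj h hn hn13 hM hG hn7 hy hgd hg.1 hne (h.exists_fixed_of_diag hn hn7 hgd ?_) (by group)
  have := Subgroup.Normal.conj_mem (inferInstance : (commutator (orth Q)).Normal) g hg.2.1 y⁻¹
  rwa [inv_inv] at this

include h hG in
/-- An element fixing the moved space of a monomial involution pointwise. -/
theorem mono_of_fix_moved {z : orth Q} (hz : Mono e z) (hz1 : z ≠ 1) {y : orth Q} (hy : y ∈ M)
    (hfix : ∀ u, (y : V ≃ₗ[F] V) ((z : V ≃ₗ[F] V) u - u) = (z : V ≃ₗ[F] V) u - u) : Mono e y := by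
  obtain ⟨v, hv⟩ : ∃ v, (z : V ≃ₗ[F] V) (e v) ≠ e v := by
    by_contra hc
    push Not at hc
    exact hz1 (h.orth_ext fun i => by rw [hc i]; rfl)
  obtain ⟨w, hw | hw⟩ := hz v
  · have hwv : w ≠ v := fun he => hv (by rw [hw, he])
    refine hG y hy (e w - e v) (Or.inr ⟨w, v, hwv, Or.inr rfl⟩) ?_
    rw [← hw]; exact hfix (e v)
  · have h1 := hfix (e v)
    rw [hw] at h1
    rcases eq_or_ne w v with rfl | hwv
    · refine hG y hy (e w) (Or.inl ⟨w, rfl⟩) ?_
      rw [show -e w - e w = (-2 : F) • e w by module, map_smul] at h1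
      exact (smul_right_injective V (neg_ne_zero.2 h.two_ne)) h1
    · refine hG y hy (e w + e v) (Or.inr ⟨w, v, hwv, Or.inl rfl⟩) ?_
      rw [show -e w - e v = -(e w + e v) by abel, map_neg, neg_inj] at h1
      exact h1

include h hn hn13 hM hG in
/-- The centraliser of a diagonal sign change consists of signed permutations. -/
theorem cent_diag (hn7 : n = 7) {d : orth Q} (hd : DiagF e d) (hd1 : d ≠ 1) (hdC : d ∈ commutator (orth Q))
    {y : orth Q} (hy : y ∈ M) (hyd : y * d = d * y) : Mono e y :=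
  mono_of_diag_conj h hn hn13 hM hG hn7 hy hd hd hd1 (h.exists_fixed_of_diag hn hn7 hd hdC) hyd

include h hn hn13 hM hG in
theorem cent_flip (hn7 : n = 7) {a b : Fin n} (hab : a ≠ b) {y : orth Q} (hy : y ∈ M)
    (hyd : y * flipTwo Q e a b = flipTwo Q e a b * y) : Mono e y := by
  refine cent_diag h hn hn13 hM hG hn7 (fun i => ?_) (fun he => ?_) (h.flip_mem hn) hy hyd
  · rw [flip_apply h hab]
    split_ifs
    · exact Or.inr rfl
    · exact Or.inl rfl
  · have := flip_apply h hab a
    rw [he, if_pos (Or.inl rfl)] at this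
    exact h.ne_neg _ _ this

include h hn hn13 hM hG in
/-- The centraliser of a monomial element fixing two frame vectors. -/
theorem cent_two_fixed (hn7 : n = 7) {z : orth Q} (hz : Mono e z) (hz1 : z ≠ 1) {p q : Fin n} (hpq : p ≠ q)
    (hp : (z : V ≃ₗ[F] V) (e p) = e p) (hq : (z : V ≃ₗ[F] V) (e q) = e q) {y : orth Q} (hy : y ∈ M)
    (hyz : y * z = z * y) : Mono e y := by
  refine mono_of_pair_conj h hn hn13 hM hG hn7 hy (v := e p) (w := e q)
    (fun g hg hgc => cent_flip h hn hn13 hM hG hn7 hpq hg hgc) (flip_mul_self h p q) ?_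
  refine mono_of_fix_moved h hG hz hz1
    (mul_mem (mul_mem hy (flip_mem_M h hn hM p q)) (inv_mem hy)) fun u => ?_
  obtain ⟨u', rfl⟩ := (y : V ≃ₗ[F] V).surjective u
  have hcz : (z : V ≃ₗ[F] V) ((y : V ≃ₗ[F] V) u') = (y : V ≃ₗ[F] V) ((z : V ≃ₗ[F] V) u') := by
    rw [← orth_mul_apply, ← hyz, orth_mul_apply]
  rw [hcz, ← map_sub, orth_mul_apply, orth_mul_apply, orth_inv_apply_apply]
  congr 1
  have hor : ∀ i, (z : V ≃ₗ[F] V) (e i) = e i → polar Q (e i) ((z : V ≃ₗ[F] V) u' - u') = 0 := fun i hi => by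
    have := orth_polar z (e i) u'
    rw [hi] at this
    rw [polar_sub_right, this, sub_self]
  rw [orth_mul_apply, refl_apply_of_ortho (hor q hq), refl_apply_of_ortho (hor p hp)]

include h hn hn13 hM hG in
/-- The centraliser of a monomial involution in `Ω` consists of signed permutations. -/
theorem cent_invol (hn7 : n = 7) {z : orth Q} (hz : Mono e z) (hz1 : z ≠ 1) (hzz : z * z = 1)
    (hzC : z ∈ commutator (orth Q)) {y : orth Q} (hy : y ∈ M) (hyz : y * z = z * y) : Mono e y := by
  classical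
  obtain ⟨π, s, hs, hπ⟩ := hz.exists_perm h
  have hline : ∀ i, (z : V ≃ₗ[F] V) (e i) = e (π i) ∨ (z : V ≃ₗ[F] V) (e i) = -e (π i) := fun i => by
    rcases hs i with h' | h' <;> rw [hπ, h'] <;> simp
  have hs2 : ∀ i, s i * s i = 1 := fun i => by rcases hs i with h' | h' <;> rw [h'] <;> ring
  have hππ : ∀ i, π (π i) = i := fun i => h.line_eq (x := (z : V ≃ₗ[F] V) ((z : V ≃ₗ[F] V) (e i)))
    (by rcases hline i with h1 | h1 <;> rcases hline (π i) with h2 | h2 <;> simp [h1, h2])
    (Or.inl (by rw [← orth_mul_apply, hzz]; rfl))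
  by_cases hid : ∀ i, π i = i
  · exact cent_diag h hn hn13 hM hG hn7 (fun i => by simpa [hid i] using hline i) hz1 hzC hy hyz
  push Not at hid
  obtain ⟨a, ha⟩ := hid
  set b := π a with hb
  -- the fixed root of a transposition
  have hroot : ∀ a, π a ≠ a → ∃ w, (w = e a + e (π a) ∨ w = e a - e (π a)) ∧ w = e a + s a • e (π a) ∧
      (z : V ≃ₗ[F] V) w = w := by
    intro a ha
    refine ⟨e a + s a • e (π a), ?_, rfl, ?_⟩
    · rcases hs a with h' | h' <;> rw [h']
      · left; rw [one_smul]
      · right; rw [neg_one_smul, sub_eq_add_neg]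
    · have hzb : (z : V ≃ₗ[F] V) (e (π a)) = s a • e a := by
        have h1 : (z : V ≃ₗ[F] V) ((z : V ≃ₗ[F] V) (e a)) = e a := by rw [← orth_mul_apply, hzz]; rfl
        rw [hπ a, map_smul] at h1
        have h3 := congrArg (s a • ·) h1
        simp only [smul_smul, hs2, one_smul] at h3
        exact h3
      rw [map_add, map_smul, hzb, hπ a, smul_smul, hs2, one_smul, add_comm]
  by_cases h2 : ∃ u, u ≠ a ∧ u ≠ b ∧ π u ≠ u
  · obtain ⟨u, hua, hub, hu⟩ := h2
    set v := π u with hv
    obtain ⟨wa, hwa, -, hza⟩ := hroot a ha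
    obtain ⟨wu, hwu, -, hzu⟩ := hroot u hu
    rw [← hb] at hwa
    rw [← hv] at hwu
    have hva : v ≠ a := fun he => hub (by rw [hb, ← he, hv, hππ])
    have hvb : v ≠ b := fun he => hua (π.injective he)
    have hRa : IsRootVec e wa := Or.inr ⟨a, b, Ne.symm ha, hwa⟩
    have hRu : IsRootVec e wu := Or.inr ⟨u, v, Ne.symm hu, hwu⟩
    have hQa : Q wa = 2 * c := by rcases hwa with rfl | rfl; exacts [h.val_add (Ne.symm ha), h.val_sub (Ne.symm ha)]
    have hQu : Q wu = 2 * c := by rcases hwu with rfl | rfl; exacts [h.val_add (Ne.symm hu), h.val_sub (Ne.symm hu)]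
    have hne : Q wa ≠ 0 := hRa.ne_zero h
    have hor : polar Q wa wu = 0 := by
      rcases hwa with rfl | rfl <;> rcases hwu with rfl | rfl <;>
        simp [polar_add_left, polar_add_right, polar_sub_left, polar_sub_right, h.ortho (Ne.symm hua),
          h.ortho (Ne.symm hva), h.ortho (Ne.symm hub), h.ortho (Ne.symm hvb)]
    set hh := refl Q wa * refl Q wu with hhdef
    have hhm : Mono e hh := (hRa.mono_refl h).mul (hRu.mono_refl h)
    have hhC : hh ∈ commutator (orth Q) := h.refl_pair_mem hn hne (hQu.trans hQa.symm)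
    have hh1 : hh ≠ 1 := fun he => by
      have h1 : (hh : V ≃ₗ[F] V) wa = -wa := by
        rw [orth_mul_apply, refl_apply_of_ortho (show polar Q wu wa = 0 by rw [polar_comm]; exact hor), refl_apply_self hne]
      rw [he] at h1
      have h3 : (2 : F) • wa = 0 := by
        rw [two_smul]; exact eq_neg_iff_add_eq_zero.mp h1
      exact hne (by rw [(smul_eq_zero.1 h3).resolve_left h.two_ne, QuadraticMap.map_zero])
    have hsq : hh * hh = 1 := by
      have h1 : refl Q wu * refl Q wa = refl Q wa * refl Q wu := by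
        have := refl_conj (refl Q wa) wu
        rw [refl_apply_of_ortho hor, refl_inv] at this
        calc refl Q wu * refl Q wa = refl Q wa * refl Q wu * refl Q wa * refl Q wa := by rw [this]
          _ = refl Q wa * refl Q wu := by rw [mul_assoc _ (refl Q wa) (refl Q wa), refl_mul_self, mul_one]
      rw [hhdef]
      calc refl Q wa * refl Q wu * (refl Q wa * refl Q wu)
          = refl Q wa * (refl Q wu * refl Q wa) * refl Q wu := by group
        _ = refl Q wa * refl Q wa * (refl Q wu * refl Q wu) := by rw [h1]; group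
        _ = 1 := by rw [refl_mul_self, refl_mul_self, mul_one]
    obtain ⟨p, -, hp⟩ := Finset.exists_mem_notMem_of_card_lt_card (s := ({a, b, u, v} : Finset (Fin n)))
      (t := Finset.univ) (lt_of_le_of_lt Finset.card_le_four (by simp; omega))
    obtain ⟨q, -, hq⟩ := Finset.exists_mem_notMem_of_card_lt_card (s := ({a, b, u, v, p} : Finset (Fin n)))
      (t := Finset.univ) (lt_of_le_of_lt (Finset.card_insert_le _ _)
        (lt_of_le_of_lt (Nat.succ_le_succ Finset.card_le_four) (by simp; omega)))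
    simp only [Finset.mem_insert, Finset.mem_singleton, not_or] at hp hq
    have hfixh : ∀ i, i ≠ a → i ≠ b → i ≠ u → i ≠ v → (hh : V ≃ₗ[F] V) (e i) = e i := by
      intro i h1 h2 h3 h4
      have z1 : polar Q wa (e i) = 0 := by
        rcases hwa with rfl | rfl <;>
          simp [polar_add_left, polar_sub_left, h.ortho (Ne.symm h1), h.ortho (Ne.symm h2)]
      have z2 : polar Q wu (e i) = 0 := by
        rcases hwu with rfl | rfl <;>
          simp [polar_add_left, polar_sub_left, h.ortho (Ne.symm h3), h.ortho (Ne.symm h4)]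
      rw [orth_mul_apply, refl_apply_of_ortho z2, refl_apply_of_ortho z1]
    refine mono_of_pair_conj h hn hn13 hM hG hn7 hy (v := wa) (w := wu)
      (fun g hg hgc => cent_two_fixed h hn hn13 hM hG hn7 hhm hh1 (Ne.symm hq.2.2.2.2)
        (hfixh p hp.1 hp.2.1 hp.2.2.1 hp.2.2.2) (hfixh q hq.1 hq.2.1 hq.2.2.1 hq.2.2.2.1) hg hgc) hsq ?_
    refine mono_of_fix_moved h hG hz hz1 (mul_mem (mul_mem hy (hM _ hhC hhm)) (inv_mem hy)) fun u => ?_
    obtain ⟨u', rfl⟩ := (y : V ≃ₗ[F] V).surjective u
    have hcz : (z : V ≃ₗ[F] V) ((y : V ≃ₗ[F] V) u') = (y : V ≃ₗ[F] V) ((z : V ≃ₗ[F] V) u') := by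
      rw [← orth_mul_apply, ← hyz, orth_mul_apply]
    rw [hcz, ← map_sub, orth_mul_apply, orth_mul_apply, orth_inv_apply_apply]
    congr 1
    have hfx : ∀ w, (z : V ≃ₗ[F] V) w = w → polar Q w ((z : V ≃ₗ[F] V) u' - u') = 0 := fun w hw => by
      have := orth_polar z w u'
      rw [hw] at this
      rw [polar_sub_right, this, sub_self]
    rw [orth_mul_apply, refl_apply_of_ortho (hfx wu hzu), refl_apply_of_ortho (hfx wa hza)]
  push Not at h2
  -- one transposition
  by_cases htwo : ∃ p q, p ≠ q ∧ (z : V ≃ₗ[F] V) (e p) = e p ∧ (z : V ≃ₗ[F] V) (e q) = e q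
  · obtain ⟨p, q, hpq, hp, hq⟩ := htwo
    exact cent_two_fixed h hn hn13 hM hG hn7 hz hz1 hpq hp hq hy hyz
  push Not at htwo
  obtain ⟨r, hr, hrs, hzr⟩ := hroot a ha
  by_cases hone : ∃ o, (z : V ≃ₗ[F] V) (e o) = e o
  · exfalso
    obtain ⟨o, ho⟩ := hone
    have hoa : o ≠ a := fun he => ha (h.line_eq (hline a) (Or.inl (he ▸ ho)))
    have hob : o ≠ b := fun he => ha (by
      have h1 := h.line_eq (hline b) (Or.inl (he ▸ ho))
      rw [hb, hππ] at h1
      exact h1.symm)
    set r₀ := e a - s a • e b with hr₀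
    have hQr₀ : Q r₀ ≠ 0 := by
      rcases hs a with h' | h'
      · rw [hr₀, h', one_smul, h.val_sub (Ne.symm ha)]; exact mul_ne_zero h.two_ne h.ne_zero
      · rw [hr₀, h', neg_one_smul, sub_neg_eq_add, h.val_add (Ne.symm ha)]; exact mul_ne_zero h.two_ne h.ne_zero
    set T : Finset (Fin n) := (({a, b, o} : Finset (Fin n)))ᶜ with hT
    have hTc : T.card = 4 := by
      rw [hT, Finset.card_compl, Fintype.card_fin,
        Finset.card_eq_three.2 ⟨a, b, o, Ne.symm ha, Ne.symm hoa, Ne.symm hob, rfl⟩, hn7]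
    have heq : z = refl Q r₀ * (T.toList.map fun i => refl Q (e i)).prod := by
      refine h.orth_ext fun i => ?_
      rw [orth_mul_apply, h.list_refl_apply _ T.nodup_toList]
      have hTm : i ∈ T.toList ↔ i ≠ a ∧ i ≠ b ∧ i ≠ o := by simp [hT]
      rcases eq_or_ne i a with rfl | hia
      · rw [if_neg (fun h' => (hTm.1 h').1 rfl), hπ]
        rcases hs i with h' | h'
        · rw [hr₀, h', one_smul, h.swap_left (Ne.symm ha)]
        · rw [hr₀, h', neg_one_smul, refl_apply, polar_sub_left, polar_neg_left, polar_self',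
            h.val, polar_comm _ (e b), h.ortho (Ne.symm ha), sub_neg_eq_add, h.val_add (Ne.symm ha)]
          have hc2 := mul_ne_zero h.two_ne h.ne_zero
          simp only [sub_zero, neg_zero]
          rw [show (2 * c)⁻¹ * (2 * c) = 1 from inv_mul_cancel₀ hc2, one_smul]
          abel
      rcases eq_or_ne i b with rfl | hib
      · rw [if_neg (fun h' => (hTm.1 h').2.1 rfl)]
        have hzb : (z : V ≃ₗ[F] V) (e b) = s a • e a := by
          have h1 : (z : V ≃ₗ[F] V) ((z : V ≃ₗ[F] V) (e a)) = e a := by rw [← orth_mul_apply, hzz]; rfl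
          rw [hπ a, map_smul] at h1
          have h3 := congrArg (s a • ·) h1
          simp only [smul_smul, hs2, one_smul] at h3
          exact h3
        rw [hzb]
        rcases hs a with h' | h'
        · rw [hr₀, h', one_smul, one_smul, h.swap_right (Ne.symm ha)]
        · rw [hr₀, h', neg_one_smul, neg_one_smul, refl_apply, polar_sub_left, polar_neg_left, polar_self',
            h.val, h.ortho (Ne.symm ha), sub_neg_eq_add, h.val_add (Ne.symm ha)]
          have hc2 := mul_ne_zero h.two_ne h.ne_zero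
          simp only [zero_add, zero_sub, neg_neg]
          rw [show (2 * c)⁻¹ * (2 * c) = 1 from inv_mul_cancel₀ hc2, one_smul]
          abel
      have hor : polar Q r₀ (e i) = 0 := by
        simp [hr₀, polar_sub_left, polar_smul_left, h.ortho (Ne.symm hia), h.ortho (Ne.symm hib)]
      rcases eq_or_ne i o with rfl | hio
      · rw [if_neg (fun h' => (hTm.1 h').2.2 rfl), refl_apply_of_ortho hor, ho]
      · rw [if_pos (hTm.2 ⟨hia, hib, hio⟩), map_neg, refl_apply_of_ortho hor]
        have h1 := hline i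
        rw [h2 i hia hib] at h1
        exact h1.resolve_left (fun h' => htwo o i (Ne.symm hio) ho h')
    refine h.odd_refl_not_mem hn (vs := r₀ :: T.toList.map e) ?_ ?_ ?_
    · intro v hv
      rcases List.mem_cons.1 hv with rfl | hv
      · exact hQr₀
      · obtain ⟨i, -, rfl⟩ := List.mem_map.1 hv
        rw [h.val]; exact h.ne_zero
    · rw [List.length_cons, List.length_map, Finset.length_toList, hTc]; decide
    · rw [List.map_cons, List.prod_cons, List.map_map]
      exact heq ▸ hzC
  push Not at hone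
  have hminus : ∀ i, i ≠ a → i ≠ b → (z : V ≃ₗ[F] V) (e i) = -e i := fun i hia hib => by
    have h1 := hline i
    rw [h2 i hia hib] at h1
    exact h1.resolve_left (hone i)
  -- the fixed line
  set w := (y : V ≃ₗ[F] V) r with hw
  have hzw : (z : V ≃ₗ[F] V) w = w := by rw [hw, ← orth_mul_apply, ← hyz, orth_mul_apply, hzr]
  have hcw : ∀ i, coordAt Q e c i w = coordAt Q e c i ((z : V ≃ₗ[F] V) w) := fun i => by rw [hzw]
  have hpol : ∀ i, polar Q ((z : V ≃ₗ[F] V) (e i)) w = polar Q (e i) w := fun i => by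
    conv_rhs => rw [← orth_polar z, hzw]
  have hwc : w = coordAt Q e c a w • r := h.ext_coord fun i => by
    rw [hrs, ← hb, map_smul, map_add, map_smul, h.coord_vec, h.coord_vec, smul_eq_mul, smul_eq_mul]
    rcases eq_or_ne i a with rfl | hia
    · rw [if_pos rfl, if_neg (Ne.symm ha)]; ring
    rcases eq_or_ne i b with rfl | hib
    · rw [if_neg ha, if_pos rfl]
      have h1 := hpol a
      rw [hπ, polar_smul_left, h.polar_coord, h.polar_coord, smul_eq_mul] at h1
      have h3 : s a * coordAt Q e c b w = coordAt Q e c a w :=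
        mul_left_cancel₀ (mul_ne_zero h.two_ne h.ne_zero) (by linear_combination h1)
      linear_combination (s a) * h3 - (coordAt Q e c b w) * hs2 a
    · rw [if_neg hia, if_neg hib]
      have h1 := hpol i
      rw [hminus i hia hib, polar_neg_left, h.polar_coord] at h1
      have h3 : coordAt Q e c i w = 0 :=
        mul_left_cancel₀ (mul_ne_zero (mul_ne_zero h.two_ne h.two_ne) h.ne_zero) (by linear_combination -h1)
      rw [h3]; ring
  have hRr : IsRootVec e r := Or.inr ⟨a, b, Ne.symm ha, hr⟩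
  have hsq : coordAt Q e c a w * coordAt Q e c a w = 1 := by
    have h1 : Q w = Q r := by rw [hw, orth_map]
    rw [hwc, QuadraticMap.map_smul, smul_eq_mul] at h1
    exact mul_right_cancel₀ (hRr.ne_zero h) (h1.trans (one_mul _).symm)
  rcases mul_self_eq_one_iff.1 hsq with h' | h'
  · rw [h', one_smul] at hwc
    exact hG y hy r hRr (hw ▸ hwc)
  · rw [h', neg_one_smul] at hwc
    have hfix : ((flipTwo Q e a b * y : orth Q) : V ≃ₗ[F] V) r = r := by
      rw [orth_mul_apply, ← hw, hwc, map_neg, hrs, ← hb, map_add, map_smul, flip_apply h (Ne.symm ha),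
        flip_apply h (Ne.symm ha), if_pos (Or.inl rfl), if_pos (Or.inr rfl)]
      module
    have h3 := hG _ (mul_mem (flip_mem_M h hn hM a b) hy) r hRr hfix
    have := (h.mono_flip a b).mul h3
    rwa [← mul_assoc, flip_mul_self h, one_mul] at this

include h hn hn13 hM hG in
/-- Seven vectors: the overgroup consists of signed permutations. -/
theorem mono_of_no_fixed_root_seven (hn7 : n = 7) {m : orth Q} (hm : m ∈ M) : Mono e m := by
  classical
  let ι : Fin 4 → Fin n := Fin.castLE (by omega)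
  have hι : ∀ {i j : Fin 4}, i ≠ j → ι i ≠ ι j := fun hij h0 =>
    hij (Fin.castLE_injective (by omega) h0)
  set S0 : Finset (Fin n) := Finset.univ.image ι with hS0
  have hS0c : S0.card = 4 := by
    rw [hS0, Finset.card_image_of_injective _ (Fin.castLE_injective _)]; simp
  obtain ⟨t, htC, htd, htv⟩ := h.exists_diag hn S0 (by rw [hS0c]; decide)
  have hmem0 : ∀ a, ι a ∈ S0 := fun a => Finset.mem_image.2 ⟨a, Finset.mem_univ a, rfl⟩
  have htM : t ∈ M := hM t htC htd.mono
  have htt : t * t = 1 := htd.sq_one h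
  have ht1 : t ≠ 1 := fun he => by
    have := htv (ι 0)
    rw [he, if_pos (hmem0 0)] at this
    exact h.ne_neg _ _ this
  set a := ι 0
  set b := ι 1
  have hab : a ≠ b := hι (by decide)
  set x := m * flipTwo Q e a b * m⁻¹ with hxd
  have hxM : x ∈ M := mul_mem (mul_mem hm (flip_mem_M h hn hM a b)) (inv_mem hm)
  have hxC : x ∈ commutator (orth Q) :=
    Subgroup.Normal.conj_mem (inferInstance : (commutator (orth Q)).Normal) _ (h.flip_mem hn) m
  have hxx : x * x = 1 := by
    rw [hxd]
    calc m * flipTwo Q e a b * m⁻¹ * (m * flipTwo Q e a b * m⁻¹)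
        = m * (flipTwo Q e a b * flipTwo Q e a b) * m⁻¹ := by group
      _ = 1 := by rw [flip_mul_self h, mul_one, mul_inv_cancel]
  set U := Submodule.span F {(m : V ≃ₗ[F] V) (e a)} ⊔ Submodule.span F {(m : V ≃ₗ[F] V) (e b)} with hU
  have hxsub : ∀ y, (x : V ≃ₗ[F] V) y - y ∈ U := fun y => by
    rw [hxd, conj_flip_eq]; exact pair_sub_mem _ _ y
  have hnc : ∀ g ∈ Subgroup.closure ({t, x} : Set (orth Q)), g * t * g⁻¹ ≠ x := by
    intro g _ he
    have hmemU : ∀ i, (g : V ≃ₗ[F] V) (e (ι i)) ∈ U := fun i => by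
      have h1 := hxsub ((g : V ≃ₗ[F] V) (e (ι i)))
      rw [← he, orth_mul_apply, orth_mul_apply, orth_inv_apply_apply, htv, if_pos (hmem0 i), map_neg,
        show ∀ y : V, -y - y = (-2 : F) • y from fun y => by module,
        Submodule.smul_mem_iff _ (neg_ne_zero.2 h.two_ne)] at h1
      exact h1
    let L : (Fin 4 → F) →ₗ[F] U :=
      ∑ i, (LinearMap.proj i : (Fin 4 → F) →ₗ[F] F).smulRight ⟨_, hmemU i⟩
    have hL : Function.Injective L := by
      rw [injective_iff_map_eq_zero]
      intro φ hφ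
      have h0 : ∑ i, φ i • (g : V ≃ₗ[F] V) (e (ι i)) = 0 := by
        have := congrArg Subtype.val hφ
        simpa [L] using this
      funext j
      have h1 := congrArg (polar Q ((g : V ≃ₗ[F] V) (e (ι j)))) h0
      rw [polar_zero_right, ← QuadraticMap.polarBilin_apply_apply, map_sum,
        Finset.sum_eq_single j (fun i _ hij => by
          rw [map_smul, QuadraticMap.polarBilin_apply_apply, orth_polar,
            h.ortho (hι (Ne.symm hij)), smul_zero]) (by simp), map_smul,
        QuadraticMap.polarBilin_apply_apply, orth_polar, polar_self', h.val, smul_eq_mul,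
        mul_eq_zero] at h1
      exact h1.resolve_right (mul_ne_zero h.two_ne h.ne_zero)
    have h1 := LinearMap.finrank_le_finrank_of_injective hL
    have h2 : Module.finrank F U ≤ 2 := finrank_span_pair_le _ _
    simp at h1
    omega
  have : Finite (V ≃ₗ[F] V) :=
    Finite.of_injective (fun g : V ≃ₗ[F] V => (g : V → V)) DFunLike.coe_injective
  obtain ⟨z, hzH, hzz, hz1, hzt, hzx⟩ := exists_central_involution htt hxx
    (Subgroup.subset_closure (by simp : t ∈ ({t, x} : Set (orth Q))))
    (Subgroup.subset_closure (by simp : x ∈ ({t, x} : Set (orth Q)))) hnc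
  have hzM : z ∈ M ⊓ commutator (orth Q) := by
    refine (Subgroup.closure_le _).2 ?_ hzH
    intro g hg
    rcases hg with rfl | rfl
    exacts [⟨htM, htC⟩, ⟨hxM, hxC⟩]
  have hzm : Mono e z := cent_diag h hn hn13 hM hG hn7 htd ht1 htC hzM.1 hzt
  have hxm : Mono e x := cent_invol h hn hn13 hM hG hn7 hzm hz1 hzz hzM.2 hxM hzx.symm
  exact mono_of_pair_conj h hn hn13 hM hG hn7 hm (v := e a) (w := e b)
    (fun g hg hgc => cent_flip h hn hn13 hM hG hn7 hab hg hgc) (flip_mul_self h a b) hxm

end Cfsg.Agent.H5
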