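import Cfsg.Agent.H5.FrameDescent
import Cfsg.Agent.H5.FrameSeven

/-!
A class vector off the roots leads to all of `Ω`, and so does an element moving the frame.
-/

set_option autoImplicit false
set_option maxHeartbeats 400000

namespace Cfsg.Agent.H5

open QuadraticMap hiding sq

variable {F V : Type*} [Field F] [AddCommGroup V] [Module F V] {Q : QuadraticForm F V} {n : ℕ}
  {e : Fin n → V} {c : F} {M : Subgroup (orth Q)} [FiniteDimensional F V] [Finite F] [Finite V]
  (h : OrthFrame Q e c) (hn : 5 ≤ Module.finrank F V) (hn13 : 7 ≤ n)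
  (hM : ∀ g ∈ commutator (orth Q), Mono e g → g ∈ M) (hMle : M ≤ commutator (orth Q))
  (hF : ∀ t : F, ∃ k : ℕ, (k : F) = t)

include h hn hM in
/-- Reflecting a vector with changed signs in the vector. -/
theorem exists_flip_reflect' {z : V} (hz : InR e M z) {S : Finset (Fin n)}
    (hS : Even S.card ∨ ∃ w ∉ S, coordAt Q e c w z = 0) :
    ∃ u, InR e M u ∧ Q u = Q z ∧ ∀ l, coordAt Q e c l u =
      if l ∈ S then (4 * (Q (partOn Q e c S z) / Q z) - 3) * coordAt Q e c l z
      else (4 * (Q (partOn Q e c S z) / Q z) - 1) * coordAt Q e c l z := by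
  classical
  obtain ⟨g, hgm, hgv, heven, -⟩ := exists_flips h hn hM S
  have hz' : InR e M (z - (2 : F) • partOn Q e c S z) := hz.flips h hn hM hS
  have hq' : Q (z - (2 : F) • partOn Q e c S z) = Q z := by rw [← h.flips_apply hgv, orth_map]
  refine ⟨_, hz.reflect h hn hM hz' (by rw [hq']; exact IsSquare.mul_self _),
    by rw [orth_map, hq'], fun l => ?_⟩
  have hp : polar Q z (partOn Q e c S z) = 2 * Q (partOn Q e c S z) := by
    rw [h.polar_partOn, h.map_partOn]; ring
  rw [refl_apply, map_sub, map_sub, map_smul, map_smul, h.coord_partOn, polar_sub_right,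
    polar_smul_right, polar_self', hp]
  have := hz.1
  simp only [smul_eq_mul]
  split_ifs <;> field_simp <;> ring

include h hn hM in
/-- Reflecting a vector with evenly many changed signs in the vector. -/
theorem exists_flip_reflect {z : V} (hz : InR e M z) {S : Finset (Fin n)} (hS : Even S.card) :
    ∃ u, InR e M u ∧ Q u = Q z ∧ ∀ l, coordAt Q e c l u =
      if l ∈ S then (4 * (Q (partOn Q e c S z) / Q z) - 3) * coordAt Q e c l z
      else (4 * (Q (partOn Q e c S z) / Q z) - 1) * coordAt Q e c l z :=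
  exists_flip_reflect' h hn hM hz (Or.inl hS)

include h hn hn13 hM hMle hF in
/-- A pair with different squares and anisotropic rest shortens the vector. -/
theorem descend_pair (h3 : (3 : F) ≠ 0) (h5 : (5 : F) ≠ 0) {z : V} (hz : InR e M z)
    (hk : n ≤ (fsupp Q e c z).card + 1) {i j : Fin n}
    (hi : i ∈ fsupp Q e c z) (hj : j ∈ fsupp Q e c z)
    (hne : coordAt Q e c i z ^ 2 ≠ coordAt Q e c j z ^ 2)
    (hr : c * (coordAt Q e c i z ^ 2 + coordAt Q e c j z ^ 2) ≠ Q z) :
    ∃ v, InR e M v ∧ 3 ≤ (fsupp Q e c v).card ∧ (fsupp Q e c v).card < (fsupp Q e c z).card := by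
  classical
  have hij : i ≠ j := fun he => hne (by rw [he])
  have hr' : Q (offPair Q e c z i j) ≠ 0 := by
    rw [h.map_offPair hij, sub_ne_zero]; exact Ne.symm hr
  rcases pair_big h hn hM hMle hF h3 hz hij (mem_fsupp.1 hi) (mem_fsupp.1 hj) hne hr' with hT | hv
  · obtain ⟨u, u', g, hT⟩ := hT
    obtain ⟨v, hv, hvs, -⟩ :=
      descend_tri h hn hn13 hM hF h3 h5 hz hij (mem_fsupp.1 hi) (mem_fsupp.1 hj) hr' hT
    refine ⟨v, hv, ?_, ?_⟩ <;> rw [hvs, Finset.card_erase_of_mem hi] <;> omega
  · have hs : fsupp Q e c (offPair Q e c z i j) = ((fsupp Q e c z).erase i).erase j := by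
      ext l
      simp only [Finset.mem_erase, mem_fsupp, h.coord_offPair hij]
      by_cases h1 : l = i
      · simp [h1]
      by_cases h2 : l = j
      · simp [h2]
      simp [h1, h2]
    refine ⟨_, hv, ?_, ?_⟩ <;>
      rw [hs, Finset.card_erase_of_mem (Finset.mem_erase.2 ⟨Ne.symm hij, hj⟩),
        Finset.card_erase_of_mem hi] <;> omega

/-- Nine coordinates split five and four with two squares summing to the value: not eighths. -/
theorem nine_not_eighth {a b q : F} (h5 : (5 : F) ≠ 0) (hq : q ≠ 0) (h1 : q = 5 * a + 4 * b)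
    (h2 : a + b = q) : 8 * a ≠ q := fun h0 => by
  have h25 : (5 : F) * 5 * q = 0 := by linear_combination -h0 - 8 * h1 - 32 * h2
  exact hq ((mul_eq_zero.1 h25).resolve_left (mul_ne_zero h5 h5))

include h hn hn13 hM hMle hF in
/-- Five or more coordinates with one square: shorter, or four changed signs. -/
theorem descend_equal (h10 : 10 ≤ n) (h3 : (3 : F) ≠ 0) {z : V} (hz : InR e M z)
    (hk : n ≤ (fsupp Q e c z).card + 1) {T : Finset (Fin n)} (hT : T ⊆ fsupp Q e c z)
    (hTc : 5 ≤ T.card) {σ : F} (h86 : 6 ≤ T.card ∨ 8 * (c * σ) ≠ Q z)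
    (hσ : ∀ i ∈ T, coordAt Q e c i z ^ 2 = σ) :
    (∃ v, InR e M v ∧ 3 ≤ (fsupp Q e c v).card ∧ (fsupp Q e c v).card < (fsupp Q e c z).card) ∨
      ∃ u s, InR e M u ∧ Q u = Q z ∧ 4 * c * σ = s * Q z ∧ s ≠ 0 ∧ 2 * s ≠ 1 ∧ 4 * s ≠ 1 ∧
        4 * s ≠ 3 ∧ fsupp Q e c u = fsupp Q e c z ∧ ∃ S ⊆ T, S.card = 4 ∧ ∀ l, coordAt Q e c l u =
          if l ∈ S then (4 * s - 3) * coordAt Q e c l z else (4 * s - 1) * coordAt Q e c l z := by
  classical
  obtain ⟨S, hST, hSc⟩ := Finset.exists_subset_card_eq (show 4 ≤ T.card by omega)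
  have hsum : ∀ {X : Finset (Fin n)}, X ⊆ T → Q (partOn Q e c X z) = c * (X.card * σ) := fun hX => by
    rw [h.map_partOn, Finset.sum_congr rfl (fun i hi => hσ i (hX hi)), Finset.sum_const, nsmul_eq_mul]
  obtain ⟨i₀, hi₀⟩ := Finset.card_pos.1 (show 0 < T.card by omega)
  have hσ0 : σ ≠ 0 := by
    rw [← hσ i₀ hi₀]; exact pow_ne_zero 2 (mem_fsupp.1 (hT hi₀))
  set s := 4 * c * σ / Q z with hs
  have hsq : 4 * c * σ = s * Q z := by rw [hs, div_mul_cancel₀ _ hz.1]
  have h4 : (4 : F) ≠ 0 := by
    rw [show (4 : F) = 2 * 2 by norm_num]; exact mul_ne_zero h.two_ne h.two_ne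
  have hs0 : s ≠ 0 := div_ne_zero (mul_ne_zero (mul_ne_zero h4 h.ne_zero) hσ0) hz.1
  obtain ⟨u, hu, hqu, huc⟩ := exists_flip_reflect h hn hM hz (S := S) (hSc ▸ ⟨2, rfl⟩)
  have hsS : Q (partOn Q e c S z) / Q z = s := by
    rw [hsum hST, hSc, hs]; push_cast; ring
  rw [hsS] at huc
  have hsupp : ∀ l, l ∈ fsupp Q e c u ↔ l ∈ fsupp Q e c z ∧
      (if l ∈ S then 4 * s - 3 else 4 * s - 1) ≠ 0 := fun l => by
    rw [mem_fsupp, mem_fsupp, huc]
    split_ifs <;> simp [and_comm]
  have hSz : S ⊆ fsupp Q e c z := hST.trans hT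
  by_cases h43 : 4 * s - 3 = 0
  · left
    have hs1 : 4 * s - 1 ≠ 0 := fun h0 => h.two_ne (by linear_combination h0 - h43)
    have : fsupp Q e c u = fsupp Q e c z \ S := by
      ext l
      rw [hsupp, Finset.mem_sdiff]
      by_cases hl : l ∈ S <;> simp [hl, h43, hs1]
    refine ⟨u, hu, ?_, ?_⟩ <;> rw [this, Finset.card_sdiff_of_subset hSz] <;> omega
  by_cases h41 : 4 * s - 1 = 0
  · left
    have : fsupp Q e c u = S := by
      ext l
      rw [hsupp]
      by_cases hl : l ∈ S
      · simp [hl, h43, hSz hl]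
      · simp [hl, h41]
    refine ⟨u, hu, ?_, ?_⟩ <;> rw [this, hSc] <;> omega
  by_cases h21 : 2 * s = 1
  · left
    obtain ⟨S₆, hS₆, hS₆c⟩ : ∃ S₆ ⊆ T, S₆.card = 6 := Finset.exists_subset_card_eq
      (h86.resolve_right (not_not.2 (by linear_combination 2 * hsq + Q z * h21)))
    obtain ⟨u', hu', -, huc'⟩ := exists_flip_reflect h hn hM hz (S := S₆) (hS₆c ▸ ⟨3, rfl⟩)
    have hs6 : 4 * (Q (partOn Q e c S₆ z) / Q z) = 3 := by
      rw [hsum hS₆, hS₆c]
      have hqz : 8 * c * σ = Q z := by linear_combination 2 * hsq + Q z * h21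
      have := hz.1
      push_cast
      field_simp
      linear_combination 3 * hqz
    have : fsupp Q e c u' = fsupp Q e c z \ S₆ := by
      ext l
      rw [mem_fsupp, huc', hs6, Finset.mem_sdiff, mem_fsupp]
      have h31 : (3 : F) - 1 ≠ 0 := fun h0 => h.two_ne (by linear_combination h0)
      by_cases hl : l ∈ S₆ <;> simp [hl, h31]
    refine ⟨u', hu', ?_, ?_⟩ <;> rw [this, Finset.card_sdiff_of_subset (hS₆.trans hT)] <;> omega
  right
  refine ⟨u, s, hu, hqu, hsq, hs0, h21, sub_ne_zero.1 h41, sub_ne_zero.1 h43, ?_, S, hST, hSc, huc⟩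
  ext l
  rw [hsupp]
  refine ⟨And.left, fun hl => ⟨hl, ?_⟩⟩
  split_ifs
  exacts [h43, h41]

include h hn hn13 hM hMle hF in
/-- Two squares with sum `Q z / c`. -/
theorem descend_two (h10 : 10 ≤ n) (h3 : (3 : F) ≠ 0) (h5 : (5 : F) ≠ 0) {z : V} (hz : InR e M z)
    (hk : n ≤ (fsupp Q e c z).card + 1) {T : Finset (Fin n)} (hT : T ⊆ fsupp Q e c z)
    (hTc : 5 ≤ T.card) {σ : F} (h86 : 6 ≤ T.card ∨ 8 * (c * σ) ≠ Q z)
    (hσ : ∀ i ∈ T, coordAt Q e c i z ^ 2 = σ) {l : Fin n}
    (hl : l ∈ fsupp Q e c z) (hlσ : coordAt Q e c l z ^ 2 ≠ σ)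
    (hsum : c * (σ + coordAt Q e c l z ^ 2) = Q z) :
    ∃ v, InR e M v ∧ 3 ≤ (fsupp Q e c v).card ∧ (fsupp Q e c v).card < (fsupp Q e c z).card := by
  classical
  rcases descend_equal h hn hn13 hM hMle hF (by omega) h3 hz hk hT hTc h86 hσ with h' | h'
  · exact h'
  obtain ⟨u, s, hu, hqu, hsq, hs0, h21, h41, h43, hus, S, hST, hSc, huc⟩ := h'
  obtain ⟨m, hm, hmS⟩ := Finset.exists_mem_notMem_of_card_lt_card (t := T) (s := S) (by omega)
  have hlS : l ∉ S := fun h0 => hlσ (hσ l (hST h0))
  have hum : coordAt Q e c m u ^ 2 = (4 * s - 1) ^ 2 * σ := by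
    rw [huc, if_neg hmS, mul_pow, hσ m hm]
  have hul : coordAt Q e c l u ^ 2 = (4 * s - 1) ^ 2 * coordAt Q e c l z ^ 2 := by
    rw [huc, if_neg hlS, mul_pow]
  obtain ⟨v, hv, hv3, hvk⟩ := descend_pair h hn hn13 hM hMle hF h3 h5 hu (by rw [hus]; exact hk)
    (i := m) (j := l) (by rw [hus]; exact hT hm) (by rw [hus]; exact hl)
    (by
      rw [hum, hul]
      exact fun h0 => hlσ (mul_left_cancel₀ (pow_ne_zero 2 (sub_ne_zero.2 h41)) h0).symm)
    (by
      rw [hum, hul, hqu]
      intro h0
      have h1 : ((4 * s - 1) ^ 2 - 1) * Q z = 0 := by linear_combination h0 - (4 * s - 1) ^ 2 * hsum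
      have h2 : (2 * 2 * 2 : F) * (s * (2 * s - 1)) = 0 := by
        linear_combination (mul_eq_zero.1 h1).resolve_right hz.1
      exact mul_ne_zero (mul_ne_zero (mul_ne_zero h.two_ne h.two_ne) h.two_ne)
        (mul_ne_zero hs0 (sub_ne_zero.2 h21)) h2)
  exact ⟨v, hv, hv3, by rw [← hus]; exact hvk⟩

include h hn hn13 hM hMle hF in
/-- Seven vectors: a long vector without a good pair gets shorter after changing signs. -/
theorem descend_long_seven (hn7 : n = 7) (h3 : (3 : F) ≠ 0) (h5 : (5 : F) ≠ 0) {z : V} (hz : InR e M z)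
    (hk : n ≤ (fsupp Q e c z).card + 1)
    (hgood : ∀ i ∈ fsupp Q e c z, ∀ j ∈ fsupp Q e c z, coordAt Q e c i z ^ 2 ≠ coordAt Q e c j z ^ 2 →
      c * (coordAt Q e c i z ^ 2 + coordAt Q e c j z ^ 2) = Q z) :
    ∃ v, InR e M v ∧ 3 ≤ (fsupp Q e c v).card ∧ (fsupp Q e c v).card < (fsupp Q e c z).card := by
  classical
  set K := fsupp Q e c z with hK
  have hKc : (fsupp Q e c z).card = K.card := rfl
  have hKn : K.card ≤ n := by simpa using Finset.card_le_univ K
  have h2 := h.two_ne
  have hc0 := h.ne_zero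
  have hv := h.val_fsupp z
  rw [← hK] at hv
  -- the vector with changed signs and the ratio of the changed part
  have finish : ∀ (S : Finset (Fin n)) (u : V) (a b : F), InR e M u → Q u = Q z →
      (∀ l, coordAt Q e c l u = if l ∈ S then a * coordAt Q e c l z else b * coordAt Q e c l z) →
      a ≠ 0 → b ≠ 0 → ∀ i ∈ K, i ∈ S → ∀ j ∈ K, j ∉ S →
      a ^ 2 * coordAt Q e c i z ^ 2 ≠ b ^ 2 * coordAt Q e c j z ^ 2 →
      c * (a ^ 2 * coordAt Q e c i z ^ 2 + b ^ 2 * coordAt Q e c j z ^ 2) ≠ Q z →
      ∃ v, InR e M v ∧ 3 ≤ (fsupp Q e c v).card ∧ (fsupp Q e c v).card < K.card := by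
    intro S u a b hu hqu huc ha hb i hi hiS j hj hjS hne hsum
    have hus : fsupp Q e c u = K := by
      ext l
      rw [mem_fsupp, huc, hK, mem_fsupp]
      split_ifs <;> simp [ha, hb]
    obtain ⟨v, hv', hv3, hvk⟩ := descend_pair h hn hn13 hM hMle hF h3 h5 hu (by rw [hus]; omega)
      (i := i) (j := j) (by rw [hus]; exact hi) (by rw [hus]; exact hj)
      (by rw [huc, huc, if_pos hiS, if_neg hjS, mul_pow, mul_pow]; exact hne)
      (by rw [huc, huc, if_pos hiS, if_neg hjS, mul_pow, mul_pow, hqu]; exact hsum)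
    exact ⟨v, hv', hv3, hus ▸ hvk⟩
  by_cases htwo : ∃ i ∈ K, ∃ j ∈ K, coordAt Q e c i z ^ 2 ≠ coordAt Q e c j z ^ 2
  · obtain ⟨i, hi, j, hj, hne⟩ := htwo
    have hij : i ≠ j := fun he => hne (by rw [he])
    have hN := hgood i hi j hj hne
    obtain ⟨u, hu, hqu, huc⟩ := exists_flip_reflect h hn hM hz (S := {i, j})
      (by rw [Finset.card_pair hij]; exact ⟨1, rfl⟩)
    have hs : Q (partOn Q e c {i, j} z) / Q z = 1 := by
      rw [h.map_partOn, Finset.sum_pair hij, hN, div_self hz.1]
    rw [hs] at huc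
    -- a second coordinate in one of the two classes
    have hrep : ∃ p q, p ∈ ({i, j} : Finset (Fin n)) ∧ q ∈ K ∧ q ∉ ({i, j} : Finset (Fin n)) ∧
        coordAt Q e c q z ^ 2 = coordAt Q e c p z ^ 2 ∧ c * (10 * coordAt Q e c p z ^ 2) ≠ Q z := by
      set Ti := K.filter fun l => coordAt Q e c l z ^ 2 = coordAt Q e c i z ^ 2 with hTi
      set Tj := K.filter fun l => coordAt Q e c l z ^ 2 ≠ coordAt Q e c i z ^ 2 with hTj
      have hval : ∀ l ∈ Tj, coordAt Q e c l z ^ 2 = coordAt Q e c j z ^ 2 := by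
        intro l hl
        rw [hTj, Finset.mem_filter] at hl
        have e1 := hgood i hi l hl.1 (Ne.symm hl.2)
        exact mul_left_cancel₀ hc0 (by linear_combination e1 - hN)
      have hcard : Ti.card + Tj.card = K.card := Finset.card_filter_add_card_filter_not _
      rw [← Finset.sum_filter_add_sum_filter_not K
        (fun l => coordAt Q e c l z ^ 2 = coordAt Q e c i z ^ 2), ← hTi, ← hTj,
        Finset.sum_congr rfl fun l hl => (Finset.mem_filter.1 hl).2,
        Finset.sum_congr rfl hval, Finset.sum_const, Finset.sum_const] at hv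
      simp only [nsmul_eq_mul] at hv
      have hz2 : ∀ l ∈ K, coordAt Q e c l z ^ 2 ≠ 0 := fun l hl => pow_ne_zero 2 (mem_fsupp.1 hl)
      have h45 : ∀ A : ℕ, A = 5 ∨ A = 6 → ((A : F) - 1) ≠ 0 := by
        rintro A (rfl | rfl) h0
        · exact mul_ne_zero h2 h2 (by push_cast at h0; linear_combination h0)
        · exact h5 (by push_cast at h0; linear_combination h0)
      have hTi1 : 2 ≤ Ti.card := by
        have h1 : 1 ≤ Ti.card := Finset.card_pos.2 ⟨i, Finset.mem_filter.2 ⟨hi, rfl⟩⟩
        by_contra hc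
        rw [show Ti.card = 1 by omega] at hv
        have h0 : ((Tj.card : F) - 1) * (c * coordAt Q e c j z ^ 2) = 0 := by
          push_cast at hv; linear_combination -hv - hN
        exact mul_ne_zero (h45 _ (by omega)) (mul_ne_zero hc0 (hz2 j hj)) h0
      have hTj1 : 2 ≤ Tj.card := by
        have h1 : 1 ≤ Tj.card := Finset.card_pos.2 ⟨j, Finset.mem_filter.2 ⟨hj, Ne.symm hne⟩⟩
        by_contra hc
        rw [show Tj.card = 1 by omega] at hv
        have h0 : ((Ti.card : F) - 1) * (c * coordAt Q e c i z ^ 2) = 0 := by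
          push_cast at hv; linear_combination -hv - hN
        exact mul_ne_zero (h45 _ (by omega)) (mul_ne_zero hc0 (hz2 i hi)) h0
      by_cases h10 : c * (10 * coordAt Q e c i z ^ 2) = Q z
      swap
      · obtain ⟨q, hq, hqi⟩ := Finset.exists_mem_ne (by omega : 1 < Ti.card) i
        rw [hTi, Finset.mem_filter] at hq
        refine ⟨i, q, by simp, hq.1, ?_, hq.2, h10⟩
        simp only [Finset.mem_insert, Finset.mem_singleton, not_or]
        exact ⟨hqi, fun he => hne (by rw [← hq.2, he])⟩
      · obtain ⟨q, hq, hqj⟩ := Finset.exists_mem_ne (by omega : 1 < Tj.card) j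
        have hq2 := hval q hq
        rw [hTj, Finset.mem_filter] at hq
        refine ⟨j, q, by simp, hq.1, ?_, hq2, fun h0 => ?_⟩
        · simp only [Finset.mem_insert, Finset.mem_singleton, not_or]
          exact ⟨fun he => hne (by rw [← hq2, he]), hqj⟩
        · refine hne (mul_left_cancel₀ (mul_ne_zero (mul_ne_zero hc0 h2) h5) ?_)
          linear_combination h10 - h0
    obtain ⟨p, q, hp, hq, hqS, hqp, h10⟩ := hrep
    have hpK : p ∈ K := by
      rcases Finset.mem_insert.1 hp with rfl | hp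
      exacts [hi, Finset.mem_singleton.1 hp ▸ hj]
    refine finish {i, j} u _ _ hu hqu huc (by norm_num)
      (show (4 : F) * 1 - 1 ≠ 0 from fun h0 => h3 (by linear_combination h0)) p hpK hp q hq hqS ?_ ?_ <;>
      rw [hqp]
    · intro h0
      exact mul_ne_zero (mul_ne_zero (mul_ne_zero h2 h2) h2) (pow_ne_zero 2 (mem_fsupp.1 hpK))
        (by linear_combination -h0)
    · intro h0
      exact h10 (by linear_combination h0)
  push Not at htwo
  obtain ⟨i₀, hi₀⟩ := Finset.card_pos.1 (show 0 < K.card by omega)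
  set σ := coordAt Q e c i₀ z ^ 2
  have hσ : ∀ l ∈ K, coordAt Q e c l z ^ 2 = σ := fun l hl => htwo l hl i₀ hi₀
  rw [Finset.sum_congr rfl hσ, Finset.sum_const, nsmul_eq_mul] at hv
  have hσ0 : σ ≠ 0 := pow_ne_zero 2 (mem_fsupp.1 hi₀)
  have hratio : ∀ {S : Finset (Fin n)}, S ⊆ K → (K.card : F) * (Q (partOn Q e c S z) / Q z) = S.card := by
    intro S hS
    rw [h.map_partOn, Finset.sum_congr rfl (fun l hl => hσ l (hS hl)), Finset.sum_const, nsmul_eq_mul]
    have := hz.1
    field_simp
    linear_combination (-(S.card : F)) * hv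
  rcases (show K.card = 6 ∨ K.card = 7 by omega) with hk6 | hk7
  · rw [hk6] at hv hratio
    push_cast at hv hratio
    by_cases h7 : (7 : F) = 0
    · -- one sign and a vanishing coordinate
      obtain ⟨w, -, hw⟩ := Finset.exists_mem_notMem_of_card_lt_card (t := (Finset.univ : Finset (Fin n)))
        (s := K) (by simp; omega)
      have hw0 : coordAt Q e c w z = 0 := by simpa [hK, mem_fsupp] using hw
      have hz' : InR e M (z - (2 : F) • partOn Q e c {i₀} z) :=
        hz.flips h hn hM (Or.inr ⟨w, fun he => hw (Finset.mem_singleton.1 he ▸ hi₀), hw0⟩)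
      obtain ⟨g, -, hgv, -, -⟩ := exists_flips h hn hM ({i₀} : Finset (Fin n))
      have hq' : Q (z - (2 : F) • partOn Q e c {i₀} z) = Q z := by rw [← h.flips_apply hgv, orth_map]
      set u := (refl Q z : V ≃ₗ[F] V) (z - (2 : F) • partOn Q e c {i₀} z) with hu
      have hcu : ∀ l, coordAt Q e c l u = if l = i₀ then 0 else (-5 : F) * coordAt Q e c l z := by
        intro l
        have hs := hratio (S := {i₀}) (by simpa using hi₀)
        rw [Finset.card_singleton, Nat.cast_one] at hs
        have hs1 : Q (partOn Q e c {i₀} z) / Q z = -1 := by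
          linear_combination (-1 : F) * hs + (Q (partOn Q e c {i₀} z) / Q z) * h7
        have hp : polar Q z (partOn Q e c {i₀} z) = 2 * Q (partOn Q e c {i₀} z) := by
          rw [h.polar_partOn, h.map_partOn]; ring
        have hc' : (Q z)⁻¹ * polar Q z (z - (2 : F) • partOn Q e c {i₀} z) = 6 := by
          rw [polar_sub_right, polar_smul_right, polar_self', hp, smul_eq_mul]
          linear_combination (2 : F) * inv_mul_cancel₀ hz.1 - 4 * hs1
        rw [hu, refl_apply, hc', map_sub, map_sub, map_smul, map_smul, h.coord_partOn, smul_eq_mul, smul_eq_mul]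
        simp only [Finset.mem_singleton]
        split_ifs with hl
        · linear_combination (-coordAt Q e c l z) * h7
        · ring
      have hus : fsupp Q e c u = K.erase i₀ := by
        ext l
        rw [mem_fsupp, hcu, Finset.mem_erase, hK, mem_fsupp]
        by_cases hl : l = i₀ <;> simp [hl, h5]
      refine ⟨u, hz.reflect h hn hM hz' (by rw [hq']; exact IsSquare.mul_self _), ?_, ?_⟩ <;>
        rw [hus, Finset.card_erase_of_mem hi₀] <;> omega
    obtain ⟨S, hS, hSc⟩ := Finset.exists_subset_card_eq (show 4 ≤ K.card by omega)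
    obtain ⟨u, hu, hqu, huc⟩ := exists_flip_reflect h hn hM hz (S := S) (hSc ▸ ⟨2, rfl⟩)
    have hs := hratio hS
    rw [hSc] at hs
    set s := Q (partOn Q e c S z) / Q z
    push_cast at hs
    obtain ⟨p, hp⟩ := Finset.card_pos.1 (show 0 < S.card by omega)
    obtain ⟨q, hq, hqS⟩ := Finset.exists_mem_notMem_of_card_lt_card (t := K) (s := S) (by omega)
    refine finish S u _ _ hu hqu huc (fun h0 => one_ne_zero (show (1 : F) = 0 by linear_combination 2 * hs - 3 * h0))
      (fun h0 => h5 (by linear_combination 3 * h0 - 2 * hs)) p (hS hp) hp q hq hqS ?_ ?_ <;>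
      rw [hσ p (hS hp), hσ q hq]
    · intro h0
      refine mul_ne_zero (mul_ne_zero (mul_ne_zero (mul_ne_zero h2 h2) h2) h3) hσ0 ?_
      linear_combination (-9 : F) * h0 + (-24 * σ) * hs
    · intro h0
      rw [hv] at h0
      refine mul_ne_zero (mul_ne_zero (mul_ne_zero (mul_ne_zero h2 h2) h7) hc0) hσ0 ?_
      linear_combination (-9 : F) * h0 + (c * σ * (48 * s - 16)) * hs
  · rw [hk7] at hv hratio
    push_cast at hv hratio
    have h7 : (7 : F) ≠ 0 := fun h0 => hz.1 (by rw [hv, h0]; ring)
    obtain ⟨S, hS, hSc⟩ := Finset.exists_subset_card_eq (show 6 ≤ K.card by omega)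
    obtain ⟨u, hu, hqu, huc⟩ := exists_flip_reflect h hn hM hz (S := S) (hSc ▸ ⟨3, rfl⟩)
    have hs := hratio hS
    rw [hSc] at hs
    set s := Q (partOn Q e c S z) / Q z
    push_cast at hs
    have ha : 4 * s - 3 ≠ 0 := fun h0 => h3 (by linear_combination 7 * h0 - 4 * hs)
    by_cases hb : 4 * s - 1 = 0
    · have hus : fsupp Q e c u = S := by
        ext l
        rw [mem_fsupp, huc]
        by_cases hl : l ∈ S
        · simp [hl, ha, mem_fsupp.1 (hS hl)]
        · simp [hl, hb]
      refine ⟨u, hu, ?_, ?_⟩ <;> rw [hus, hSc] <;> omega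
    obtain ⟨p, hp⟩ := Finset.card_pos.1 (show 0 < S.card by omega)
    obtain ⟨q, hq, hqS⟩ := Finset.exists_mem_notMem_of_card_lt_card (t := K) (s := S) (by omega)
    refine finish S u _ _ hu hqu huc ha hb p (hS hp) hp q hq hqS ?_ ?_ <;>
      rw [hσ p (hS hp), hσ q hq]
    · intro h0
      refine mul_ne_zero (mul_ne_zero (mul_ne_zero (mul_ne_zero (mul_ne_zero h2 h2) h2) h5) h7) hσ0 ?_
      linear_combination (-49 : F) * h0 + (-112 * σ) * hs
    · intro h0
      rw [hv] at h0
      refine mul_ne_zero (mul_ne_zero (mul_ne_zero (mul_ne_zero h3 h3) h5) hc0) hσ0 ?_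
      linear_combination (-49 : F) * h0 + (c * σ * (224 * s - 32)) * hs

include h hn hn13 hM hMle hF in
/-- Nine vectors: a long vector without a good pair gets shorter after changing signs. -/
theorem descend_long_nine (hn9 : n = 9) (h3 : (3 : F) ≠ 0) (h5 : (5 : F) ≠ 0) {z : V} (hz : InR e M z)
    (hk : n ≤ (fsupp Q e c z).card + 1)
    (hgood : ∀ i ∈ fsupp Q e c z, ∀ j ∈ fsupp Q e c z, coordAt Q e c i z ^ 2 ≠ coordAt Q e c j z ^ 2 →
      c * (coordAt Q e c i z ^ 2 + coordAt Q e c j z ^ 2) = Q z) :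
    commutator (orth Q) ≤ M ∨
    ∃ v, InR e M v ∧ 3 ≤ (fsupp Q e c v).card ∧ (fsupp Q e c v).card < (fsupp Q e c z).card := by
  classical
  set K := fsupp Q e c z with hK
  have hKc : (fsupp Q e c z).card = K.card := rfl
  have hKn : K.card ≤ n := by simpa using Finset.card_le_univ K
  have h2 := h.two_ne
  have hc0 := h.ne_zero
  have hv := h.val_fsupp z
  rw [← hK] at hv
  have hz2 : ∀ l ∈ K, coordAt Q e c l z ^ 2 ≠ 0 := fun l hl => pow_ne_zero 2 (mem_fsupp.1 hl)
  -- the vector with changed signs and the ratio of the changed part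
  have finish : ∀ (S : Finset (Fin n)) (u : V) (a b : F), InR e M u → Q u = Q z →
      (∀ l, coordAt Q e c l u = if l ∈ S then a * coordAt Q e c l z else b * coordAt Q e c l z) →
      a ≠ 0 → b ≠ 0 → ∀ i ∈ K, i ∈ S → ∀ j ∈ K, j ∉ S →
      a ^ 2 * coordAt Q e c i z ^ 2 ≠ b ^ 2 * coordAt Q e c j z ^ 2 →
      c * (a ^ 2 * coordAt Q e c i z ^ 2 + b ^ 2 * coordAt Q e c j z ^ 2) ≠ Q z →
      ∃ v, InR e M v ∧ 3 ≤ (fsupp Q e c v).card ∧ (fsupp Q e c v).card < K.card := by
    intro S u a b hu hqu huc ha hb i hi hiS j hj hjS hne hsum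
    have hus : fsupp Q e c u = K := by
      ext l
      rw [mem_fsupp, huc, hK, mem_fsupp]
      split_ifs <;> simp [ha, hb]
    obtain ⟨v, hv', hv3, hvk⟩ := descend_pair h hn hn13 hM hMle hF h3 h5 hu (by rw [hus]; omega)
      (i := i) (j := j) (by rw [hus]; exact hi) (by rw [hus]; exact hj)
      (by rw [huc, huc, if_pos hiS, if_neg hjS, mul_pow, mul_pow]; exact hne)
      (by rw [huc, huc, if_pos hiS, if_neg hjS, mul_pow, mul_pow, hqu]; exact hsum)
    exact ⟨v, hv', hv3, hus ▸ hvk⟩
  by_cases htwo : ∃ i ∈ K, ∃ j ∈ K, coordAt Q e c i z ^ 2 ≠ coordAt Q e c j z ^ 2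
  · obtain ⟨i, hi, j, hj, hne⟩ := htwo
    have hij : i ≠ j := fun he => hne (by rw [he])
    have hN := hgood i hi j hj hne
    set Ti := K.filter fun l => coordAt Q e c l z ^ 2 = coordAt Q e c i z ^ 2 with hTi
    set Tj := K.filter fun l => coordAt Q e c l z ^ 2 ≠ coordAt Q e c i z ^ 2 with hTj
    have hval : ∀ l ∈ Tj, coordAt Q e c l z ^ 2 = coordAt Q e c j z ^ 2 := by
      intro l hl
      rw [hTj, Finset.mem_filter] at hl
      have e1 := hgood i hi l hl.1 (Ne.symm hl.2)
      exact mul_left_cancel₀ hc0 (by linear_combination e1 - hN)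
    have hsplit : Ti.card + Tj.card = K.card := Finset.card_filter_add_card_filter_not _
    rw [← Finset.sum_filter_add_sum_filter_not K
      (fun l => coordAt Q e c l z ^ 2 = coordAt Q e c i z ^ 2), ← hTi, ← hTj,
      Finset.sum_congr rfl fun l hl => (Finset.mem_filter.1 hl).2,
      Finset.sum_congr rfl hval, Finset.sum_const, Finset.sum_const] at hv
    simp only [nsmul_eq_mul] at hv
    -- two equal squares in the class of one of two distinct squares
    have go : ∀ p ∈ K, ∀ p' ∈ K, ∀ q ∈ K, coordAt Q e c p z ^ 2 ≠ coordAt Q e c p' z ^ 2 → q ≠ p →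
        coordAt Q e c q z ^ 2 = coordAt Q e c p z ^ 2 → c * (10 * coordAt Q e c p z ^ 2) ≠ Q z →
        ∃ v, InR e M v ∧ 3 ≤ (fsupp Q e c v).card ∧ (fsupp Q e c v).card < K.card := by
      intro p hp p' hp' q hq hpp hqp hqv h10
      have hpne : p ≠ p' := fun he => hpp (by rw [he])
      obtain ⟨u, hu, hqu, huc⟩ := exists_flip_reflect h hn hM hz (S := {p, p'})
        (by rw [Finset.card_pair hpne]; exact ⟨1, rfl⟩)
      have hs : Q (partOn Q e c {p, p'} z) / Q z = 1 := by
        rw [h.map_partOn, Finset.sum_pair hpne, hgood p hp p' hp' hpp, div_self hz.1]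
      rw [hs] at huc
      refine finish {p, p'} u _ _ hu hqu huc (by norm_num)
        (show (4 : F) * 1 - 1 ≠ 0 from fun h0 => h3 (by linear_combination h0)) p hp (by simp) q hq
        (by simp only [Finset.mem_insert, Finset.mem_singleton, not_or]
            exact ⟨hqp, fun he => hpp (by rw [← hqv, he])⟩) ?_ ?_ <;> rw [hqv]
      · intro h0
        exact mul_ne_zero (mul_ne_zero (mul_ne_zero h2 h2) h2) (hz2 p hp) (by linear_combination -h0)
      · intro h0
        exact h10 (by linear_combination h0)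
    -- one exceptional coordinate
    have single : ∀ p ∈ K, ∀ T : Finset (Fin n), T ⊆ K → p ∉ T → T.card + 1 = K.card →
        ∀ σ : F, (∀ l ∈ T, coordAt Q e c l z ^ 2 = σ) → coordAt Q e c p z ^ 2 ≠ σ →
        c * (coordAt Q e c p z ^ 2 + σ) = Q z →
        Q z = c * (coordAt Q e c p z ^ 2 + (T.card : F) * σ) →
        commutator (orth Q) ≤ M ∨
          ∃ v, InR e M v ∧ 3 ≤ (fsupp Q e c v).card ∧ (fsupp Q e c v).card < K.card := by
      intro p hp T hT hpT hTc σ hσ hpσ hsum hval'
      obtain ⟨t, ht⟩ := Finset.card_pos.1 (show 0 < T.card by omega)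
      have h0 : ((T.card : F) - 1) * (c * σ) = 0 := by linear_combination -hsum - hval'
      have hσ0 : σ ≠ 0 := hσ t ht ▸ hz2 t (hT ht)
      have h1 := (mul_eq_zero.1 h0).resolve_right (mul_ne_zero hc0 hσ0)
      rcases (show T.card = 7 ∨ T.card = 8 by omega) with h7 | h8
      · rw [h7] at h1
        push_cast at h1
        exact absurd (show (2 : F) * 3 = 0 by linear_combination h1) (mul_ne_zero h2 h3)
      rw [h8] at h1
      push_cast at h1
      by_cases h10 : c * (10 * σ) = Q z
      · left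
        obtain ⟨T₅, hT₅, hT₅c⟩ := Finset.exists_subset_card_eq (show 5 ≤ T.card by omega)
        refine zero_sum_supp h hn hn13 hM hF hz (S := insert p T₅) ?_ (Finset.insert_nonempty _ _) ?_ ?_ ?_
        · exact Finset.insert_subset hp (hT₅.trans hT)
        · rw [Finset.sum_insert (fun h' => hpT (hT₅ h')),
            Finset.sum_congr rfl (fun l hl => hσ l (hT₅ hl)), Finset.sum_const, hT₅c, nsmul_eq_mul]
          refine (mul_eq_zero.1 (show c * (coordAt Q e c p z ^ 2 + ((5 : ℕ) : F) * σ) = 0 from ?_)).resolve_left hc0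
          push_cast
          linear_combination hsum - h10 + 2 * c * σ * h1
        · rw [Finset.card_insert_of_notMem (fun h' => hpT (hT₅ h')), hT₅c]; exact Or.inl ⟨3, rfl⟩
        · rw [Finset.card_insert_of_notMem (fun h' => hpT (hT₅ h')), hT₅c]; omega
      right
      obtain ⟨q, hq, hqt⟩ := Finset.exists_mem_ne (show 1 < T.card by omega) t
      refine go t (hT ht) p hp q (hT hq) (by rw [hσ t ht]; exact Ne.symm hpσ) hqt
        (by rw [hσ q hq, hσ t ht]) (by rw [hσ t ht]; exact h10)
    have hTi1 : 1 ≤ Ti.card := Finset.card_pos.2 ⟨i, Finset.mem_filter.2 ⟨hi, rfl⟩⟩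
    have hTj1 : 1 ≤ Tj.card := Finset.card_pos.2 ⟨j, Finset.mem_filter.2 ⟨hj, Ne.symm hne⟩⟩
    rcases Nat.lt_or_ge Ti.card 2 with hA | hA
    · refine single i hi Tj (Finset.filter_subset _ _) (by simp [hTj]) (by omega) _ hval hne hN ?_
      rw [show Ti.card = 1 by omega] at hv
      push_cast at hv
      linear_combination hv
    rcases Nat.lt_or_ge Tj.card 2 with hB | hB
    · refine single j hj Ti (Finset.filter_subset _ _) (fun h' => hne (Finset.mem_filter.1 h').2.symm)
        (by omega) _ (fun l hl => (Finset.mem_filter.1 hl).2) (Ne.symm hne)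
        (by linear_combination hN) ?_
      rw [show Tj.card = 1 by omega] at hv
      push_cast at hv
      linear_combination hv
    right
    by_cases h10 : c * (10 * coordAt Q e c i z ^ 2) = Q z
    swap
    · obtain ⟨q, hq, hqi⟩ := Finset.exists_mem_ne (by omega : 1 < Ti.card) i
      rw [hTi, Finset.mem_filter] at hq
      exact go i hi j hj q hq.1 hne hqi hq.2 h10
    · obtain ⟨q, hq, hqj⟩ := Finset.exists_mem_ne (by omega : 1 < Tj.card) j
      have hq2 := hval q hq
      rw [hTj, Finset.mem_filter] at hq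
      refine go j hj i hi q hq.1 (Ne.symm hne) hqj hq2 fun h0 => hne ?_
      refine mul_left_cancel₀ (mul_ne_zero (mul_ne_zero hc0 h2) h5) ?_
      linear_combination h10 - h0
  push Not at htwo
  right
  obtain ⟨i₀, hi₀⟩ := Finset.card_pos.1 (show 0 < K.card by omega)
  set σ := coordAt Q e c i₀ z ^ 2
  have hσ : ∀ l ∈ K, coordAt Q e c l z ^ 2 = σ := fun l hl => htwo l hl i₀ hi₀
  rw [Finset.sum_congr rfl hσ, Finset.sum_const, nsmul_eq_mul] at hv
  have hσ0 : σ ≠ 0 := pow_ne_zero 2 (mem_fsupp.1 hi₀)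
  have hratio : ∀ {S : Finset (Fin n)}, S ⊆ K → (K.card : F) * (Q (partOn Q e c S z) / Q z) = S.card := by
    intro S hS
    rw [h.map_partOn, Finset.sum_congr rfl (fun l hl => hσ l (hS hl)), Finset.sum_const, nsmul_eq_mul]
    have := hz.1
    field_simp
    linear_combination (-(S.card : F)) * hv
  rcases (show K.card = 8 ∨ K.card = 9 by omega) with hk8 | hk9
  · -- one sign and a vanishing coordinate
    rw [hk8] at hv hratio
    push_cast at hv hratio
    obtain ⟨w, -, hw⟩ := Finset.exists_mem_notMem_of_card_lt_card (t := (Finset.univ : Finset (Fin n)))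
      (s := K) (by simp; omega)
    have hw0 : coordAt Q e c w z = 0 := by simpa [hK, mem_fsupp] using hw
    obtain ⟨u, hu, hqu, huc⟩ := exists_flip_reflect' h hn hM hz (S := {i₀})
      (Or.inr ⟨w, fun he => hw (Finset.mem_singleton.1 he ▸ hi₀), hw0⟩)
    have hs := hratio (S := {i₀}) (by simpa using hi₀)
    rw [Finset.card_singleton, Nat.cast_one] at hs
    set s := Q (partOn Q e c {i₀} z) / Q z
    obtain ⟨q, hq, hqi⟩ := Finset.exists_mem_ne (show 1 < K.card by omega) i₀
    refine finish {i₀} u _ _ hu hqu huc (fun h0 => h5 (by linear_combination -2 * h0 + hs))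
      (fun h0 => one_ne_zero (show (1 : F) = 0 by linear_combination -2 * h0 + hs)) i₀ hi₀ (by simp)
      q hq (by simpa using hqi) ?_ ?_ <;> rw [hσ i₀ hi₀, hσ q hq]
    · intro h0
      refine mul_ne_zero (mul_ne_zero (mul_ne_zero (mul_ne_zero h2 h2) h2) h3) hσ0 ?_
      linear_combination (4 : F) * h0 + (8 * σ) * hs
    · intro h0
      rw [hv] at h0
      refine mul_ne_zero (mul_ne_zero (mul_ne_zero h2 h3) hc0) hσ0 ?_
      linear_combination -4 * h0 + c * σ * (16 * s - 14) * hs
  rw [hk9] at hv hratio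
  push_cast at hv hratio
  by_cases h11 : (11 : F) = 0
  · -- four signs leave five coordinates
    obtain ⟨S, hS, hSc⟩ := Finset.exists_subset_card_eq (show 4 ≤ K.card by omega)
    obtain ⟨u, hu, -, huc⟩ := exists_flip_reflect h hn hM hz (S := S) (hSc ▸ ⟨2, rfl⟩)
    have hs := hratio hS
    rw [hSc] at hs
    set s := Q (partOn Q e c S z) / Q z
    push_cast at hs
    have h9 : (9 : F) ≠ 0 := by
      rw [show (9 : F) = 3 * 3 by norm_num]; exact mul_ne_zero h3 h3
    have ha : 4 * s - 3 = 0 := by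
      refine (mul_eq_zero.1 (show (9 : F) * (4 * s - 3) = 0 from ?_)).resolve_left h9
      linear_combination 4 * hs - h11
    have hb : 4 * s - 1 ≠ 0 := fun h0 => h2 (by linear_combination h0 - ha)
    have hus : fsupp Q e c u = K \ S := by
      ext l
      rw [mem_fsupp, huc, Finset.mem_sdiff, hK, mem_fsupp]
      by_cases hl : l ∈ S <;> simp [hl, ha, hb]
    refine ⟨u, hu, ?_, ?_⟩ <;> rw [hus, Finset.card_sdiff_of_subset hS] <;> omega
  obtain ⟨S, hS, hSc⟩ := Finset.exists_subset_card_eq (show 6 ≤ K.card by omega)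
  obtain ⟨u, hu, hqu, huc⟩ := exists_flip_reflect h hn hM hz (S := S) (hSc ▸ ⟨3, rfl⟩)
  have hs := hratio hS
  rw [hSc] at hs
  set s := Q (partOn Q e c S z) / Q z
  push_cast at hs
  obtain ⟨p, hp⟩ := Finset.card_pos.1 (show 0 < S.card by omega)
  obtain ⟨q, hq, hqS⟩ := Finset.exists_mem_notMem_of_card_lt_card (t := K) (s := S) (by omega)
  refine finish S u _ _ hu hqu huc
    (fun h0 => mul_ne_zero h3 (one_ne_zero : (1 : F) ≠ 0) (by linear_combination -9 * h0 + 4 * hs))
    (fun h0 => mul_ne_zero (mul_ne_zero h3 h5) (one_ne_zero : (1 : F) ≠ 0)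
      (by linear_combination 9 * h0 - 4 * hs)) p (hS hp) hp q hq hqS ?_ ?_ <;>
    rw [hσ p (hS hp), hσ q hq]
  · intro h0
    refine mul_ne_zero (mul_ne_zero (mul_ne_zero (mul_ne_zero (mul_ne_zero (mul_ne_zero h2 h2) h2) h3) h3) h3) hσ0 ?_
    linear_combination (-81 : F) * h0 + (-144 * σ) * hs
  · intro h0
    rw [hv] at h0
    refine mul_ne_zero (mul_ne_zero (mul_ne_zero (mul_ne_zero h5 h11) (mul_ne_zero h3 h3)) hc0) hσ0 ?_
    linear_combination (-81 : F) * h0 + (c * σ * (288 * s - 96)) * hs

include h hn hn13 hM hMle hF in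
/-- Long vectors get shorter. -/
theorem descend_long (hdim : n = 7 ∨ 9 ≤ n) (h3 : (3 : F) ≠ 0) (h5 : (5 : F) ≠ 0) {z : V} (hz : InR e M z)
    (hk : n ≤ (fsupp Q e c z).card + 1) :
    commutator (orth Q) ≤ M ∨
    ∃ v, InR e M v ∧ 3 ≤ (fsupp Q e c v).card ∧ (fsupp Q e c v).card < (fsupp Q e c z).card := by
  classical
  set K := fsupp Q e c z with hK
  have hKc : (fsupp Q e c z).card = K.card := rfl
  by_cases hgood : ∃ i ∈ K, ∃ j ∈ K, coordAt Q e c i z ^ 2 ≠ coordAt Q e c j z ^ 2 ∧
      c * (coordAt Q e c i z ^ 2 + coordAt Q e c j z ^ 2) ≠ Q z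
  · obtain ⟨i, hi, j, hj, hne, hr⟩ := hgood
    exact Or.inr (descend_pair h hn hn13 hM hMle hF h3 h5 hz hk hi hj hne hr)
  push Not at hgood
  by_cases hn7 : n = 7
  · exact Or.inr (descend_long_seven h hn hn13 hM hMle hF hn7 h3 h5 hz hk hgood)
  by_cases hn9 : n = 9
  · exact descend_long_nine h hn hn13 hM hMle hF hn9 h3 h5 hz hk hgood
  right
  by_cases htwo : ∃ i ∈ K, ∃ j ∈ K, coordAt Q e c i z ^ 2 ≠ coordAt Q e c j z ^ 2
  · obtain ⟨i, hi, j, hj, hne⟩ := htwo
    set Ti := K.filter fun l => coordAt Q e c l z ^ 2 = coordAt Q e c i z ^ 2 with hTi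
    set Tj := K.filter fun l => coordAt Q e c l z ^ 2 ≠ coordAt Q e c i z ^ 2 with hTj
    have hval : ∀ l ∈ Tj, coordAt Q e c l z ^ 2 = coordAt Q e c j z ^ 2 := by
      intro l hl
      rw [hTj, Finset.mem_filter] at hl
      have e1 := hgood i hi l hl.1 (Ne.symm hl.2)
      have e2 := hgood i hi j hj hne
      exact mul_left_cancel₀ h.ne_zero (by linear_combination e1 - e2)
    have hcard : Ti.card + Tj.card = K.card := Finset.card_filter_add_card_filter_not _
    have hv := h.val_fsupp z
    rw [← hK, ← Finset.sum_filter_add_sum_filter_not K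
      (fun l => coordAt Q e c l z ^ 2 = coordAt Q e c i z ^ 2), ← hTi, ← hTj,
      Finset.sum_congr rfl fun l hl => (Finset.mem_filter.1 hl).2,
      Finset.sum_congr rfl hval, Finset.sum_const, Finset.sum_const] at hv
    simp only [nsmul_eq_mul] at hv
    by_cases h55 : Ti.card = 5 ∧ Tj.card = 5
    · rw [h55.1, h55.2] at hv
      simp only [Nat.cast_ofNat] at hv
      have h4 : ((2 : F) * 2) * Q z = 0 := by
        linear_combination -hv - 5 * hgood i hi j hj hne
      exact absurd ((mul_eq_zero.1 h4).resolve_left (mul_ne_zero h.two_ne h.two_ne)) hz.1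
    by_cases hTi5 : 6 ≤ Ti.card ∨ (Tj.card = 4 ∧ 5 ≤ Ti.card)
    · refine descend_two h hn hn13 hM hMle hF (by omega) h3 h5 hz hk (T := Ti) (Finset.filter_subset _ _)
        (by omega) ?_ (fun l hl => (Finset.mem_filter.1 hl).2) hj (Ne.symm hne) (hgood i hi j hj hne)
      by_cases h6 : 6 ≤ Ti.card
      · exact Or.inl h6
      refine Or.inr (nine_not_eighth (b := c * coordAt Q e c j z ^ 2) h5 hz.1 ?_
        (by linear_combination hgood i hi j hj hne))
      rw [show Ti.card = 5 by omega, show Tj.card = 4 by omega] at hv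
      push_cast at hv
      linear_combination hv
    · refine descend_two h hn hn13 hM hMle hF (by omega) h3 h5 hz hk (T := Tj) (Finset.filter_subset _ _)
        (by omega) ?_ hval hi hne (by rw [add_comm]; exact hgood i hi j hj hne)
      by_cases h6 : 6 ≤ Tj.card
      · exact Or.inl h6
      refine Or.inr (nine_not_eighth (b := c * coordAt Q e c i z ^ 2) h5 hz.1 ?_
        (by linear_combination hgood i hi j hj hne))
      rw [show Ti.card = 4 by omega, show Tj.card = 5 by omega] at hv
      push_cast at hv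
      linear_combination hv
  push Not at htwo
  obtain ⟨i₀, hi₀⟩ := Finset.card_pos.1 (show 0 < K.card by omega)
  set σ := coordAt Q e c i₀ z ^ 2
  have hσ : ∀ l ∈ K, coordAt Q e c l z ^ 2 = σ := fun l hl => htwo l hl i₀ hi₀
  rcases descend_equal h hn hn13 hM hMle hF (by omega) h3 hz hk (T := K) subset_rfl (by omega) (Or.inl (by omega)) hσ with h' | h'
  · exact h'
  obtain ⟨u, s, hu, hqu, hsq, hs0, h21, h41, h43, hus, S, hST, hSc, huc⟩ := h'
  obtain ⟨p, hp⟩ := Finset.card_pos.1 (show 0 < S.card by omega)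
  obtain ⟨m, hm, hmS⟩ := Finset.exists_mem_notMem_of_card_lt_card (t := K) (s := S) (by omega)
  have hsd : (4 * s - 1) ^ 2 * σ ≠ (4 * s - 3) ^ 2 * σ := by
    intro h0
    have hσ0 : σ ≠ 0 := pow_ne_zero 2 (mem_fsupp.1 hi₀)
    have h1 := mul_right_cancel₀ hσ0 h0
    have h2 : (2 * 2 * 2 : F) * (2 * s - 1) = 0 := by linear_combination h1
    exact mul_ne_zero (mul_ne_zero (mul_ne_zero h.two_ne h.two_ne) h.two_ne) (sub_ne_zero.2 h21) h2
  have hum : ∀ l ∈ K \ S, coordAt Q e c l u ^ 2 = (4 * s - 1) ^ 2 * σ := fun l hl => by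
    rw [Finset.mem_sdiff] at hl
    rw [huc, if_neg hl.2, mul_pow, hσ l hl.1]
  have hup : coordAt Q e c p u ^ 2 = (4 * s - 3) ^ 2 * σ := by
    rw [huc, if_pos hp, mul_pow, hσ p (hST hp)]
  have hpk : p ∈ fsupp Q e c u := by rw [hus]; exact hST hp
  have hku : n ≤ (fsupp Q e c u).card + 1 := by rw [hus]; exact hk
  by_cases hr : c * (coordAt Q e c m u ^ 2 + coordAt Q e c p u ^ 2) = Q u
  swap
  · obtain ⟨v, hv, hv3, hvk⟩ := descend_pair h hn hn13 hM hMle hF h3 h5 hu hku
      (i := m) (j := p) (by rw [hus]; exact hm) hpk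
      (by rw [hum m (Finset.mem_sdiff.2 ⟨hm, hmS⟩), hup]; exact hsd) hr
    exact ⟨v, hv, hv3, by rw [hus] at hvk; exact hvk⟩
  rw [hum m (Finset.mem_sdiff.2 ⟨hm, hmS⟩)] at hr
  have hsub : K \ S ⊆ fsupp Q e c u := by rw [hus]; exact Finset.sdiff_subset
  obtain ⟨v, hv, hv3, hvk⟩ := descend_two h hn hn13 hM hMle hF (by omega) h3 h5 hu hku hsub
    (by rw [Finset.card_sdiff_of_subset hST]; omega) (by
      by_cases h6 : 6 ≤ (K \ S).card
      · exact Or.inl h6
      refine Or.inr (nine_not_eighth (b := c * coordAt Q e c p u ^ 2) h5 hu.1 ?_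
        (by linear_combination hr))
      have hv' := h.val_fsupp u
      rw [hus, ← Finset.sum_sdiff hST, Finset.sum_congr rfl hum,
        Finset.sum_congr (f := fun l => coordAt Q e c l u ^ 2) (g := fun _ => coordAt Q e c p u ^ 2) rfl (fun l hl => by
          rw [huc, if_pos hl, mul_pow, hσ l (hST hl), hup]),
        Finset.sum_const, Finset.sum_const, hSc,
        show (K \ S).card = 5 by rw [Finset.card_sdiff_of_subset hST] at h6 ⊢; omega,
        nsmul_eq_mul, nsmul_eq_mul] at hv'
      push_cast at hv'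
      linear_combination hv') hum hpk (by rw [hup]; exact Ne.symm hsd) hr
  exact ⟨v, hv, hv3, by rw [hus] at hvk; exact hvk⟩

include h hn hn13 hM hMle hF in
/-- A class vector off the roots leads to all of `Ω`. -/
theorem commutator_le_of_class (hdim : n = 7 ∨ 9 ≤ n) {z : V} (hz : InR e M z) (hroot : ¬ RootLine (F := F) e z) :
    commutator (orth Q) ≤ M := by
  classical
  by_cases h3 : (3 : F) = 0
  · exact commutator_le_of_three h hn hn13 hM hF hdim h3 hz hroot
  have hmain : ∀ k z, InR e M z → (fsupp Q e c z).card = k → 3 ≤ k → commutator (orth Q) ≤ M := by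
    intro k
    induction k using Nat.strong_induction_on with
    | _ k ih =>
      intro z hz hk hk3
      rcases Nat.lt_or_ge k 4 with hk4 | hk4
      · exact commutator_le_of_supp_three h hn hn13 hM hF h3 hz (by omega)
      rcases Nat.lt_or_ge k 5 with hk5 | hk5
      · exact commutator_le_of_supp_four h hn hn13 hM hF h3 hz (by omega)
      rcases Nat.lt_or_ge n (k + 2) with hkn | hkn
      · by_cases h5 : (5 : F) = 0
        · rcases of_five h hn hn13 hM hF h5 hz (by omega) with h' | ⟨h', -⟩ | ⟨hsm, hfull, σ, hσ⟩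
          · exact h'
          · omega
          · by_cases hn7 : n = 7
            · -- four changed signs annihilate one of the two parts
              obtain ⟨S, hS, hSc⟩ := Finset.exists_subset_card_eq (show 4 ≤ (fsupp Q e c z).card by omega)
              obtain ⟨u, hu, -, huc⟩ := exists_flip_reflect h hn hM hz (S := S) (hSc ▸ ⟨2, rfl⟩)
              have hs : ((fsupp Q e c z).card : F) * (Q (partOn Q e c S z) / Q z) = 4 := by
                have hv := h.val_fsupp z
                rw [Finset.sum_congr rfl hσ, Finset.sum_const, nsmul_eq_mul] at hv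
                rw [h.map_partOn, Finset.sum_congr rfl (fun l hl => hσ l (hS hl)), Finset.sum_const, hSc,
                  nsmul_eq_mul]
                have := hz.1
                push_cast
                field_simp
                linear_combination (-4 : F) * hv
              set s := Q (partOn Q e c S z) / Q z
              rcases (show (fsupp Q e c z).card = 7 ∨ (fsupp Q e c z).card = 6 by omega) with hc7 | hc6
              · rw [hc7] at hs
                push_cast at hs
                have ha : 4 * s - 3 = 0 := by linear_combination 2 * hs + (1 - 2 * s) * h5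
                have hb : 4 * s - 1 ≠ 0 := fun h0 => h.two_ne (by linear_combination h0 - ha)
                have hus : fsupp Q e c u = fsupp Q e c z \ S := by
                  ext l
                  rw [mem_fsupp, huc, Finset.mem_sdiff, mem_fsupp]
                  by_cases hl : l ∈ S <;> simp [hl, ha, hb]
                exact ih _ (by rw [hus, Finset.card_sdiff_of_subset hS]; omega) u hu rfl
                  (by rw [hus, Finset.card_sdiff_of_subset hS]; omega)
              · rw [hc6] at hs
                push_cast at hs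
                have hb : 4 * s - 1 = 0 := by linear_combination 4 * hs + (3 - 4 * s) * h5
                have ha : 4 * s - 3 ≠ 0 := fun h0 => h.two_ne (by linear_combination hb - h0)
                have hus : fsupp Q e c u = S := by
                  ext l
                  rw [mem_fsupp, huc]
                  by_cases hl : l ∈ S
                  · simp [hl, ha, mem_fsupp.1 (hS hl)]
                  · simp [hl, hb]
                exact ih _ (by rw [hus, hSc]; omega) u hu rfl (by rw [hus, hSc]; omega)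
            have hfull : (fsupp Q e c z).card = n := hfull.resolve_right fun h0 => hn7 h0.1
            by_cases hn9 : n = 9
            · -- six changed signs annihilate the rest
              obtain ⟨S, hS, hSc⟩ := Finset.exists_subset_card_eq (show 6 ≤ (fsupp Q e c z).card by omega)
              obtain ⟨u, hu, -, huc⟩ := exists_flip_reflect h hn hM hz (S := S) (hSc ▸ ⟨3, rfl⟩)
              have hs : ((fsupp Q e c z).card : F) * (Q (partOn Q e c S z) / Q z) = 6 := by
                have hv := h.val_fsupp z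
                rw [Finset.sum_congr rfl hσ, Finset.sum_const, nsmul_eq_mul] at hv
                rw [h.map_partOn, Finset.sum_congr rfl (fun l hl => hσ l (hS hl)), Finset.sum_const, hSc,
                  nsmul_eq_mul]
                have := hz.1
                push_cast
                field_simp
                linear_combination (-6 : F) * hv
              set s := Q (partOn Q e c S z) / Q z
              rw [hfull, hn9] at hs
              push_cast at hs
              have hb : 4 * s - 1 = 0 := by linear_combination hs + (1 - s) * h5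
              have ha : 4 * s - 3 ≠ 0 := fun h0 => h.two_ne (by linear_combination hb - h0)
              have hus : fsupp Q e c u = S := by
                ext l
                rw [mem_fsupp, huc]
                by_cases hl : l ∈ S
                · simp [hl, ha, mem_fsupp.1 (hS hl)]
                · simp [hl, hb]
              exact ih _ (by rw [hus, hSc]; omega) u hu rfl (by rw [hus, hSc]; omega)
            rcases descend_equal h hn hn13 hM hMle hF (by omega) h3 hz (by omega) subset_rfl (by omega)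
              (Or.inl (by omega)) hσ with
              ⟨v, hv, hv3, hvk⟩ | ⟨-, s, -, -, hsq, -, -, h41, h43, -⟩
            · exact ih _ (by omega) v hv rfl hv3
            exfalso
            have hval := h.val_fsupp z
            rw [Finset.sum_congr rfl hσ, Finset.sum_const, nsmul_eq_mul, hfull] at hval
            have hsn : s * (n : F) = 4 := by
              have hcσ : c * σ ≠ 0 := fun h0 => hz.1 (by rw [hval, mul_left_comm, h0, mul_zero])
              refine mul_right_cancel₀ hcσ ?_
              linear_combination -hsq - s * hval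
            rcases (by omega : n = 10 ∨ n = 11 ∨ n = 12) with rfl | rfl | rfl <;> push_cast at hsn
            · exact mul_ne_zero h.two_ne h.two_ne (by linear_combination -hsn + 2 * s * h5)
            · exact h41 (by linear_combination 4 * hsn + (3 - 8 * s) * h5)
            · exact h43 (by linear_combination 2 * hsn + (1 - 4 * s) * h5)
        rcases descend_long h hn hn13 hM hMle hF hdim h3 h5 hz (by omega) with h' | ⟨v, hv, hv3, hvk⟩
        · exact h'
        · exact ih _ (by omega) v hv rfl hv3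
      · rcases step_small h hn hn13 hM hF h3 hz (by omega) (by omega) (fun h0 => by omega) with
          h' | ⟨v, hv, hvk⟩
        · exact h'
        · exact ih _ (by omega) v hv rfl (by omega)
  rcases Nat.lt_or_ge (fsupp Q e c z).card 3 with hk | hk
  swap
  · exact hmain _ z hz rfl hk
  have hz0 : z ≠ 0 := fun h0 => hz.1 (by rw [h0, QuadraticMap.map_zero])
  obtain ⟨i, hi, j, hj, hne⟩ : ∃ i ∈ fsupp Q e c z, ∃ j ∈ fsupp Q e c z,
      coordAt Q e c i z ^ 2 ≠ coordAt Q e c j z ^ 2 := by
    by_contra hc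
    push Not at hc
    exact hroot (rootLine_of_two h (by omega) hz0 hc)
  have hij : i ≠ j := fun he => hne (by rw [he])
  have hs : fsupp Q e c z = {i, j} := (Finset.eq_of_subset_of_card_le (by
      intro l hl
      rcases Finset.mem_insert.1 hl with rfl | hl
      exacts [hi, Finset.mem_singleton.1 hl ▸ hj]) (by rw [Finset.card_pair hij]; omega)).symm
  obtain ⟨o, ho, -, -⟩ := exists_notMem_two (S := fsupp Q e c z) i i (by omega)
  obtain ⟨o', ho', ho'o, -⟩ := exists_notMem_two (S := fsupp Q e c z) o o (by omega)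
  have hjo : j ≠ o := fun he => ho (he ▸ hj)
  have hjo' : j ≠ o' := fun he => ho' (he ▸ hj)
  obtain ⟨g, hg, hgm, hgj, hgo, hgo', hgf⟩ := exists_cycle h hn hM hjo (Ne.symm ho'o) hjo'
  have hout : ∀ {x}, x ∉ fsupp Q e c z → coordAt Q e c x z = 0 := fun hx => by
    by_contra h0
    exact hx (mem_fsupp.2 h0)
  set x := coordAt Q e c i z
  set y := coordAt Q e c j z
  set z' := (g : V ≃ₗ[F] V) z with hz'
  have hz'c : ∀ l, coordAt Q e c l z' = if l = i then x else if l = o then y else 0 := by
    intro l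
    by_cases h1 : l = i
    · subst h1
      rw [if_pos rfl, hz', h.coord_map (hgf l hij (fun he => ho (he ▸ hi)) (fun he => ho' (he ▸ hi)))]
    rw [if_neg h1, hz']
    by_cases h2 : l = o
    · subst h2; rw [if_pos rfl, h.coord_map hgj]
    rw [if_neg h2]
    by_cases h3' : l = o'
    · subst h3'; rw [h.coord_map hgo, hout ho]
    by_cases h4' : l = j
    · subst h4'; rw [h.coord_map hgo', hout ho']
    rw [h.coord_map (hgf l h4' h2 h3'), hout (by rw [hs]; simp [h1, h4'])]
  set u := (refl Q z : V ≃ₗ[F] V) z' with hu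
  have huin : InR e M u := hz.reflect h hn hM (hz.conj_mono h hg hgm)
    (by rw [orth_map]; exact IsSquare.mul_self _)
  set k := (Q z)⁻¹ * polar Q z z' with hk'
  have hpz : polar Q z z' = 2 * c * (x * x) := by
    rw [h.polar_eq_sum, Finset.sum_eq_single i]
    · rw [hz'c, if_pos rfl]
    · intro l _ hl
      rw [hz'c, if_neg hl]
      by_cases hlo : l = o
      · rw [hlo, hout ho, zero_mul]
      · rw [if_neg hlo, mul_zero]
    · simp
  have hqz : Q z = c * (x ^ 2 + y ^ 2) := by rw [h.val_fsupp z, hs, Finset.sum_pair hij]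
  refine hmain _ u huin rfl ?_
  have hk0 : k ≠ 0 := mul_ne_zero (inv_ne_zero hz.1) (by
    rw [hpz]
    exact mul_ne_zero (mul_ne_zero h.two_ne h.ne_zero)
      (mul_ne_zero (mem_fsupp.1 hi) (mem_fsupp.1 hi)))
  have hk1 : k ≠ 1 := by
    intro h0
    rw [hk', hpz] at h0
    have := hz.1
    field_simp at h0
    rw [hqz] at h0
    exact hne (mul_left_cancel₀ h.ne_zero (by linear_combination h0))
  have huc : ∀ l, coordAt Q e c l u = coordAt Q e c l z' - k * coordAt Q e c l z := fun l => by
    rw [hu, refl_apply, ← hk', map_sub, map_smul, smul_eq_mul]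
  have hsub : ({i, j, o} : Finset (Fin n)) ⊆ fsupp Q e c u := by
    intro l hl
    simp only [Finset.mem_insert, Finset.mem_singleton] at hl
    rw [mem_fsupp, huc, hz'c]
    rcases hl with rfl | rfl | rfl
    · rw [if_pos rfl, ← one_sub_mul]
      exact mul_ne_zero (sub_ne_zero.2 (Ne.symm hk1)) (mem_fsupp.1 hi)
    · rw [if_neg (Ne.symm hij), if_neg hjo, zero_sub, neg_ne_zero]
      exact mul_ne_zero hk0 (mem_fsupp.1 hj)
    · rw [if_neg (show l ≠ i from fun he => ho (he ▸ hi)), if_pos rfl, hout ho, mul_zero, sub_zero]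
      exact mem_fsupp.1 hj
  have := Finset.card_le_card hsub
  rwa [Finset.card_eq_three.2 ⟨i, j, o, hij, fun he => ho (he ▸ hi), hjo, rfl⟩] at this

theorem OrthFrame.supp_sum (h : OrthFrame Q e c) (x y : V) (hxy : (fsupp Q e c (x + y)).card ≤ 2)
    (hxy' : (fsupp Q e c (x - y)).card ≤ 2) :
    (fsupp Q e c x ∪ fsupp Q e c y).card +
      ((fsupp Q e c x \ fsupp Q e c y) ∪ (fsupp Q e c y \ fsupp Q e c x)).card ≤ 4 := by
  classical
  have h1 := Finset.card_union_add_card_inter (fsupp Q e c (x + y)) (fsupp Q e c (x - y))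
  have hA : fsupp Q e c x ∪ fsupp Q e c y ⊆ fsupp Q e c (x + y) ∪ fsupp Q e c (x - y) := by
    intro l hl
    simp only [Finset.mem_union, mem_fsupp, map_add, map_sub] at hl ⊢
    by_contra hc
    push Not at hc
    have e1 : (2 : F) * coordAt Q e c l x = 0 := by linear_combination hc.1 + hc.2
    have e2 : (2 : F) * coordAt Q e c l y = 0 := by linear_combination hc.1 - hc.2
    exact hl.elim (fun h' => h' ((mul_eq_zero.1 e1).resolve_left h.two_ne))
      (fun h' => h' ((mul_eq_zero.1 e2).resolve_left h.two_ne))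
  have hB : (fsupp Q e c x \ fsupp Q e c y) ∪ (fsupp Q e c y \ fsupp Q e c x) ⊆
      fsupp Q e c (x + y) ∩ fsupp Q e c (x - y) := by
    intro l hl
    simp only [Finset.mem_union, Finset.mem_sdiff, Finset.mem_inter, mem_fsupp, map_add, map_sub,
      not_not] at hl ⊢
    rcases hl with ⟨h', h0⟩ | ⟨h', h0⟩ <;> simp [h0, h']
  have := Finset.card_le_card hA
  have := Finset.card_le_card hB
  omega

include h hn hn13 hM hMle hF in
/-- An element moving the frame leads to all of `Ω`. -/
theorem commutator_le_of_not_mono (hdim : n = 7 ∨ 9 ≤ n) {g : orth Q} (hg : g ∈ M) (hgm : ¬ Mono e g) :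
    commutator (orth Q) ≤ M := by
  classical
  by_cases hG : ∀ m ∈ M, ∀ f, IsRootVec e f → (m : V ≃ₗ[F] V) f = f → Mono e m
  · rcases hdim with hn7 | hn10
    · exact absurd (mono_of_no_fixed_root_seven h hn hn13 hM hG hn7 hg) hgm
    · exact absurd (mono_of_no_fixed_root h hn hn10 hM hG hg) hgm
  push Not at hG
  obtain ⟨m, hm, f, hf, hmf, hnm⟩ := hG
  have himg : ∀ x, IsRootVec e x → IsSquare (Q f * Q x) → ¬ RootLine (F := F) e ((m : V ≃ₗ[F] V) x) →
      commutator (orth Q) ≤ M := fun x hx hsq hnr =>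
    commutator_le_of_class h hn hn13 hM hMle hF hdim
      ((inR_root h hn hM hx).conj_fix h hn hM hm hf hsq hmf) hnr
  have hval : ∀ i, Q ((m : V ≃ₗ[F] V) (e i)) = c := fun i => by rw [orth_map, h.val]
  have hone : ∀ (i a : Fin n) (t : F), (m : V ≃ₗ[F] V) (e i) = t • e a →
      (m : V ≃ₗ[F] V) (e i) = e a ∨ (m : V ≃ₗ[F] V) (e i) = -e a := by
    intro i a t ht
    have h1 := hval i
    rw [ht, QuadraticMap.map_smul, h.val, smul_eq_mul] at h1
    rcases mul_self_eq_one_iff.1 (mul_right_cancel₀ h.ne_zero (h1.trans (one_mul c).symm)) with h' | h'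
    · left; rw [ht, h', one_smul]
    · right; rw [ht, h', neg_one_smul]
  rcases hf with ⟨w, rfl⟩ | ⟨w, w', hww, hf⟩
  · by_cases hall : ∀ v, RootLine (F := F) e ((m : V ≃ₗ[F] V) (e v))
    swap
    · push Not at hall
      obtain ⟨v, hv⟩ := hall
      exact himg (e v) (Or.inl ⟨v, rfl⟩) (by rw [h.val, h.val]; exact IsSquare.mul_self c) hv
    obtain ⟨v, hv⟩ : ∃ v, ∀ a, (m : V ≃ₗ[F] V) (e v) ≠ e a ∧ (m : V ≃ₗ[F] V) (e v) ≠ -e a := by
      by_contra hc
      refine hnm fun v => ?_
      by_contra hv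
      push Not at hv
      exact hc ⟨v, hv⟩
    obtain ⟨r, hr, t, ht⟩ := hall v
    obtain ⟨a, b, hab, hr'⟩ : ∃ a b, a ≠ b ∧ (r = e a + e b ∨ r = e a - e b) := by
      rcases hr with ⟨a, rfl⟩ | hr
      · rcases hone v a t ht with h' | h'
        exacts [absurd h' (hv a).1, absurd h' (hv a).2]
      · exact hr
    have hvw : v ≠ w := fun he => (hv w).1 (by rw [he]; exact hmf)
    have hqr : Q r = 2 * c := by rcases hr' with rfl | rfl; exacts [h.val_add hab, h.val_sub hab]
    have h2t : 2 * (t * t) = 1 := by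
      have h1 := hval v
      rw [ht, QuadraticMap.map_smul, hqr, smul_eq_mul] at h1
      exact mul_right_cancel₀ h.ne_zero (by linear_combination h1)
    have ht0 : t ≠ 0 := fun h0 => by rw [h0] at h2t; simp at h2t
    have hwr : coordAt Q e c w r = 0 := by
      have h1 := orth_polar m (e w) (e v)
      rw [show (m : V ≃ₗ[F] V) (e w) = e w from hmf, ht, h.ortho (Ne.symm hvw), h.polar_coord, map_smul,
        smul_eq_mul, mul_eq_zero, or_iff_right (mul_ne_zero h.two_ne h.ne_zero), mul_eq_zero,
        or_iff_right ht0] at h1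
      exact h1
    refine himg (e v + e w) (Or.inr ⟨v, w, hvw, Or.inl rfl⟩) ?_ fun hrl => ?_
    · rw [h.val, h.val_add hvw]
      exact ⟨c * (2 * t), by linear_combination -(2 * c * c) * h2t⟩
    have hco : ∀ l, coordAt Q e c l ((m : V ≃ₗ[F] V) (e v + e w)) =
        t * coordAt Q e c l r + (if l = w then 1 else 0) := fun l => by
      rw [map_add, ht, show (m : V ≃ₗ[F] V) (e w) = e w from hmf, map_add, map_smul, h.coord_vec,
        smul_eq_mul]
    have hra : coordAt Q e c a r = 1 ∧ coordAt Q e c b r ≠ 0 := by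
      rcases hr' with rfl | rfl <;> simp [h.coord_self, h.coord_other hab, h.coord_other (Ne.symm hab)]
    have hwa : a ≠ w := fun he => by rw [he, hwr] at hra; exact zero_ne_one hra.1
    have hwb : b ≠ w := fun he => hra.2 (by rw [he]; exact hwr)
    have h3c : ({a, b, w} : Finset (Fin n)) ⊆ fsupp Q e c ((m : V ≃ₗ[F] V) (e v + e w)) := by
      intro l hl
      simp only [Finset.mem_insert, Finset.mem_singleton] at hl
      rw [mem_fsupp, hco]
      rcases hl with rfl | rfl | rfl
      · rw [if_neg hwa, hra.1, mul_one, add_zero]; exact ht0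
      · rw [if_neg hwb, add_zero]; exact mul_ne_zero ht0 hra.2
      · rw [if_pos rfl, hwr, mul_zero, zero_add]; exact one_ne_zero
    have := Finset.card_le_card h3c
    rw [Finset.card_eq_three.2 ⟨a, b, w, hab, hwa, hwb, rfl⟩] at this
    have := hrl.card_le h
    omega
  have hqf : Q f = 2 * c := by rcases hf with rfl | rfl; exacts [h.val_add hww, h.val_sub hww]
  by_cases hall : ∀ a b, a ≠ b → RootLine (F := F) e ((m : V ≃ₗ[F] V) (e a + e b)) ∧
      RootLine (F := F) e ((m : V ≃ₗ[F] V) (e a - e b))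
  swap
  · push Not at hall
    obtain ⟨a, b, hab, hne⟩ := hall
    by_cases h1 : RootLine (F := F) e ((m : V ≃ₗ[F] V) (e a + e b))
    · exact himg _ (Or.inr ⟨a, b, hab, Or.inr rfl⟩)
        (by rw [hqf, h.val_sub hab]; exact IsSquare.mul_self _) (hne h1)
    · exact himg _ (Or.inr ⟨a, b, hab, Or.inl rfl⟩)
        (by rw [hqf, h.val_add hab]; exact IsSquare.mul_self _) h1
  exfalso
  set S : Fin n → Finset (Fin n) := fun a => fsupp Q e c ((m : V ≃ₗ[F] V) (e a)) with hS
  have key : ∀ a b, a ≠ b → (S a ∪ S b).card + ((S a \ S b) ∪ (S b \ S a)).card ≤ 4 := by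
    intro a b hab
    refine h.supp_sum _ _ ?_ ?_
    · rw [← map_add]; exact (hall a b hab).1.card_le h
    · rw [← map_sub]; exact (hall a b hab).2.card_le h
  have hpos : ∀ a, 0 < (S a).card := by
    intro a
    by_contra hc
    have h1 := hval a
    rw [h.val_fsupp, show fsupp Q e c ((m : V ≃ₗ[F] V) (e a)) = ∅ from
      Finset.card_eq_zero.1 (show (S a).card = 0 by omega), Finset.sum_empty, mul_zero] at h1
    exact h.ne_zero h1.symm
  obtain ⟨v, -, hv⟩ := Finset.exists_max_image (Finset.univ : Finset (Fin n))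
    (fun a => (S a).card) ⟨⟨0, by omega⟩, Finset.mem_univ _⟩
  rcases Nat.lt_or_ge (S v).card 2 with hv2 | hv2
  · refine hnm fun i => ?_
    have hi1 : (S i).card = 1 := by
      have := hv i (Finset.mem_univ i); have := hpos i; omega
    obtain ⟨a, ha⟩ := Finset.card_eq_one.1 hi1
    refine ⟨a, hone i a (coordAt Q e c a ((m : V ≃ₗ[F] V) (e i))) (h.ext_coord fun l => ?_)⟩
    rw [map_smul, h.coord_vec, smul_eq_mul]
    by_cases hl : l = a
    · subst hl; simp
    · rw [if_neg hl, mul_zero]
      by_contra hne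
      have : l ∈ S i := mem_fsupp.2 hne
      rw [ha, Finset.mem_singleton] at this
      exact hl this
  obtain ⟨u, hu⟩ : ∃ u, ¬ S u ⊆ S v := by
    by_contra hc
    push Not at hc
    have hvc : (S v).card ≤ 4 := by
      obtain ⟨b, -, hb⟩ := Finset.exists_mem_notMem_of_card_lt_card (s := ({v} : Finset (Fin n)))
        (t := Finset.univ) (by simp; omega)
      rw [Finset.mem_singleton] at hb
      have := key v b (Ne.symm hb)
      have := Finset.card_le_card (Finset.subset_union_left (s₁ := S v) (s₂ := S b))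
      omega
    let L : (Fin n → F) →ₗ[F] (↥(S v) → F) :=
      { toFun := fun φ i => coordAt Q e c (i : Fin n) ((m : V ≃ₗ[F] V) (∑ a, φ a • e a))
        map_add' := fun x y => by ext i; simp [add_smul, Finset.sum_add_distrib]
        map_smul' := fun r x => by ext i; simp [mul_smul, ← Finset.smul_sum] }
    have hL : Function.Injective L := by
      rw [injective_iff_map_eq_zero]
      intro φ hφ
      have h0 : (m : V ≃ₗ[F] V) (∑ a, φ a • e a) = 0 := h.ext_coord fun l => by
        rw [map_zero]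
        by_cases hl : l ∈ S v
        · exact congrFun hφ ⟨l, hl⟩
        · rw [map_sum, map_sum]
          refine Finset.sum_eq_zero fun a _ => ?_
          rw [map_smul, map_smul]
          by_contra hne
          exact hl (hc a (mem_fsupp.2 (fun h0 => hne (by rw [h0, smul_zero]))))
      rw [(m : V ≃ₗ[F] V).map_eq_zero_iff] at h0
      funext l
      have h1 := congrArg (coordAt Q e c l) h0
      rw [map_sum, map_zero, Finset.sum_eq_single l (fun a _ ha => by
        rw [map_smul, h.coord_other (Ne.symm ha), smul_zero]) (by simp), map_smul, h.coord_self,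
        smul_eq_mul, mul_one] at h1
      exact h1
    have := LinearMap.finrank_le_finrank_of_injective hL
    simp at this
    omega
  have huv : u ≠ v := fun he => hu (he ▸ subset_rfl)
  have hk := key u v huv
  have hmax := hv u (Finset.mem_univ u)
  obtain ⟨x, hx, hxv⟩ := Finset.not_subset.1 hu
  have h1 : (S v).card + 1 ≤ (S u ∪ S v).card := by
    rw [← Finset.card_insert_of_notMem hxv]
    refine Finset.card_le_card fun l hl => ?_
    rcases Finset.mem_insert.1 hl with rfl | hl
    exacts [Finset.mem_union_left _ hx, Finset.mem_union_right _ hl]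
  obtain ⟨y, hy, hyu⟩ : ∃ y ∈ S v, y ∉ S u := by
    by_contra hc
    push Not at hc
    have := Finset.card_le_card (show insert x (S v) ⊆ S u from Finset.insert_subset hx hc)
    rw [Finset.card_insert_of_notMem hxv] at this
    omega
  have h2 : 2 ≤ ((S u \ S v) ∪ (S v \ S u)).card := by
    rw [← Finset.card_pair (show x ≠ y from fun he => hxv (he ▸ hy))]
    refine Finset.card_le_card fun l hl => ?_
    rcases Finset.mem_insert.1 hl with rfl | hl
    · exact Finset.mem_union_left _ (Finset.mem_sdiff.2 ⟨hx, hxv⟩)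
    · rw [Finset.mem_singleton] at hl; subst hl
      exact Finset.mem_union_right _ (Finset.mem_sdiff.2 ⟨hy, hyu⟩)
  omega

end Cfsg.Agent.H5
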