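import Cfsg.Agent.H5.FrameSphere

/-!
Root groups of a coordinate triple of a frame lead to all of `Ω`.
-/

set_option autoImplicit false

namespace Cfsg.Agent.H5

open QuadraticMap hiding sq

variable {F V : Type*} [Field F] [AddCommGroup V] [Module F V] {Q : QuadraticForm F V} {n : ℕ}
  {e : Fin n → V} {c : F} {M : Subgroup (orth Q)}

/-- The span of some frame vectors. -/
def spanOn (F : Type*) {V : Type*} [Field F] [AddCommGroup V] [Module F V] {n : ℕ} (e : Fin n → V)
    (T : Finset (Fin n)) : Submodule F V :=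
  Submodule.span F (e '' (T : Set (Fin n)))

theorem vec_mem_spanOn {T : Finset (Fin n)} {i : Fin n} (hi : i ∈ T) : e i ∈ spanOn F e T :=
  Submodule.subset_span ⟨i, hi, rfl⟩

theorem OrthFrame.mem_spanOn (h : OrthFrame Q e c) {T : Finset (Fin n)} {x : V} :
    x ∈ spanOn F e T ↔ ∀ i ∉ T, coordAt Q e c i x = 0 := by
  refine ⟨fun hx i hi => ?_, fun hx => h.mem_of_coord _ fun i hi =>
    vec_mem_spanOn (by_contra fun hn => hi (hx i hn))⟩
  have hle : spanOn F e T ≤ LinearMap.ker (coordAt Q e c i) := Submodule.span_le.2 (by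
    rintro _ ⟨j, hj, rfl⟩
    exact h.coord_other fun he => hi (he ▸ hj))
  exact hle hx

theorem OrthFrame.mem_perp_spanOn (h : OrthFrame Q e c) {T : Finset (Fin n)} {x : V}
    (hx : ∀ i ∈ T, coordAt Q e c i x = 0) : x ∈ perp Q (spanOn F e T) := by
  refine mem_perp.2 fun w hw => ?_
  rw [h.polar_eq_sum, Finset.sum_eq_zero, mul_zero]
  intro i _
  by_cases hi : i ∈ T
  · rw [hx i hi, mul_zero]
  · rw [h.mem_spanOn.1 hw i hi, zero_mul]

theorem RootTri.map {W : Submodule F V} {u u' g : V} (h : RootTri M W u u' g) {k : orth Q}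
    (hk : k ∈ M) : RootTri M (W.map ((k : V ≃ₗ[F] V) : V →ₗ[F] V)) ((k : V ≃ₗ[F] V) u)
      ((k : V ≃ₗ[F] V) u') ((k : V ≃ₗ[F] V) g) where
  mem := Submodule.mem_map_of_mem h.mem
  mem' := Submodule.mem_map_of_mem h.mem'
  memg := Submodule.mem_map_of_mem h.memg
  sing := by rw [orth_map, h.sing]
  sing' := by rw [orth_map, h.sing']
  pair := by rw [orth_polar, h.pair]
  perp := by rw [orth_polar, h.perp]
  perp' := by rw [orth_polar, h.perp']
  anis := by rw [orth_map]; exact h.anis
  span := fun x hx => by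
    obtain ⟨y, hy, rfl⟩ := Submodule.mem_map.1 hx
    obtain ⟨α, β, γ, rfl⟩ := h.span y hy
    exact ⟨α, β, γ, by simp⟩
  root := fun t => by rw [← map_smul]; exact (h.root t).conj hk
  root' := fun t => by rw [← map_smul]; exact (h.root' t).conj hk

variable [FiniteDimensional F V] [Finite F] [Finite V]
  (h : OrthFrame Q e c) (hn : 5 ≤ Module.finrank F V) (hn13 : 7 ≤ n)
  (hM : ∀ g ∈ commutator (orth Q), Mono e g → g ∈ M)
  (hF : ∀ t : F, ∃ k : ℕ, (k : F) = t)

include h hn hn13 hM in
theorem exists_rootTri_move {u u' g : V} {T T' : Finset (Fin n)} (hT : T.card = 3)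
    (hT' : T'.card = 3) (hR : RootTri M (spanOn F e T) u u' g) :
    ∃ a a' b, RootTri M (spanOn F e T') a a' b := by
  classical
  suffices hs : ∀ d, ∀ (S : Finset (Fin n)) (a a' b : V), S.card = 3 → (S \ T').card ≤ d →
      RootTri M (spanOn F e S) a a' b → ∃ a a' b, RootTri M (spanOn F e T') a a' b from
    hs _ T u u' g hT le_rfl hR
  intro d
  induction d with
  | zero =>
    intro S a a' b hS hd hr
    have : S = T' := Finset.eq_of_subset_of_card_le
      (Finset.sdiff_eq_empty_iff_subset.1 (Finset.card_eq_zero.1 (by omega))) (by omega)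
    exact ⟨a, a', b, this ▸ hr⟩
  | succ d ih =>
    intro S a a' b hS hd hr
    by_cases hempty : S \ T' = ∅
    · have : S = T' := Finset.eq_of_subset_of_card_le
        (Finset.sdiff_eq_empty_iff_subset.1 hempty) (by omega)
      exact ⟨a, a', b, this ▸ hr⟩
    obtain ⟨j, hj⟩ := Finset.nonempty_iff_ne_empty.2 hempty
    rw [Finset.mem_sdiff] at hj
    obtain ⟨t, ht, htS⟩ : ∃ t ∈ T', t ∉ S := by
      by_contra hcon
      push Not at hcon
      exact hj.2 ((Finset.eq_of_subset_of_card_le hcon (by omega)).symm ▸ hj.1)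
    obtain ⟨v, hv, hvj, hvt⟩ := exists_notMem_two j t (S := S) (by omega)
    have hjt : j ≠ t := fun he => htS (he ▸ hj.1)
    obtain ⟨k, hk, -, hkj, -, -, hko⟩ := exists_cycle h hn hM hjt (Ne.symm hvt) (Ne.symm hvj)
    have himg : (spanOn F e S).map ((k : V ≃ₗ[F] V) : V →ₗ[F] V) =
        spanOn F e (insert t (S.erase j)) := by
      rw [spanOn, spanOn, Submodule.map_span, Set.image_image]
      congr 1
      ext y
      simp only [Set.mem_image, Finset.mem_coe, Finset.mem_insert, Finset.mem_erase,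
        LinearEquiv.coe_coe]
      constructor
      · rintro ⟨i, hi, rfl⟩
        rcases eq_or_ne i j with rfl | hij
        · exact ⟨t, Or.inl rfl, hkj.symm⟩
        · exact ⟨i, Or.inr ⟨hij, hi⟩,
            (hko i hij (fun he => htS (he ▸ hi)) (fun he => hv (he ▸ hi))).symm⟩
      · rintro ⟨i, rfl | ⟨hij, hi⟩, rfl⟩
        · exact ⟨j, hj.1, hkj⟩
        · exact ⟨i, hi, hko i hij (fun he => htS (he ▸ hi)) (fun he => hv (he ▸ hi))⟩
    have hcard : (insert t (S.erase j)).card = 3 := by
      rw [Finset.card_insert_of_notMem (by simp [htS]), Finset.card_erase_of_mem hj.1]; omega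
    refine ih _ _ _ _ hcard ?_ (himg ▸ hr.map hk)
    have hsub : insert t (S.erase j) \ T' ⊆ (S \ T').erase j := by
      intro i hi
      simp only [Finset.mem_sdiff, Finset.mem_insert, Finset.mem_erase] at hi ⊢
      rcases hi.1 with rfl | h1
      · exact absurd ht hi.2
      · exact ⟨h1.1, h1.2, hi.2⟩
    have := Finset.card_le_card hsub
    rw [Finset.card_erase_of_mem (Finset.mem_sdiff.2 hj)] at this
    omega

include h hn hn13 hM hF in
/-- Two root groups of a coordinate triple lead to all of `Ω`. -/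
theorem commutator_le_of_triple (h3 : (3 : F) ≠ 0) {u u' g : V} {T : Finset (Fin n)}
    (hT : T.card = 3) (hR : RootTri M (spanOn F e T) u u' g) : commutator (orth Q) ≤ M := by
  classical
  obtain ⟨w, hw, -, -⟩ := exists_notMem_two (S := T) ⟨0, by omega⟩ ⟨0, by omega⟩ (by omega)
  obtain ⟨o, ho, how, -⟩ := exists_notMem_two w w (S := T) (by omega)
  have huc : ∀ i ∉ T, coordAt Q e c i u = 0 := h.mem_spanOn.1 hR.mem
  have hu0 : u ≠ 0 := fun h0 => by
    have := hR.pair
    rw [h0, polar_zero_left] at this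
    exact zero_ne_one this
  set x := e w - u with hx
  have hpw : polar Q (e w) u = 0 := by rw [h.polar_coord, huc w hw, mul_zero]
  have hqx : Q x = c := by
    rw [hx, map_sub', h.val, hR.sing, hpw]; ring
  set S := insert w T with hS
  have hxS : ∀ i ∉ S, coordAt Q e c i x = 0 := fun i hi => by
    rw [hS, Finset.mem_insert, not_or] at hi
    rw [hx, map_sub, h.coord_other hi.1, huc i hi.2, sub_zero]
  have hScard : S.card = 4 := by rw [hS, Finset.card_insert_of_notMem hw, hT]
  have hoS : o ∉ S := by rw [hS, Finset.mem_insert, not_or]; exact ⟨how, ho⟩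
  -- a triple with non-zero norm
  obtain ⟨d, hd, hq⟩ : ∃ d ∈ S, Q (partOn Q e c (S.erase d) x) ≠ 0 := by
    by_contra hcon
    push Not at hcon
    have htot : ∑ i ∈ S, coordAt Q e c i x ^ 2 = 1 := by
      have h1 := h.map_eq_sum x
      rw [hqx, ← Finset.sum_subset (Finset.subset_univ S) (fun i _ hi => by rw [hxS i hi]; ring)]
        at h1
      exact mul_left_cancel₀ h.ne_zero (by rw [← h1, mul_one])
    have hall : ∀ d ∈ S, coordAt Q e c d x ^ 2 = 1 := fun d hd => by
      have h1 := hcon d hd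
      rw [h.map_partOn, mul_eq_zero, or_iff_right h.ne_zero] at h1
      rw [← Finset.add_sum_erase _ _ hd, h1, add_zero] at htot
      exact htot
    rw [Finset.sum_congr rfl hall, Finset.sum_const, hScard] at htot
    exact h3 (by simp at htot; linear_combination htot)
  set T' := S.erase d with hT'
  have hT'c : T'.card = 3 := by rw [hT', Finset.card_erase_of_mem hd, hScard]
  obtain ⟨a, b, g', hR'⟩ := exists_rootTri_move h hn hn13 hM hT hT'c hR
  set q := Q (partOn Q e c T' x) with hqd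
  obtain ⟨i, hi⟩ := Finset.card_pos.1 (by omega : 0 < T'.card)
  obtain ⟨l, hl, hli⟩ := Finset.exists_mem_ne (by omega : 1 < T'.card) i
  obtain ⟨α, β, hαβ⟩ := exists_sq_add h.two_ne (q / c)
  set y := α • e i + β • e l with hy
  have hqy : Q y = q := by
    have := h.ne_zero
    rw [hy, map_smul_add_smul, h.val, h.val, h.ortho (Ne.symm hli)]
    field_simp at hαβ
    linear_combination hαβ
  have hpart : partOn Q e c T' x ∈ spanOn F e T' := h.mem_spanOn.2 fun j hj => by
    rw [h.coord_partOn, if_neg hj]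
  obtain ⟨k₁, hk₁, hk₁x⟩ := hR'.exists_map h.two_ne h3 hpart
    (add_mem (Submodule.smul_mem _ α (vec_mem_spanOn hi))
      (Submodule.smul_mem _ β (vec_mem_spanOn hl))) hqy.symm hq
  have hrest : (k₁ : V ≃ₗ[F] V) (x - partOn Q e c T' x) = x - partOn Q e c T' x :=
    (mem_fixPerp.1 hk₁).2 _ (h.mem_perp_spanOn fun j hj => by
      rw [map_sub, h.coord_partOn, if_pos hj, sub_self])
  have hk₁x' : (k₁ : V ≃ₗ[F] V) x = x - partOn Q e c T' x + y := by
    rw [hy, ← hk₁x]
    conv_lhs => rw [← sub_add_cancel x (partOn Q e c T' x), map_add, hrest]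
  set x₁ := (k₁ : V ≃ₗ[F] V) x with hx₁
  have hdT' : d ∉ T' := Finset.notMem_erase d S
  set T'' : Finset (Fin n) := {d, i, l} with hT''
  have hT''c : T''.card = 3 := Finset.card_eq_three.2
    ⟨d, i, l, fun he => hdT' (he ▸ hi), fun he => hdT' (he ▸ hl), Ne.symm hli, rfl⟩
  have hx₁mem : x₁ ∈ spanOn F e T'' := h.mem_spanOn.2 fun j hj => by
    simp only [hT'', Finset.mem_insert, Finset.mem_singleton, not_or] at hj
    rw [hk₁x', map_add, map_sub, h.coord_partOn, hy, map_add, map_smul, map_smul,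
      h.coord_other hj.2.1, h.coord_other hj.2.2]
    split_ifs with hjT
    · simp
    · rw [hxS j fun hjS => hjT (Finset.mem_erase.2 ⟨hj.1, hjS⟩)]; simp
  obtain ⟨a', b', g'', hR''⟩ := exists_rootTri_move h hn hn13 hM hT hT''c hR
  obtain ⟨k₂, hk₂, hk₂x⟩ := hR''.exists_map h.two_ne h3 hx₁mem
    (vec_mem_spanOn (e := e) (i := i) (by simp [hT''])) (by rw [hx₁, orth_map, hqx, h.val])
    (by rw [hx₁, orth_map, hqx]; exact h.ne_zero)
  set k := k₂ * k₁ with hk
  have hkM : k ∈ M := mul_mem (mem_fixPerp.1 hk₂).1 (mem_fixPerp.1 hk₁).1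
  have hS' : ∀ {T₀ : Finset (Fin n)}, (∀ j ∈ T₀, j ∈ S) → e o ∈ perp Q (spanOn F e T₀) :=
    fun {T₀} hsub => h.mem_perp_spanOn fun j hj =>
      h.coord_other fun he => hoS (he ▸ hsub j hj)
  have hko : (k : V ≃ₗ[F] V) (e o) = e o := by
    rw [hk, orth_mul_apply, (mem_fixPerp.1 hk₁).2 _ (hS' fun j hj => Finset.mem_of_mem_erase hj),
      (mem_fixPerp.1 hk₂).2 _ (hS' fun j hj => ?_)]
    simp only [hT'', Finset.mem_insert, Finset.mem_singleton] at hj
    rcases hj with rfl | rfl | rfl
    exacts [hd, Finset.mem_of_mem_erase hi, Finset.mem_of_mem_erase hl]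
  have hkinv : ((k⁻¹ : orth Q) : V ≃ₗ[F] V) (e o) = e o := by
    conv_lhs => rw [← hko]
    rw [orth_inv_apply_apply]
  have hxin : InR e M x := by
    have h1 := (inR_root h hn hM (f := e i) (Or.inl ⟨i, rfl⟩)).conj_fix h hn hM (inv_mem hkM)
      (f := e o) (Or.inl ⟨o, rfl⟩) (by rw [h.val, h.val]; exact IsSquare.mul_self c) hkinv
    rwa [show (e i : V) = (k : V ≃ₗ[F] V) x by rw [hk, orth_mul_apply, ← hx₁, hk₂x],
      orth_inv_apply_apply] at h1
  have hroot : RootIn M u ((-(Q (e w))⁻¹) • e w) :=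
    rootIn_of_pair (by rw [h.val]; exact h.ne_zero) hR.sing hpw
      ((inR_root h hn hM (f := e w) (Or.inl ⟨w, rfl⟩)).pair h hn hM hxin
        (by rw [h.val, hqx]; exact IsSquare.mul_self c))
  refine commutator_le_of_sparse h hn hn13 hM hF hroot hu0 (by omega) huc hw ?_
  rw [map_smul, h.coord_self, h.val]
  simp [h.ne_zero]

end Cfsg.Agent.H5
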