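import Cfsg.Agent.H5.StabNondegGL

/-!
A hyperbolic plane over at most three elements does not have a maximal stabiliser.
-/

set_option autoImplicit false

namespace Cfsg.Agent.H5

open QuadraticMap hiding sq

variable {ι : Type} [Fintype ι] [DecidableEq ι] {F : Type*} [Field F] [Fintype F]
  (Q : QuadraticForm F (ι → F)) {f : (ι → F) → F} (hf : ⇑Q = f)

omit [DecidableEq ι] in
theorem eq_self_inv_of_card_le_three (hq : Fintype.card F ≤ 3) {s : F} (hs : s ≠ 0) : s * s = 1 := by
  classical
  have h := FiniteField.pow_card_sub_one_eq_one s hs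
  have := Fintype.one_lt_card (α := F)
  rcases (show Fintype.card F = 2 ∨ Fintype.card F = 3 by omega) with h2 | h2 <;> rw [h2] at h
  · rw [show (2 : ℕ) - 1 = 1 from rfl, pow_one] at h
    rw [h, one_mul]
  · rwa [show (3 : ℕ) - 1 = 2 from rfl, pow_two] at h

include hf in
/-- The stabiliser of a hyperbolic plane over at most three elements lies in that of a point. -/
theorem not_maximal_stab_plane (hQ : (QuadraticMap.polarBilin Q).Nondegenerate)
    (hn : 5 ≤ Fintype.card ι) (hq : Fintype.card F ≤ 3) (W : Submodule F (ι → F))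
    (h2 : Module.finrank F W = 2) (hWU : W ⊓ perp Q W = ⊥)
    (hplus : Cfsg.Geo.IsPlusTypeOn f W) :
    ∃ K : Subgroup (GL ι F), Cfsg.Geo.subspaceStabilizer W ⊓ Cfsg.Geo.omegaGL f < K ∧
      K < Cfsg.Geo.omegaGL f := by
  haveI : Finite (ι → F) := Pi.finite
  have hr : Module.finrank F (ι → F) = Fintype.card ι := Module.finrank_fintype_fun_eq_card F
  obtain ⟨U, hUW, hU, hUd⟩ := hplus
  obtain ⟨e, heU, he0⟩ := Submodule.exists_mem_ne_zero_of_ne_bot
    (show U ≠ ⊥ from fun h => by rw [h, finrank_bot] at hUd; omega)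
  have hqe : Q e = 0 := by rw [hf]; exact hU e heU
  obtain ⟨p, hpW, hp⟩ := exists_partner hWU (hUW heU) he0 hqe
  have heW := hUW heU
  have hspan : Submodule.span F {e} ⊔ Submodule.span F {p} = W := by
    refine Submodule.eq_of_le_of_finrank_le (sup_le
      ((Submodule.span_singleton_le_iff_mem _ _).2 heW)
      ((Submodule.span_singleton_le_iff_mem _ _).2 hpW)) ?_
    rw [Submodule.finrank_sup_span_singleton hp.not_mem, finrank_span_singleton he0, h2]
  set v := e + p with hv
  have hvW : v ∈ W := add_mem heW hpW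
  have hev : polar Q e v = 1 := by
    rw [hv, polar_add_right, polar_self', hqe, hp.pair]; simp
  have hqv : Q v = 1 := by rw [hv, QuadraticMap.map_add (⇑Q), hqe, hp.right, hp.pair]; simp
  have hsum := finrank_perp_add hQ W
  rw [omegaGL_eq_map Q hf]
  refine ⟨Cfsg.Geo.subspaceStabilizer (Submodule.span F {v}) ⊓
    (commutator (orth Q)).map (toGLHom Q hf), ?_, ?_⟩
  · refine lt_of_le_not_ge ?_ ?_
    · rintro x ⟨hx, g, hg, rfl⟩
      refine ⟨(toGLHom_mem_stab_iff Q hf _ g).2 fun y hy => ?_, g, hg, rfl⟩
      obtain ⟨c, rfl⟩ := Submodule.mem_span_singleton.1 hy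
      rw [LinearEquiv.map_smul]
      refine Submodule.smul_mem _ _ ?_
      have hgv := (toGLHom_mem_stab_iff Q hf W g).1 hx v hvW
      rw [← hspan] at hgv
      obtain ⟨a, ha, b, hb, hab⟩ := Submodule.mem_sup.1 hgv
      obtain ⟨s, rfl⟩ := Submodule.mem_span_singleton.1 ha
      obtain ⟨t, rfl⟩ := Submodule.mem_span_singleton.1 hb
      have hst : s * t = 1 := by
        have h := congrArg Q hab
        rw [map_smul_add_smul, hqe, hp.right, hp.pair, orth_map, hqv] at h
        simpa using h
      have hs : s ≠ 0 := left_ne_zero_of_mul_eq_one hst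
      have hts : t = s := mul_left_cancel₀ hs (hst.trans (eq_self_inv_of_card_le_three hq hs).symm)
      refine Submodule.mem_span_singleton.2 ⟨s, ?_⟩
      rw [← hab, hts, hv, smul_add]
    · intro hle
      obtain ⟨e', he', f', hf', hp'⟩ := exists_pair_of_three
        (W := perp Q W) (Q := Q) (by rw [perp_perp hQ, inf_comm]; exact hWU) (by omega)
      set a := e - p with ha
      have haW : a ∈ W := sub_mem heW hpW
      have hea : polar Q e' a = 0 := by rw [polar_comm]; exact mem_perp.1 he' a haW
      have hve : polar Q e' v = 0 := by rw [polar_comm]; exact mem_perp.1 he' v hvW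
      have hpe : polar Q e' p = 0 := by rw [polar_comm]; exact mem_perp.1 he' p hpW
      have hva : polar Q a v = 0 := by
        rw [ha, hv]
        simp [polar_sub_left, polar_add_right, polar_self', hqe, hp.right, hp.pair,
          polar_comm (⇑Q) p e]
      have hap : polar Q a p = 1 := by
        rw [ha]
        simp [polar_sub_left, polar_self', hp.right, hp.pair]
      have hg := eich_mem_commutator hQ (by omega) e' a
      have hpv : Preserves (Submodule.span F {v}) (eich Q e' a) := fun y hy => by
        obtain ⟨c, rfl⟩ := Submodule.mem_span_singleton.1 hy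
        rw [LinearEquiv.map_smul, eich_fix hp'.left hea hve hva]
        exact Submodule.smul_mem _ _ (Submodule.mem_span_singleton_self v)
      have h := (toGLHom_mem_stab_iff Q hf W _).1
        (hle (show toGLHom Q hf (eich Q e' a) ∈ _ from
          ⟨(toGLHom_mem_stab_iff Q hf _ _).2 hpv, _, hg, rfl⟩)).1 p hpW
      rw [eich_apply hp'.left hea, hpe, hap] at h
      simp only [zero_smul, add_zero, mul_zero, sub_zero, one_smul] at h
      exact hp'.ne_zero (eq_zero_of_mem_mem hWU ((W.sub_mem_iff_right hpW).1 h) he')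
  · refine lt_of_le_not_ge inf_le_right fun hle => ?_
    obtain ⟨a, ha, ha0⟩ := Submodule.exists_mem_ne_zero_of_ne_bot
      (show perp Q W ≠ ⊥ from fun h => by rw [h, finrank_bot] at hsum; omega)
    have hea : polar Q e a = 0 := mem_perp.1 ha e heW
    have hg := eich_mem_commutator hQ (by omega) e a
    have h := (toGLHom_mem_stab_iff Q hf _ _).1 (hle ⟨_, hg, rfl⟩).1 v
      (Submodule.mem_span_singleton_self v)
    rw [eich_apply hqe hea, hev, polar_comm (⇑Q) a v, mem_perp.1 ha v hvW] at h
    simp only [one_smul, zero_smul, sub_zero, mul_one] at h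
    obtain ⟨c, hc⟩ := Submodule.mem_span_singleton.1 h
    refine ha0 (eq_zero_of_mem_mem hWU ?_ ha)
    have : a = c • v - v + Q a • e := by rw [hc]; abel
    rw [this]
    exact add_mem (sub_mem (W.smul_mem _ hvW) hvW) (W.smul_mem _ heW)

end Cfsg.Agent.H5
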