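import Cfsg.Agent.H5.SmallBlocks

/-!
Small decompositions in characteristic two.
-/

set_option autoImplicit false

namespace Cfsg.Agent.H5

open QuadraticMap hiding sq

variable {ι : Type} [Fintype ι] [DecidableEq ι] {F : Type*} [Field F] [Fintype F]
  {Q : QuadraticForm F (ι → F)} {f : (ι → F) → F} {t k : ℕ} {D : Fin t → Submodule F (ι → F)}

/-- Hyperbolic planes over two or four elements. -/
theorem not_maximal_lattice (hf : ⇑Q = f) (hQ : (polarBilin Q).Nondegenerate) (h2 : (2 : F) = 0)
    (hn : 5 ≤ Fintype.card ι)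
    (hD : Cfsg.Geo.IsNondegenerateMDecomposition (QuadraticMap.polar f) 2 D) (ht : 3 ≤ t)
    (hex : ∀ i, ∃ e ∈ D i, ∃ p ∈ D i, HypPair Q e p)
    (A : AddSubgroup F) (hA : ∀ a ∈ A, a = 0 ∨ a = 1) (hx : ∀ x : F, x ≠ 0 → x + x⁻¹ ∈ A)
    {l : F} (hl : l ∉ A) :
    ∃ K : Subgroup (GL ι F), Cfsg.Geo.decompositionStabilizer D ⊓ Cfsg.Geo.omegaGL f < K ∧
      K < Cfsg.Geo.omegaGL f := by
  haveI : Finite (ι → F) := Pi.finite
  have hr : Module.finrank F (ι → F) = Fintype.card ι := Module.finrank_fintype_fun_eq_card F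
  have horth : ∀ {i j : Fin t}, i ≠ j → ∀ {u v}, u ∈ D i → v ∈ D j → polar Q u v = 0 :=
    fun hij _ _ hu hv => member_polar_zero hf hD hij hu hv
  choose e he p hp hpair using hex
  let G : Set (ι → F) := {v | ∃ i, v ∈ D i ∧ Q v = 1}
  set S : AddSubgroup (ι → F) := AddSubgroup.closure G with hS
  set u : Fin t → (ι → F) := fun i => e i + p i with hu
  have huD : ∀ i, u i ∈ D i := fun i => add_mem (he i) (hp i)
  have hqu : ∀ i, Q (u i) = 1 := fun i => by
    simp [hu, QuadraticMap.map_add (⇑Q), (hpair i).left, (hpair i).right, (hpair i).pair]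
  have huS : ∀ i, u i ∈ S := fun i => AddSubgroup.subset_closure ⟨i, huD i, hqu i⟩
  -- polar values of generators
  have hgen : ∀ x ∈ G, ∀ y ∈ G, polar Q x y ∈ A := by
    rintro x ⟨i, hxi, hqx⟩ y ⟨j, hyj, hqy⟩
    by_cases hij : i = j
    swap
    · rw [horth hij hxi hyj]; exact A.zero_mem
    subst hij
    have hspan : Submodule.span F {e i} ⊔ Submodule.span F {p i} = D i := by
      refine Submodule.eq_of_le_of_finrank_le (sup_le
        ((Submodule.span_singleton_le_iff_mem _ _).2 (he i))
        ((Submodule.span_singleton_le_iff_mem _ _).2 (hp i))) ?_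
      rw [Submodule.finrank_sup_span_singleton (hpair i).not_mem,
        finrank_span_singleton (hpair i).ne_zero, hD.decomp.finrank_eq]
    have hco : ∀ z ∈ D i, Q z = 1 → ∃ s : F, s ≠ 0 ∧ z = s • e i + s⁻¹ • p i := by
      intro z hz hqz
      rw [← hspan] at hz
      obtain ⟨a, ha, b, hb, rfl⟩ := Submodule.mem_sup.1 hz
      obtain ⟨s, rfl⟩ := Submodule.mem_span_singleton.1 ha
      obtain ⟨r, rfl⟩ := Submodule.mem_span_singleton.1 hb
      rw [map_smul_add_smul, (hpair i).left, (hpair i).right, (hpair i).pair] at hqz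
      have hsr : s * r = 1 := by simpa using hqz
      refine ⟨s, left_ne_zero_of_mul_eq_one hsr, ?_⟩
      rw [eq_inv_of_mul_eq_one_right hsr]
    obtain ⟨s, hs, rfl⟩ := hco x hxi hqx
    obtain ⟨r, hr', rfl⟩ := hco y hyj hqy
    have : polar Q (s • e i + s⁻¹ • p i) (r • e i + r⁻¹ • p i) = s * r⁻¹ + (s * r⁻¹)⁻¹ := by
      simp only [polar_add_left, polar_add_right, polar_smul_left, polar_smul_right, smul_eq_mul,
        polar_self', (hpair i).left, (hpair i).right, (hpair i).pair, polar_comm (⇑Q) (p i) (e i)]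
      field_simp
      ring
    rw [this]
    exact hx _ (mul_ne_zero hs (inv_ne_zero hr'))
  have hSS : ∀ x ∈ S, ∀ y ∈ S, polar Q x y ∈ A := by
    have h1 : ∀ x ∈ G, ∀ y ∈ S, polar Q x y ∈ A := fun x hx y hy => by
      induction hy using AddSubgroup.closure_induction with
      | mem z hz => exact hgen x hx z hz
      | zero => rw [polar_zero_right]; exact A.zero_mem
      | add a b _ _ ha hb => rw [polar_add_right]; exact A.add_mem ha hb
      | neg a _ ha => rw [polar_neg_right]; exact A.neg_mem ha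
    intro x hx y hy
    induction hx using AddSubgroup.closure_induction with
    | mem z hz => exact h1 z hz y hy
    | zero => rw [polar_zero_left]; exact A.zero_mem
    | add a b _ _ ha hb => rw [polar_add_left]; exact A.add_mem ha hb
    | neg a _ ha => rw [polar_neg_left]; exact A.neg_mem ha
  have hsmul : ∀ a ∈ A, ∀ z ∈ S, a • z ∈ S := by
    intro a ha z hz
    rcases hA a ha with rfl | rfl
    · rw [zero_smul]; exact S.zero_mem
    · rw [one_smul]; exact hz
  refine not_maximal_of_set hf (S : Set (ι → F)) ?_ ?_ ?_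
  · intro g hg v hv
    suffices h : ∀ z ∈ S, (g : (ι → F) ≃ₗ[F] (ι → F)) z ∈ S from h v hv
    intro z hz
    induction hz using AddSubgroup.closure_induction with
    | mem z hz =>
      obtain ⟨i, hzi, hqz⟩ := hz
      obtain ⟨j, hj⟩ := hg i
      exact AddSubgroup.subset_closure ⟨j, hj z hzi, by rw [orth_map, hqz]⟩
    | zero => rw [map_zero]; exact S.zero_mem
    | add a b _ _ ha hb => rw [map_add]; exact S.add_mem ha hb
    | neg a _ ha => rw [map_neg]; exact S.neg_mem ha
  · obtain ⟨i₁, i₂, i₃, h12, h13, h23⟩ : ∃ i₁ i₂ i₃ : Fin t, i₁ ≠ i₂ ∧ i₁ ≠ i₃ ∧ i₂ ≠ i₃ :=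
      ⟨⟨0, by omega⟩, ⟨1, by omega⟩, ⟨2, by omega⟩, by simp, by simp, by simp⟩
    set s := u i₁ + u i₂ with hs
    have hqs : Q s = 0 := by
      rw [hs, QuadraticMap.map_add (⇑Q), hqu, hqu, horth h12 (huD _) (huD _)]
      linear_combination h2
    have hsa : polar Q s (u i₃) = 0 := by
      rw [hs, polar_add_left, horth h13 (huD _) (huD _), horth h23 (huD _) (huD _), add_zero]
    refine ⟨eich Q s (u i₃), eich_mem_commutator hQ (by omega) s (u i₃), fun x hx => ?_, i₁,
      fun j => ⟨e i₁, he i₁, fun hm => ?_⟩⟩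
    · show (eich Q s (u i₃) : (ι → F) ≃ₗ[F] (ι → F)) x ∈ S
      have hsS : s ∈ S := S.add_mem (huS _) (huS _)
      rw [eich_apply hqs hsa, hqu, one_mul]
      exact S.sub_mem (S.sub_mem (S.add_mem hx (hsmul _ (hSS _ hsS x hx) _ (huS _)))
        (hsmul _ (hSS _ (huS _) x hx) _ hsS)) (hsmul _ (hSS _ hsS x hx) _ hsS)
    · have h1 : polar Q s (e i₁) = 1 := by
        simp [hs, hu, polar_add_left, polar_self', (hpair i₁).left, (hpair i₁).pair,
          polar_comm (⇑Q) (p i₁) (e i₁), horth h12.symm (he i₂) (he i₁), horth h12.symm (hp i₂) (he i₁)]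
      rw [eich_apply hqs hsa, h1, horth h13.symm (huD i₃) (he i₁), hqu] at hm
      simp only [one_smul, zero_smul, sub_zero, one_mul] at hm
      have key : ∀ i, i ≠ i₁ → (i = i₂ ∨ i = i₃) → j = i := by
        intro i hi hi'
        by_contra hji
        have h0 := horth hji hm (he i)
        rcases hi' with rfl | rfl
        · simp [polar_sub_left, polar_add_left, hs, hu, polar_self', (hpair i).left, (hpair i).pair,
            polar_comm (⇑Q) (p i) (e i), horth h12 (he i₁) (he i), horth h12 (hp i₁) (he i),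
            horth h23.symm (he i₃) (he i), horth h23.symm (hp i₃) (he i)] at h0
        · simp [polar_sub_left, polar_add_left, hs, hu, polar_self', (hpair i).left, (hpair i).pair,
            polar_comm (⇑Q) (p i) (e i), horth h13 (he i₁) (he i), horth h13 (hp i₁) (he i),
            horth h23 (he i₂) (he i), horth h23 (hp i₂) (he i)] at h0
      exact h23 ((key i₂ h12.symm (Or.inl rfl)).symm.trans (key i₃ h13.symm (Or.inr rfl)))
  · set v := u ⟨0, by omega⟩ with hv
    have hv0 : v ≠ 0 := fun h => one_ne_zero (α := F) (by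
      rw [← hqu ⟨0, by omega⟩, ← hv, h, QuadraticMap.map_zero])
    obtain ⟨e', p', hp', hev, hperp, hg⟩ := exists_eich_move hQ hn hv0
    obtain ⟨a, ha, hqa⟩ := exists_mem_norm_eq (hp'.inf_perp hQ)
      (by have := hp'.finrank_pperp hQ; omega) l
    obtain ⟨hgc, hgv⟩ := hg a ha
    refine ⟨_, hgc, v, huS _, fun hm => hl ?_⟩
    rw [hgv, hqa] at hm
    have := hSS v (huS _) _ hm
    rw [polar_sub_right, polar_add_right, polar_smul_right, polar_self', h2, zero_mul,
      polar_comm (⇑Q) v a, mem_perp.1 hperp a ha, polar_comm (⇑Q) v e', hev, add_zero,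
      smul_eq_mul, mul_one, zero_sub] at this
    exact A.neg_mem_iff.1 this

/-- Four-spaces of plus type over two elements. -/
theorem not_maximal_four_two (hf : ⇑Q = f) (hQ : (polarBilin Q).Nondegenerate)
    (hq : Fintype.card F = 2) (hn : 8 ≤ Fintype.card ι)
    (hD : Cfsg.Geo.IsNondegenerateMDecomposition (QuadraticMap.polar f) 4 D) (ht : 2 ≤ t)
    (hplus : ∀ i, Cfsg.Geo.IsPlusTypeOn f (D i)) :
    ∃ K : Subgroup (GL ι F), Cfsg.Geo.decompositionStabilizer D ⊓ Cfsg.Geo.omegaGL f < K ∧
      K < Cfsg.Geo.omegaGL f := by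
  classical
  haveI : Finite (ι → F) := Pi.finite
  have hr : Module.finrank F (ι → F) = Fintype.card ι := Module.finrank_fintype_fun_eq_card F
  haveI : Fact (Nat.Prime 2) := ⟨Nat.prime_two⟩
  haveI : CharP F 2 := charP_of_card_eq_prime hq
  have h2 : (2 : F) = 0 := CharP.cast_eq_zero F 2
  have hsc : ∀ x : F, x = 0 ∨ x = 1 := fun x => by
    by_cases hx : x = 0
    · exact Or.inl hx
    · have := FiniteField.pow_card_sub_one_eq_one x hx
      rw [hq] at this
      exact Or.inr (by simpa using this)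
  have horth : ∀ {i j : Fin t}, i ≠ j → ∀ {u v}, u ∈ D i → v ∈ D j → polar Q u v = 0 :=
    fun hij _ _ hu hv => member_polar_zero hf hD hij hu hv
  -- the two anisotropic planes of a member
  have hfour : ∀ i, ∃ a ∈ D i, ∃ b ∈ D i, ∃ c ∈ D i, ∃ d ∈ D i, Q a = 1 ∧ Q b = 1 ∧ Q c = 1 ∧
      Q d = 1 ∧ polar Q a b = 1 ∧ polar Q c d = 1 ∧ polar Q a c = 0 ∧ polar Q a d = 0 ∧
      polar Q b c = 0 ∧ polar Q b d = 0 ∧
      ∀ x ∈ D i, Q x = 1 → x = a ∨ x = b ∨ x = a + b ∨ x = c ∨ x = d ∨ x = c + d := by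
    intro i
    have hWU := inf_perp_of_isNondegenerateOn Q hf (hD.nondegenerate i)
    obtain ⟨U, hUW, hU, hUd⟩ := hplus i
    rw [hD.decomp.finrank_eq] at hUd
    obtain ⟨e₁, he₁U, he₁0⟩ := Submodule.exists_mem_ne_zero_of_ne_bot
      (show U ≠ ⊥ from fun h => by rw [h, finrank_bot] at hUd; omega)
    have hqe₁ : Q e₁ = 0 := by rw [hf]; exact hU e₁ he₁U
    obtain ⟨f₁, hf₁, hp₁⟩ := exists_partner hWU (hUW he₁U) he₁0 hqe₁
    obtain ⟨hrad, hdim⟩ := pair_complement hQ hWU (hUW he₁U) hf₁ hp₁
    -- a singular vector of `U` in the complement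
    obtain ⟨x, hxU, hx0, hxp⟩ : ∃ x ∈ U, x ≠ 0 ∧ polar Q f₁ x = 0 := by
      obtain ⟨y, hy, hys⟩ : ∃ y ∈ U, y ∉ Submodule.span F {e₁} := by
        refine SetLike.not_le_iff_exists.1 fun hle => ?_
        have := Submodule.finrank_mono hle
        rw [finrank_span_singleton he₁0] at this
        omega
      refine ⟨y - polar Q f₁ y • e₁, sub_mem hy (U.smul_mem _ he₁U),
        fun h => hys (Submodule.mem_span_singleton.2 ⟨_, (sub_eq_zero.1 h).symm⟩), ?_⟩
      rw [polar_sub_right, polar_smul_right, polar_comm (⇑Q) f₁ e₁, hp₁.pair, smul_eq_mul, mul_one,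
        sub_self]
    have hxe : polar Q e₁ x = 0 := by
      have h1 : Q (e₁ + x) = 0 := by rw [hf]; exact hU _ (add_mem he₁U hxU)
      have h0 : Q x = 0 := by rw [hf]; exact hU x hxU
      rw [QuadraticMap.map_add (⇑Q), hqe₁, h0, add_zero, zero_add] at h1
      exact h1
    obtain ⟨f₂, ⟨hf₂, hf₂p⟩, hp₂⟩ := exists_partner (W := D i ⊓ pperp Q e₁ f₁) hrad
      ⟨hUW hxU, mem_pperp.2 ⟨hxe, hxp⟩⟩ hx0 (by rw [hf]; exact hU x hxU)
    obtain ⟨g1, g2⟩ := mem_pperp.1 hf₂p
    have he₁ := hUW he₁U
    have he₂ := hUW hxU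
    refine ⟨e₁ + f₁, add_mem he₁ hf₁, e₁ + x + f₂, add_mem (add_mem he₁ he₂) hf₂, x + f₂,
      add_mem he₂ hf₂, x + e₁ + f₁, add_mem (add_mem he₂ he₁) hf₁, ?_⟩
    have q : ∀ a b c d : F, Q (a • e₁ + b • f₁ + (c • x + d • f₂)) = a * b + c * d := by
      intro a b c d
      rw [QuadraticMap.map_add (⇑Q), map_smul_add_smul, map_smul_add_smul, hp₁.left, hp₁.right,
        hp₁.pair, hp₂.left, hp₂.right, hp₂.pair]
      simp [polar_add_left, polar_add_right, polar_smul_left, polar_smul_right, hxe, hxp, g1, g2]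
    have B : ∀ a b c d a' b' c' d' : F,
        polar Q (a • e₁ + b • f₁ + (c • x + d • f₂)) (a' • e₁ + b' • f₁ + (c' • x + d' • f₂)) =
          a * b' + b * a' + c * d' + d * c' := by
      intro a b c d a' b' c' d'
      simp [polar_add_left, polar_add_right, polar_smul_left, polar_smul_right, polar_self', hxe,
        hxp, g1, g2, hp₁.left, hp₁.right, hp₁.pair, hp₂.left, hp₂.right, hp₂.pair,
        polar_comm (⇑Q) f₁ e₁, polar_comm (⇑Q) f₂ x, polar_comm (⇑Q) x e₁, polar_comm (⇑Q) x f₁,
        polar_comm (⇑Q) f₂ e₁, polar_comm (⇑Q) f₂ f₁]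
      ring
    have ea : e₁ + f₁ = (1 : F) • e₁ + (1 : F) • f₁ + ((0 : F) • x + (0 : F) • f₂) := by simp
    have eb : e₁ + x + f₂ = (1 : F) • e₁ + (0 : F) • f₁ + ((1 : F) • x + (1 : F) • f₂) := by
      simp [add_assoc]
    have ec : x + f₂ = (0 : F) • e₁ + (0 : F) • f₁ + ((1 : F) • x + (1 : F) • f₂) := by simp
    have ed : x + e₁ + f₁ = (1 : F) • e₁ + (1 : F) • f₁ + ((1 : F) • x + (0 : F) • f₂) := by
      simp; abel
    refine ⟨?_, ?_, ?_, ?_, ?_, ?_, ?_, ?_, ?_, ?_, fun z hz hqz => ?_⟩
    · rw [ea, q]; simp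
    · rw [eb, q]; simp
    · rw [ec, q]; simp
    · rw [ed, q]; simp
    · rw [ea, eb, B]; simp
    · rw [ec, ed, B]; simp
    · rw [ea, ec, B]; simp
    · rw [ea, ed, B]; linear_combination h2
    · rw [eb, ec, B]; linear_combination h2
    · rw [eb, ed, B]; linear_combination h2
    · set w := z - polar Q f₁ z • e₁ - polar Q e₁ z • f₁ with hwd
      have hw : w ∈ D i ⊓ pperp Q e₁ f₁ :=
        ⟨sub_mem (sub_mem hz ((D i).smul_mem _ he₁)) ((D i).smul_mem _ hf₁), hp₁.decomp z⟩
      set w' := w - polar Q f₂ w • x - polar Q x w • f₂ with hw'd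
      have hw'0 : w' = 0 := by
        have hxm : x ∈ D i ⊓ pperp Q e₁ f₁ := ⟨he₂, mem_pperp.2 ⟨hxe, hxp⟩⟩
        have hf₂m : f₂ ∈ D i ⊓ pperp Q e₁ f₁ := ⟨hf₂, mem_pperp.2 ⟨g1, g2⟩⟩
        obtain ⟨hrad2, -⟩ := pair_complement hQ hrad hxm hf₂m hp₂
        have hm : w' ∈ (D i ⊓ pperp Q e₁ f₁) ⊓ pperp Q x f₂ :=
          ⟨sub_mem (sub_mem hw (Submodule.smul_mem _ _ hxm)) (Submodule.smul_mem _ _ hf₂m),
            hp₂.decomp w⟩
        have hbot : (D i ⊓ pperp Q e₁ f₁) ⊓ pperp Q x f₂ = ⊥ := by
          have hsub : Submodule.span F {e₁} ⊔ Submodule.span F {f₁} ⊔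
              (Submodule.span F {x} ⊔ Submodule.span F {f₂}) = D i := by
            refine Submodule.eq_of_le_of_finrank_le (sup_le (sup_le
              ((Submodule.span_singleton_le_iff_mem _ _).2 he₁)
              ((Submodule.span_singleton_le_iff_mem _ _).2 hf₁)) (sup_le
              ((Submodule.span_singleton_le_iff_mem _ _).2 he₂)
              ((Submodule.span_singleton_le_iff_mem _ _).2 hf₂))) ?_
            have h1 := Submodule.finrank_sup_add_finrank_inf_eq
              (Submodule.span F {e₁} ⊔ Submodule.span F {f₁})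
              (Submodule.span F {x} ⊔ Submodule.span F {f₂})
            have hi : (Submodule.span F {e₁} ⊔ Submodule.span F {f₁}) ⊓
                (Submodule.span F {x} ⊔ Submodule.span F {f₂}) = ⊥ := by
              rw [eq_bot_iff]
              refine le_trans (inf_le_inf_left _ (sup_le
                ((Submodule.span_singleton_le_iff_mem _ _).2 hxm.2)
                ((Submodule.span_singleton_le_iff_mem _ _).2 hf₂m.2))) ?_
              rintro y ⟨hy, hy'⟩
              obtain ⟨y1, hy1, y2, hy2, rfl⟩ := Submodule.mem_sup.1 hy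
              obtain ⟨a, rfl⟩ := Submodule.mem_span_singleton.1 hy1
              obtain ⟨b, rfl⟩ := Submodule.mem_span_singleton.1 hy2
              obtain ⟨k1, k2⟩ := mem_pperp.1 hy'
              simp [polar_add_right, polar_smul_right, polar_self', hp₁.left, hp₁.right, hp₁.pair,
                polar_comm (⇑Q) f₁ e₁] at k1 k2
              simp [k1, k2]
            rw [hi, finrank_bot, Submodule.finrank_sup_span_singleton hp₁.not_mem,
              Submodule.finrank_sup_span_singleton hp₂.not_mem, finrank_span_singleton he₁0,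
              finrank_span_singleton hx0] at h1
            rw [hD.decomp.finrank_eq]
            omega
          rw [eq_bot_iff]
          rintro y ⟨⟨hyD, hyp⟩, hyp'⟩
          refine eq_zero_of_mem_mem hWU hyD ?_
          rw [← hsub, perp_sup, perp_sup, perp_sup]
          exact ⟨⟨mem_perp_span.2 (mem_pperp.1 hyp).1, mem_perp_span.2 (mem_pperp.1 hyp).2⟩,
            mem_perp_span.2 (mem_pperp.1 hyp').1, mem_perp_span.2 (mem_pperp.1 hyp').2⟩
        rwa [hbot, Submodule.mem_bot] at hm
      have hz' : z = polar Q f₁ z • e₁ + polar Q e₁ z • f₁ +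
          (polar Q f₂ w • x + polar Q x w • f₂) := by
        rw [hw'd] at hw'0
        linear_combination (norm := (rw [hwd]; module)) hw'0
      rw [hz', q] at hqz
      rw [hz']
      have hneg : (1 : F) + 1 = 0 := by linear_combination h2
      have hv2 : ∀ y : ι → F, y + y = 0 := fun y => by rw [← two_smul F y, h2, zero_smul]
      have eab : e₁ + f₁ + (e₁ + x + f₂) =
          (0 : F) • e₁ + (1 : F) • f₁ + ((1 : F) • x + (1 : F) • f₂) := by
        linear_combination (norm := module) hv2 e₁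
      have ecd : x + f₂ + (x + e₁ + f₁) =
          (1 : F) • e₁ + (1 : F) • f₁ + ((0 : F) • x + (1 : F) • f₂) := by
        linear_combination (norm := module) hv2 x
      rw [eab, ecd, ea, eb, ec, ed]
      rcases hsc (polar Q f₁ z) with h | h <;> rcases hsc (polar Q e₁ z) with h' | h' <;>
        rcases hsc (polar Q f₂ w) with k | k <;> rcases hsc (polar Q x w) with k' | k' <;>
        rw [h, h', k, k'] at hqz ⊢ <;>
        first
          | (exfalso; simp [hneg] at hqz; done)
          | simp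
  choose A hA B hB C hC D' hD' qA qB qC qD pAB pCD pAC pAD pBC pBD hsix using hfour
  let S : Set (ι → F) := {v | ∃ i, v ∈ D i ∧ Q v = 1}
  refine not_maximal_of_set hf S ?_ ?_ ?_
  · rintro g hg v ⟨i, hv, hqv⟩
    obtain ⟨j, hj⟩ := hg i
    exact ⟨j, hj v hv, by rw [orth_map, hqv]⟩
  · obtain ⟨i₁, i₂, h12⟩ : ∃ i₁ i₂ : Fin t, i₁ ≠ i₂ :=
      ⟨⟨0, by omega⟩, ⟨1, by omega⟩, by simp⟩
    set s := A i₁ + A i₂ with hs
    set a := B i₁ + B i₂ with ha
    have hqs : Q s = 0 := by
      rw [hs, QuadraticMap.map_add (⇑Q), qA, qA, horth h12 (hA _) (hA _)]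
      linear_combination h2
    have hqa : Q a = 0 := by
      rw [ha, QuadraticMap.map_add (⇑Q), qB, qB, horth h12 (hB _) (hB _)]
      linear_combination h2
    have hsa : polar Q s a = 0 := by
      simp only [hs, ha, polar_add_left, polar_add_right, pAB, horth h12 (hA _) (hB _),
        horth h12.symm (hA _) (hB _)]
      linear_combination h2
    have happ : ∀ x, (eich Q s a : (ι → F) ≃ₗ[F] (ι → F)) x =
        x + polar Q s x • a + polar Q a x • s := by
      intro x
      rw [eich_apply hqs hsa, hqa, zero_mul, zero_smul, sub_zero, sub_eq_add_neg, ← neg_smul,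
        show -polar Q a x = polar Q a x by linear_combination -(polar Q a x) * h2]
    refine ⟨eich Q s a, eich_mem_commutator hQ (by omega) s a, ?_, i₁, fun j => ?_⟩
    · rintro x ⟨i, hxi, hqx⟩
      have hqg : Q ((eich Q s a : (ι → F) ≃ₗ[F] (ι → F)) x) = 1 := by rw [orth_map, hqx]
      rcases eq_or_ne i i₁ with rfl | hi1
      · have hs' : polar Q s x = polar Q (A i) x := by
          rw [hs, polar_add_left, horth h12.symm (hA _) hxi, add_zero]
        have ha' : polar Q a x = polar Q (B i) x := by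
          rw [ha, polar_add_left, horth h12.symm (hB _) hxi, add_zero]
        rw [happ, hs', ha'] at hqg ⊢
        rcases hsix i x hxi hqx with rfl | rfl | rfl | rfl | rfl | rfl <;>
          simp [polar_add_right, polar_self', qA, qB, h2, pAB, pAC, pAD, pBC, pBD,
            polar_comm (⇑Q) (B i) (A i)] at hqg ⊢
        · refine ⟨i₂, ?_, hqg⟩
          rw [hs, show A i + (A i + A i₂) = A i₂ + (2 : F) • A i by module, h2, zero_smul, add_zero]
          exact hA _
        · refine ⟨i₂, ?_, hqg⟩
          rw [ha, show B i + (B i + B i₂) = B i₂ + (2 : F) • B i by module, h2, zero_smul, add_zero]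
          exact hB _
        · refine ⟨i₂, ?_, hqg⟩
          rw [hs, ha, show A i + B i + (B i + B i₂) + (A i + A i₂) =
            A i₂ + B i₂ + (2 : F) • (A i + B i) by module, h2, zero_smul, add_zero]
          exact add_mem (hA _) (hB _)
        · exact ⟨i, hC i, qC i⟩
        · exact ⟨i, hD' i, qD i⟩
        · exact ⟨i, add_mem (hC i) (hD' i), hqg⟩
      rcases eq_or_ne i i₂ with rfl | hi2
      · have hs' : polar Q s x = polar Q (A i) x := by
          rw [hs, polar_add_left, horth h12 (hA _) hxi, zero_add]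
        have ha' : polar Q a x = polar Q (B i) x := by
          rw [ha, polar_add_left, horth h12 (hB _) hxi, zero_add]
        rw [happ, hs', ha'] at hqg ⊢
        rcases hsix i x hxi hqx with rfl | rfl | rfl | rfl | rfl | rfl <;>
          simp [polar_add_right, polar_self', qA, qB, h2, pAB, pAC, pAD, pBC, pBD,
            polar_comm (⇑Q) (B i) (A i)] at hqg ⊢
        · refine ⟨i₁, ?_, hqg⟩
          rw [hs, show A i + (A i₁ + A i) = A i₁ + (2 : F) • A i by module, h2, zero_smul, add_zero]
          exact hA _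
        · refine ⟨i₁, ?_, hqg⟩
          rw [ha, show B i + (B i₁ + B i) = B i₁ + (2 : F) • B i by module, h2, zero_smul, add_zero]
          exact hB _
        · refine ⟨i₁, ?_, hqg⟩
          rw [hs, ha, show A i + B i + (B i₁ + B i) + (A i₁ + A i) =
            A i₁ + B i₁ + (2 : F) • (A i + B i) by module, h2, zero_smul, add_zero]
          exact add_mem (hA _) (hB _)
        · exact ⟨i, hC i, qC i⟩
        · exact ⟨i, hD' i, qD i⟩
        · exact ⟨i, add_mem (hC i) (hD' i), hqg⟩
      rw [happ, hs, ha, polar_add_left, polar_add_left, horth (Ne.symm hi1) (hA _) hxi,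
        horth (Ne.symm hi2) (hA _) hxi, horth (Ne.symm hi1) (hB _) hxi,
        horth (Ne.symm hi2) (hB _) hxi]
      simp only [add_zero, zero_smul]
      exact ⟨i, hxi, hqx⟩
    · by_cases hj : j = i₁
      · refine ⟨A i₁, hA _, fun hm => ?_⟩
        rw [hj, happ, hs, ha, polar_add_left, polar_add_left, horth h12.symm (hA _) (hA _),
          horth h12.symm (hB _) (hA _), polar_self', qA, h2, polar_comm (⇑Q) (B i₁) (A i₁), pAB] at hm
        simp only [mul_one, add_zero, zero_smul, one_smul] at hm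
        rw [show A i₁ + (A i₁ + A i₂) = A i₂ + (2 : F) • A i₁ by module, h2, zero_smul, add_zero] at hm
        have := horth h12.symm (hB i₂) hm
        rw [polar_comm, pAB] at this
        exact one_ne_zero this
      · refine ⟨C i₁, hC _, fun hm => ?_⟩
        rw [happ, hs, ha, polar_add_left, polar_add_left, pAC, horth h12.symm (hA _) (hC _),
          pBC, horth h12.symm (hB _) (hC _)] at hm
        simp only [add_zero, zero_smul] at hm
        have := horth hj hm (hD' i₁)
        rw [pCD] at this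
        exact one_ne_zero this
  · set i₀ : Fin t := ⟨0, by omega⟩
    set v := A i₀ with hv
    have hv0 : v ≠ 0 := fun h => one_ne_zero (α := F) (by
      rw [← qA i₀, ← hv, h, QuadraticMap.map_zero])
    obtain ⟨e, p, hp, hev, hperp, hg⟩ := exists_eich_move hQ (by omega) hv0
    have hd := hp.finrank_pperp hQ
    obtain ⟨x, hx, y, hy, hxy⟩ := exists_hypPair_mem (Q := Q) (S := pperp Q e p)
      (by rw [hp.inf_perp hQ, finrank_bot]; omega)
    obtain ⟨hrad2, hdim2⟩ := pair_complement hQ (hp.inf_perp hQ) hx hy hxy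
    obtain ⟨s, ⟨hs, hs'⟩, -, hs0, hqs⟩ := exists_singular_not_mem (Q := Q)
      (S := pperp Q e p ⊓ pperp Q x y) (T := ⊥) (by rw [finrank_bot]; omega)
    obtain ⟨k1, k2⟩ := mem_pperp.1 hs'
    by_contra hall
    push Not at hall
    have hmem : ∀ a ∈ pperp Q e p, Q a = 1 → v + a - e = B i₀ ∨ v + a - e = A i₀ + B i₀ := by
      intro a ha hqa
      obtain ⟨hgc, hgv⟩ := hg a ha
      obtain ⟨j, hj, hqj⟩ := hall _ hgc v ⟨i₀, hA _, qA _⟩
      rw [hgv, hqa, one_smul] at hj hqj
      have hb : polar Q v (v + a - e) = 1 := by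
        rw [polar_sub_right, polar_add_right, polar_self', h2, zero_mul, polar_comm (⇑Q) v a,
          mem_perp.1 hperp a ha, polar_comm (⇑Q) v e, hev]
        linear_combination -h2
      have hji : i₀ = j := by
        by_contra hne
        rw [horth hne (hA _) hj] at hb
        exact zero_ne_one hb
      subst hji
      rcases hsix i₀ _ hj hqj with h | h | h | h | h | h <;> rw [h] at hb ⊢ <;>
        simp [polar_add_right, polar_self', qA, h2, pAB, pAC, pAD, hv] at hb ⊢
    have h1 := hmem (x + y) (add_mem hx hy)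
      (by rw [QuadraticMap.map_add (⇑Q), hxy.left, hxy.right, hxy.pair]; simp)
    have h3 := hmem (x + y + s) (add_mem (add_mem hx hy) hs)
      (by rw [QuadraticMap.map_add (⇑Q), QuadraticMap.map_add (⇑Q), hxy.left, hxy.right, hxy.pair,
        hqs, polar_add_left, k1, k2]; simp)
    have hes : polar Q e s = 0 := (mem_pperp.1 hs).1
    rcases h1 with h1 | h1 <;> rcases h3 with h3 | h3
    · exact hs0 (by linear_combination (norm := abel) h3 - h1)
    · have : s = A i₀ := by linear_combination (norm := abel) h3 - h1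
      rw [this, ← hv, hev] at hes
      exact one_ne_zero hes
    · have : s = -A i₀ := by linear_combination (norm := abel) h3 - h1
      rw [this, polar_neg_right, ← hv, hev, neg_eq_zero] at hes
      exact one_ne_zero hes
    · exact hs0 (by linear_combination (norm := abel) h3 - h1)

end Cfsg.Agent.H5
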