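import Cfsg.Agent.H5.StabNondegGL

/-!
Non-degenerate planes and three-spaces over very small fields.
-/

set_option autoImplicit false

namespace Cfsg.Agent.H5

open QuadraticMap hiding sq

variable {F V : Type*} [Field F] [Fintype F] [AddCommGroup V] [Module F V] [FiniteDimensional F V]
  {Q : QuadraticForm F V}

omit [Fintype F] in
/-- Coordinates with respect to an orthogonal pair in a plane. -/
theorem plane_coords (h2 : (2 : F) ≠ 0) {W : Submodule F V} (hd : Module.finrank F W = 2)
    (hWU : W ⊓ perp Q W = ⊥) {u : V} (hu : u ∈ W) (hqu : Q u ≠ 0) :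
    ∃ w ∈ W, Q w ≠ 0 ∧ polar Q u w = 0 ∧ ∀ v ∈ W, ∃ s y : F, v = s • u + y • w := by
  have hu0 : u ≠ 0 := fun h => hqu (by rw [h, QuadraticMap.map_zero])
  have h2u : polar Q u u ≠ 0 := by rw [polar_self']; exact mul_ne_zero h2 hqu
  obtain ⟨x, hx, hxs⟩ : ∃ x ∈ W, x ∉ Submodule.span F {u} := by
    refine SetLike.not_le_iff_exists.1 fun hle => ?_
    have h1 := Submodule.finrank_mono hle
    rw [finrank_span_singleton hu0, hd] at h1
    omega
  set w := x - ((polar Q u u)⁻¹ * polar Q u x) • u with hwd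
  have hw : w ∈ W := sub_mem hx (W.smul_mem _ hu)
  have huw : polar Q u w = 0 := by
    rw [hwd, polar_sub_right, polar_smul_right, smul_eq_mul]
    field_simp
    ring
  have hws : w ∉ Submodule.span F {u} := fun h => hxs <| by
    have : x = w + ((polar Q u u)⁻¹ * polar Q u x) • u := by rw [hwd, sub_add_cancel]
    rw [this]
    exact add_mem h (Submodule.smul_mem _ _ (Submodule.mem_span_singleton_self u))
  have hspan : Submodule.span F {u} ⊔ Submodule.span F {w} = W := by
    refine Submodule.eq_of_le_of_finrank_le (sup_le ((Submodule.span_singleton_le_iff_mem _ _).2 hu)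
      ((Submodule.span_singleton_le_iff_mem _ _).2 hw)) ?_
    rw [Submodule.finrank_sup_span_singleton hws, finrank_span_singleton hu0, hd]
  have hco : ∀ v ∈ W, ∃ s y : F, v = s • u + y • w := fun v hv => by
    rw [← hspan] at hv
    obtain ⟨a, ha, b, hb, rfl⟩ := Submodule.mem_sup.1 hv
    obtain ⟨s, rfl⟩ := Submodule.mem_span_singleton.1 ha
    obtain ⟨y, rfl⟩ := Submodule.mem_span_singleton.1 hb
    exact ⟨s, y, rfl⟩
  refine ⟨w, hw, fun hqw => hws ?_, huw, hco⟩
  rw [eq_zero_of_mem_mem hWU hw (mem_perp.2 fun v hv => by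
    obtain ⟨s, y, rfl⟩ := hco v hv
    rw [polar_add_left, polar_smul_left, polar_smul_left, huw, polar_self', hqw]
    simp)]
  exact Submodule.zero_mem _

/-- Vectors of norm one of a plane, when `s² + d y² = 1` has only trivial solutions. -/
theorem plane_pair (h2 : (2 : F) ≠ 0) {W : Submodule F V} (hd : Module.finrank F W = 2)
    (hWU : W ⊓ perp Q W = ⊥) (hno : ∀ u ∈ W, ∀ w ∈ W, Q u = 1 → Q w ≠ 0 → polar Q u w = 0 →
      ∀ s y : F, s ≠ 0 → y ≠ 0 → s * s + y * y * Q w ≠ 1) :
    ∀ u ∈ W, ∀ v ∈ W, Q u = 1 → Q v = 1 → v = u ∨ v = -u ∨ polar Q u v = 0 := by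
  intro u hu v hv hqu hqv
  obtain ⟨w, hw, hqw, huw, hco⟩ := plane_coords h2 hd hWU hu (by rw [hqu]; exact one_ne_zero)
  obtain ⟨s, y, rfl⟩ := hco v hv
  rw [map_smul_add_smul, hqu, huw] at hqv
  by_cases hy : y = 0
  · subst hy
    have hs : (s - 1) * (s + 1) = 0 := by linear_combination hqv
    rcases mul_eq_zero.1 hs with h | h
    · exact Or.inl (by rw [sub_eq_zero.1 h]; simp)
    · exact Or.inr (Or.inl (by rw [eq_neg_of_add_eq_zero_left h]; simp))
  · by_cases hs : s = 0
    · subst hs
      exact Or.inr (Or.inr (by simp [polar_smul_right, huw]))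
    · exact absurd (by linear_combination hqv) (hno u hu w hw hqu hqw huw s y hs hy)

theorem plane_pair_three (hq : Fintype.card F = 3) (h2 : (2 : F) ≠ 0) {W : Submodule F V}
    (hd : Module.finrank F W = 2) (hWU : W ⊓ perp Q W = ⊥) :
    ∀ u ∈ W, ∀ v ∈ W, Q u = 1 → Q v = 1 → v = u ∨ v = -u ∨ polar Q u v = 0 := by
  refine plane_pair h2 hd hWU fun u _ w _ _ hqw _ s y hs hy h => hqw ?_
  have hsq : ∀ x : F, x ≠ 0 → x * x = 1 := fun x hx => by
    have := FiniteField.pow_card_sub_one_eq_one x hx
    rwa [hq, pow_two] at this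
  rw [hsq s hs, hsq y hy] at h
  linear_combination h

theorem plane_pair_five (hq : Fintype.card F = 5) (h2 : (2 : F) ≠ 0) {W : Submodule F V}
    (hd : Module.finrank F W = 2) (hWU : W ⊓ perp Q W = ⊥)
    (hs0 : ∃ x ∈ W, x ≠ 0 ∧ Q x = 0) :
    ∀ u ∈ W, ∀ v ∈ W, Q u = 1 → Q v = 1 → v = u ∨ v = -u ∨ polar Q u v = 0 := by
  classical
  haveI : Fact (Nat.Prime 5) := ⟨by norm_num⟩
  haveI : CharP F 5 := charP_of_card_eq_prime hq
  have h5 : (5 : F) = 0 := CharP.cast_eq_zero F 5
  have h3 : (3 : F) ≠ 0 := fun h => by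
    have h2' : (2 : F) = 0 := by linear_combination h5 - h
    exact h2 h2'
  refine plane_pair h2 hd hWU fun u hu w hw hqu hqw huw s y hs hy h => ?_
  have hsq : ∀ x : F, x ≠ 0 → x * x = 1 ∨ x * x = -1 := fun x hx => by
    have h4 := FiniteField.pow_card_sub_one_eq_one x hx
    rw [hq] at h4
    have : (x * x - 1) * (x * x + 1) = 0 := by linear_combination h4
    rcases mul_eq_zero.1 this with h' | h'
    exacts [Or.inl (sub_eq_zero.1 h'), Or.inr (eq_neg_of_add_eq_zero_left h')]
  obtain ⟨x, hx, hx0, hqx⟩ := hs0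
  obtain ⟨w', hw', hqw', huw', hco⟩ := plane_coords h2 hd hWU hu (by rw [hqu]; exact one_ne_zero)
  obtain ⟨s', y', rfl⟩ := hco w hw
  rw [polar_add_right, polar_smul_right, polar_smul_right, huw', polar_self', hqu] at huw
  have hs'0 : s' = 0 := by
    have : s' * 2 = 0 := by simpa using huw
    exact (mul_eq_zero.1 this).resolve_right h2
  subst hs'0
  obtain ⟨a, b, rfl⟩ := hco x hx
  rw [map_smul_add_smul, hqu, huw'] at hqx
  have hab : a * a + b * b * Q w' = 0 := by linear_combination hqx
  have hb : b ≠ 0 := fun hb => by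
    subst hb
    have : a * a = 0 := by linear_combination hab
    exact hx0 (by rw [mul_self_eq_zero.1 this]; simp)
  have ha : a ≠ 0 := fun ha => by
    subst ha
    have : b * b * Q w' = 0 := by linear_combination hab
    exact hqw' ((mul_eq_zero.1 this).resolve_left (mul_ne_zero hb hb))
  have hd' : Q w' = 1 ∨ Q w' = -1 := by
    rcases hsq a ha with ha2 | ha2 <;> rcases hsq b hb with hb2 | hb2 <;> rw [ha2, hb2] at hab
    · exact Or.inr (by linear_combination hab)
    · exact Or.inl (by linear_combination -hab)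
    · exact Or.inl (by linear_combination hab)
    · exact Or.inr (by linear_combination -hab)
  have hy' : y * y' ≠ 0 := mul_ne_zero hy fun h0 => hqw (by simp [h0])
  rw [zero_smul, zero_add, QuadraticMap.map_smul, smul_eq_mul] at h
  have h' : s * s + (y * y') * (y * y') * Q w' = 1 := by linear_combination h
  rcases hsq s hs with e1 | e1 <;> rcases hsq _ hy' with e2 | e2 <;> rcases hd' with e3 | e3 <;>
    rw [e1, e2, e3] at h' <;>
    first
      | exact one_ne_zero (by linear_combination h')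
      | exact one_ne_zero (by linear_combination -h')
      | exact h3 (by linear_combination h')
      | exact h3 (by linear_combination -h')

/-- A non-degenerate three-space over three elements has a unique orthogonal frame of one norm. -/
theorem space_three_frame (hq : Fintype.card F = 3) {W : Submodule F V}
    (hd : Module.finrank F W = 3) (hWU : W ⊓ perp Q W = ⊥) :
    ∃ c : F, c ≠ 0 ∧ (∃ u ∈ W, Q u = c) ∧
      ∀ u ∈ W, ∀ v ∈ W, Q u = c → Q v = c → v = u ∨ v = -u ∨ polar Q u v = 0 := by
  classical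
  haveI : Fact (Nat.Prime 3) := ⟨by norm_num⟩
  haveI : CharP F 3 := charP_of_card_eq_prime hq
  have h3 : (3 : F) = 0 := CharP.cast_eq_zero F 3
  have h2 : (2 : F) ≠ 0 := fun h => one_ne_zero (α := F) (by linear_combination h3 - h)
  have hsq : ∀ x : F, x ≠ 0 → x * x = 1 := fun x hx => by
    have := FiniteField.pow_card_sub_one_eq_one x hx
    rwa [hq, pow_two] at this
  obtain ⟨u, hu, hqu⟩ := exists_mem_norm_eq hWU (by omega) (1 : F)
  have hu0 : u ≠ 0 := fun h => one_ne_zero (α := F) (by rw [← hqu, h, QuadraticMap.map_zero])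
  set P := W ⊓ perp Q (Submodule.span F {u}) with hP
  have hPrad : P ⊓ perp Q P = ⊥ := by
    rw [eq_bot_iff]
    rintro x ⟨⟨hxW, hxu⟩, hxP⟩
    refine eq_zero_of_mem_mem hWU hxW (mem_perp.2 fun z hz => ?_)
    have hz' : z - ((2 : F)⁻¹ * polar Q u z) • u ∈ P :=
      ⟨sub_mem hz (W.smul_mem _ hu), mem_perp_span.2 (by
        rw [polar_sub_right, polar_smul_right, polar_self', hqu, smul_eq_mul]
        field_simp
        ring)⟩
    have := mem_perp.1 hxP _ hz'
    rw [polar_sub_left, polar_smul_left, mem_perp_span.1 hxu, smul_zero, sub_zero] at this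
    exact this
  have hPd : 2 ≤ Module.finrank F P := by
    by_contra hlt
    obtain ⟨x, hx, hxT⟩ : ∃ x ∈ W, x ∉ Submodule.span F {u} ⊔ P := by
      refine SetLike.not_le_iff_exists.1 fun hle' => ?_
      have h5 := Submodule.finrank_mono hle'
      have h6 := Submodule.finrank_add_le_finrank_add_finrank (Submodule.span F {u}) P
      rw [finrank_span_singleton hu0] at h6
      omega
    refine hxT (Submodule.mem_sup.2 ⟨((2 : F)⁻¹ * polar Q u x) • u,
      Submodule.smul_mem _ _ (Submodule.mem_span_singleton_self u), _,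
      ⟨sub_mem hx (W.smul_mem ((2 : F)⁻¹ * polar Q u x) hu), mem_perp_span.2 ?_⟩,
      add_sub_cancel _ _⟩)
    rw [polar_sub_right, polar_smul_right, polar_self', hqu, smul_eq_mul]
    field_simp
    ring
  obtain ⟨v, hv, hqv⟩ := exists_mem_norm_eq hPrad hPd (1 : F)
  obtain ⟨w, hw, hwuv⟩ : ∃ w ∈ P, w ∉ Submodule.span F {v} := by
    refine SetLike.not_le_iff_exists.1 fun hle => ?_
    have h5 := Submodule.finrank_mono hle
    have h6 : Module.finrank F (Submodule.span F {v}) ≤ 1 := by
      simpa using finrank_span_le_card ({v} : Set V)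
    omega
  set w' := w - ((2 : F)⁻¹ * polar Q v w) • v with hw'd
  have hw' : w' ∈ P := sub_mem hw (P.smul_mem _ hv)
  have huv : polar Q u v = 0 := mem_perp_span.1 hv.2
  have huw : polar Q u w' = 0 := mem_perp_span.1 hw'.2
  have hvw : polar Q v w' = 0 := by
    rw [hw'd, polar_sub_right, polar_smul_right, polar_self', hqv, smul_eq_mul]
    field_simp
    ring
  have hspan : ∀ x ∈ W, ∃ a b c : F, x = a • u + b • v + c • w' := by
    have hs : Submodule.span F {u} ⊔ Submodule.span F {v} ⊔ Submodule.span F {w'} = W := by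
      have hv0 : v ∉ Submodule.span F {u} := fun h => by
        obtain ⟨a, rfl⟩ := Submodule.mem_span_singleton.1 h
        rw [polar_smul_right, polar_self', hqu, smul_eq_mul, mul_one] at huv
        rcases mul_eq_zero.1 huv with h | h
        · rw [h, zero_smul, QuadraticMap.map_zero] at hqv; exact zero_ne_one hqv
        · exact h2 h
      have hw0 : w' ∉ Submodule.span F {u} ⊔ Submodule.span F {v} := fun h => by
        obtain ⟨x, hx, y, hy, hxy⟩ := Submodule.mem_sup.1 h
        obtain ⟨a, rfl⟩ := Submodule.mem_span_singleton.1 hx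
        obtain ⟨b, rfl⟩ := Submodule.mem_span_singleton.1 hy
        rw [← hxy, polar_add_right, polar_smul_right, polar_smul_right, polar_self', huv, hqu] at huw
        rw [← hxy, polar_add_right, polar_smul_right, polar_smul_right, polar_self',
          polar_comm (⇑Q) v u, huv, hqv] at hvw
        simp only [smul_eq_mul, mul_zero, add_zero, zero_add, mul_one] at huw hvw
        have ha := (mul_eq_zero.1 huw).resolve_right h2
        have hb := (mul_eq_zero.1 hvw).resolve_right h2
        rw [ha, hb, zero_smul, zero_smul, add_zero, hw'd] at hxy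
        exact hwuv (Submodule.mem_span_singleton.2 ⟨_, (sub_eq_zero.1 hxy.symm).symm⟩)
      refine Submodule.eq_of_le_of_finrank_le (sup_le (sup_le
        ((Submodule.span_singleton_le_iff_mem _ _).2 hu)
        ((Submodule.span_singleton_le_iff_mem _ _).2 hv.1))
        ((Submodule.span_singleton_le_iff_mem _ _).2 hw'.1)) ?_
      rw [Submodule.finrank_sup_span_singleton hw0, Submodule.finrank_sup_span_singleton hv0,
        finrank_span_singleton hu0, hd]
    intro x hx
    rw [← hs] at hx
    obtain ⟨y, hy, z, hz, rfl⟩ := Submodule.mem_sup.1 hx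
    obtain ⟨y₁, hy₁, y₂, hy₂, rfl⟩ := Submodule.mem_sup.1 hy
    obtain ⟨a, rfl⟩ := Submodule.mem_span_singleton.1 hy₁
    obtain ⟨b, rfl⟩ := Submodule.mem_span_singleton.1 hy₂
    obtain ⟨c, rfl⟩ := Submodule.mem_span_singleton.1 hz
    exact ⟨a, b, c, rfl⟩
  -- a frame of one norm
  obtain ⟨c, hc, b₁, hb₁, b₂, hb₂, b₃, hb₃, q1, q2, q3, p12, p13, p23, hco⟩ : ∃ c : F, c ≠ 0 ∧
      ∃ b₁ ∈ W, ∃ b₂ ∈ W, ∃ b₃ ∈ W, Q b₁ = c ∧ Q b₂ = c ∧ Q b₃ = c ∧ polar Q b₁ b₂ = 0 ∧
        polar Q b₁ b₃ = 0 ∧ polar Q b₂ b₃ = 0 ∧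
        ∀ x ∈ W, ∃ a b e : F, x = a • b₁ + b • b₂ + e • b₃ := by
    have hqw : Q w' ≠ 0 := fun h => by
      have h0 : w' = 0 := eq_zero_of_mem_mem hWU hw'.1 (mem_perp.2 fun x hx => by
        obtain ⟨a, b, c, rfl⟩ := hspan x hx
        simp [polar_add_left, polar_smul_left, huw, hvw, polar_self', h])
      rw [hw'd, sub_eq_zero] at h0
      exact hwuv (Submodule.mem_span_singleton.2 ⟨_, h0.symm⟩)
    have hd1 : (Q w' - 1) * (Q w' + 1) = 0 := by linear_combination hsq _ hqw
    rcases mul_eq_zero.1 hd1 with h | h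
    · exact ⟨1, one_ne_zero, u, hu, v, hv.1, w', hw'.1, hqu, hqv, sub_eq_zero.1 h, huv, huw, hvw,
        hspan⟩
    · refine ⟨-1, neg_ne_zero.2 one_ne_zero, u + v, add_mem hu hv.1, u - v, sub_mem hu hv.1, w', hw'.1,
        ?_, ?_, eq_neg_of_add_eq_zero_left h, ?_, ?_, ?_, fun x hx => ?_⟩
      · rw [QuadraticMap.map_add (⇑Q), hqu, hqv, huv]; linear_combination h3
      · rw [map_sub', hqu, hqv, huv]; linear_combination h3
      · simp [polar_add_left, polar_sub_right, polar_self', hqu, hqv, huv, polar_comm (⇑Q) v u]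
      · simp [polar_add_left, huw, hvw]
      · simp [polar_sub_left, huw, hvw]
      · obtain ⟨a, b, c, rfl⟩ := hspan x hx
        refine ⟨(2 : F)⁻¹ * (a + b), (2 : F)⁻¹ * (a - b), c, ?_⟩
        match_scalars <;> field_simp <;> ring
  refine ⟨c, hc, ⟨b₁, hb₁, q1⟩, ?_⟩
  have key : ∀ x ∈ W, Q x = c →
      x = b₁ ∨ x = -b₁ ∨ x = b₂ ∨ x = -b₂ ∨ x = b₃ ∨ x = -b₃ := by
    intro x hx hqx
    obtain ⟨a, b, e, rfl⟩ := hco x hx
    have hsum : a * a + b * b + e * e = 1 := by
      rw [QuadraticMap.map_add (⇑Q), map_smul_add_smul, QuadraticMap.map_smul, q1, q2, q3, p12,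
        polar_smul_right, polar_add_left, polar_smul_left, polar_smul_left, p13, p23] at hqx
      simp only [smul_eq_mul, mul_zero, add_zero] at hqx
      exact mul_right_cancel₀ hc (by linear_combination hqx)
    have hpm : ∀ z : F, z ≠ 0 → z = 1 ∨ z = -1 := fun z hz => mul_self_eq_one_iff.1 (hsq z hz)
    by_cases ha : a = 0 <;> by_cases hb : b = 0 <;> by_cases he : e = 0
    · subst ha hb he; exact absurd (by simpa using hsum) (zero_ne_one (α := F))
    · subst ha hb
      rcases hpm e he with rfl | rfl <;> simp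
    · subst ha he
      rcases hpm b hb with rfl | rfl <;> simp
    · subst ha
      rw [hsq b hb, hsq e he] at hsum
      exact absurd (show (1 : F) = 0 by linear_combination hsum) one_ne_zero
    · subst hb he
      rcases hpm a ha with rfl | rfl <;> simp
    · subst hb
      rw [hsq a ha, hsq e he] at hsum
      exact absurd (show (1 : F) = 0 by linear_combination hsum) one_ne_zero
    · subst he
      rw [hsq a ha, hsq b hb] at hsum
      exact absurd (show (1 : F) = 0 by linear_combination hsum) one_ne_zero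
    · rw [hsq a ha, hsq b hb, hsq e he] at hsum
      exact absurd (show (1 : F) = 0 by linear_combination h3 - hsum) one_ne_zero
  intro x hx y hy hqx hqy
  rcases key x hx hqx with e | e | e | e | e | e <;>
    rcases key y hy hqy with e' | e' | e' | e' | e' | e' <;>
    simp [e, e', p12, p13, p23, polar_neg_left, polar_neg_right, polar_comm (⇑Q) b₂ b₁,
      polar_comm (⇑Q) b₃ b₁, polar_comm (⇑Q) b₃ b₂]

end Cfsg.Agent.H5
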