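import Cfsg.Agent.H5.StabNondeg
import Cfsg.Agent.H5.OmegaGL
import Cfsg.Agent.H4.DiscClass

/-!
Maximality of the stabiliser of a non-degenerate subspace inside `Ω` in the general linear group.
-/

set_option autoImplicit false

namespace Cfsg.Agent.H5

open QuadraticMap hiding sq

section abstractSpace

variable {F V : Type*} [Field F] [AddCommGroup V] [Module F V] {Q : QuadraticForm F V}

/-- An isometry carrying half of the space onto its perp yields a singular subspace of half the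
dimension, when that half has even dimension. -/
theorem exists_singular_half_of_swap [Finite F] [FiniteDimensional F V] {W : Submodule F V}
    (hWU : W ⊓ perp Q W = ⊥) {k : ℕ} (hk : Module.finrank F W = 2 * k) (g : orth Q)
    (hg : ∀ x ∈ W, (g : V ≃ₗ[F] V) x ∈ perp Q W) :
    ∃ U : Submodule F V, (∀ u ∈ U, Q u = 0) ∧ Module.finrank F U = 2 * k := by
  set R : QuadraticForm F W := Q.comp W.subtype with hR
  have hRa : ∀ x : W, R x = Q (x : V) := fun x => rfl
  have hRp : ∀ x y : W, polar R x y = polar Q (x : V) (y : V) := fun x y => by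
    simp [hR, QuadraticMap.polar]
  have hnd : (polarBilin R).Nondegenerate := by
    refine ⟨fun x hx => ?_, fun x hx => ?_⟩ <;>
      refine Subtype.ext (eq_zero_of_mem_mem hWU x.2 (mem_perp.2 fun z hz => ?_))
    · rw [polar_comm]; exact (hRp x ⟨z, hz⟩).symm.trans (hx ⟨z, hz⟩)
    · exact (hRp ⟨z, hz⟩ x).symm.trans (hx ⟨z, hz⟩)
  have hnd' : (polarBilin (-R)).Nondegenerate := by
    refine ⟨fun x hx => hnd.1 x fun y => ?_, fun x hx => hnd.2 x fun y => ?_⟩
    · have := hx y; simpa [QuadraticMap.polar_neg] using this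
    · have := hx y; simpa [QuadraticMap.polar_neg] using this
  obtain ⟨h, hh⟩ := H4.isom_even_of_iff hnd hnd' hk hk
    (exists_congr fun U => and_congr_left fun _ => by simp)
  let φ : W →ₗ[F] V := W.subtype + ((g : V ≃ₗ[F] V) : V →ₗ[F] V).comp (W.subtype.comp h.toLinearMap)
  have hφ : ∀ x, φ x = (x : V) + (g : V ≃ₗ[F] V) (h x : V) := fun x => rfl
  refine ⟨LinearMap.range φ, ?_, ?_⟩
  · rintro _ ⟨x, rfl⟩
    have h1 : polar Q (x : V) ((g : V ≃ₗ[F] V) (h x : V)) = 0 := mem_perp.1 (hg _ (h x).2) x x.2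
    have h2 : -Q (h x : V) = Q (x : V) := hh x
    rw [hφ, QuadraticMap.map_add (⇑Q), orth_map, h1, ← h2]
    ring
  · rw [LinearMap.finrank_range_of_inj, hk]
    refine (injective_iff_map_eq_zero φ).2 fun x hx => Subtype.ext ?_
    rw [hφ] at hx
    refine eq_zero_of_mem_mem hWU x.2 ?_
    rw [eq_neg_of_add_eq_zero_left hx]
    exact neg_mem (hg _ (h x).2)

end abstractSpace

variable {ι : Type} [Fintype ι] [DecidableEq ι] {F : Type*} [Field F]
  (Q : QuadraticForm F (ι → F)) {f : (ι → F) → F} (hf : ⇑Q = f)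

theorem inf_perp_of_isNondegenerateOn {W : Submodule F (ι → F)}
    (hf : ⇑Q = f) (hW : Cfsg.Geo.IsNondegenerateOn (QuadraticMap.polar f) W) :
    W ⊓ perp Q W = ⊥ := by
  rw [eq_bot_iff]
  rintro w ⟨hw, hwp⟩
  by_contra hw0
  obtain ⟨⟨x, hx, hne⟩, -⟩ := hW w hw (fun h => hw0 (by simp [h]))
  exact hne (by rw [← hf]; exact mem_perp.1 hwp x hx)

theorem isNondegenerateOn_of_inf_perp {W : Submodule F (ι → F)}
    (hf : ⇑Q = f) (hW : W ⊓ perp Q W = ⊥) :
    Cfsg.Geo.IsNondegenerateOn (QuadraticMap.polar f) W := by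
  intro w hw hw0
  obtain ⟨x, hx, hne⟩ : ∃ x ∈ W, QuadraticMap.polar Q x w ≠ 0 := by
    by_contra hc
    push Not at hc
    exact hw0 (eq_zero_of_mem_mem hW hw (mem_perp.2 hc))
  rw [← hf]
  exact ⟨⟨x, hx, hne⟩, ⟨x, hx, by rwa [polar_comm]⟩⟩

omit [DecidableEq ι] in
theorem isPlusTypeOn_plane {W : Submodule F (ι → F)} (h2 : Module.finrank F W = 2) {x : ι → F}
    (hx : x ∈ W) (hx0 : x ≠ 0) (hqx : Q x = 0) : Cfsg.Geo.IsPlusTypeOn (⇑Q) W := by
  refine ⟨Submodule.span F {x}, (Submodule.span_singleton_le_iff_mem _ _).2 hx, ?_, ?_⟩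
  · intro u hu
    obtain ⟨t, rfl⟩ := Submodule.mem_span_singleton.1 hu
    simp [QuadraticMap.map_smul, hqx]
  · rw [finrank_span_singleton hx0, h2]

variable [Fintype F]

include hf in
/-- Stabilisers of non-degenerate subspaces are maximal when the larger of the subspace and its perp has dimension at least five (four in odd characteristic). -/
theorem isMaximalIn_stab_nondeg_four (hQ : (QuadraticMap.polarBilin Q).Nondegenerate)
    (W : Submodule F (ι → F)) (hn : 5 ≤ Fintype.card ι) (h5 : (5 ≤ Module.finrank F W ∨ 5 + Module.finrank F W ≤ Fintype.card ι) ∨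
      (2 : F) ≠ 0 ∧ (4 ≤ Module.finrank F W ∨ 4 + Module.finrank F W ≤ Fintype.card ι))
    (hW0 : W ≠ ⊥) (hW1 : W ≠ ⊤)
    (hWU : W ⊓ perp Q W = ⊥)
    (hswap : 2 * Module.finrank F W = Fintype.card ι →
      ∀ g : orth Q, ¬ ∀ x ∈ W, (g : (ι → F) ≃ₗ[F] (ι → F)) x ∈ perp Q W)
    (hex : ∀ P : Submodule F (ι → F), (P = W ∨ P = perp Q W) →
      ¬ (Nat.card F ≤ 3 ∧ Module.finrank F P = 2 ∧ ∃ x ∈ P, x ≠ 0 ∧ Q x = 0)) :
    Cfsg.Geo.IsMaximalIn (Cfsg.Geo.omegaGL f)
      (Cfsg.Geo.subspaceStabilizer W ⊓ Cfsg.Geo.omegaGL f) := by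
  haveI : Finite (ι → F) := Pi.finite
  have hr : Module.finrank F (ι → F) = Fintype.card ι := Module.finrank_fintype_fun_eq_card F
  have hsum := finrank_perp_add hQ W
  rw [hr] at hsum
  have hp0 : perp Q W ≠ ⊥ := fun h => hW1 <| Submodule.eq_top_of_finrank_eq (by
    rw [hr]; rw [h, finrank_bot] at hsum; omega)
  have hUU : perp Q W ⊓ perp Q (perp Q W) = ⊥ := by rw [perp_perp hQ, inf_comm]; exact hWU
  refine isMaximalIn_omegaGL Q hf _ ?_ ?_
  · by_cases h3 : 3 ≤ Module.finrank F W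
    · obtain ⟨g, hg, hgW⟩ := exists_not_preserves_nondeg hQ hWU (by omega) h3 hp0
      exact ⟨g, hg, fun h => hgW ((toGLHom_mem_stab_iff Q hf W g).1 h)⟩
    · obtain ⟨g, hg, hgW⟩ := exists_not_preserves_nondeg hQ hUU (by omega) (by omega)
        (by rw [perp_perp hQ]; exact hW0)
      exact ⟨g, hg, fun h => hgW ((toGLHom_mem_stab_iff Q hf W g).1 h).perp⟩
  · intro M hM g hgM _ hgS
    have hM' : ∀ k ∈ commutator (orth Q), Preserves W k → k ∈ M :=
      fun k hk hkW => hM k hk ((toGLHom_mem_stab_iff Q hf W k).2 hkW)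
    have hgW : ¬ Preserves W g := fun h => hgS ((toGLHom_mem_stab_iff Q hf W g).2 h)
    have hnoswap : ∀ {A : Submodule F (ι → F)}, Fintype.card ι < 2 * Module.finrank F A →
        ¬ ∀ x ∈ A, (g : (ι → F) ≃ₗ[F] (ι → F)) x ∈ perp Q A := by
      intro A hA h
      have hle : A.map ((g : (ι → F) ≃ₗ[F] (ι → F)) : (ι → F) →ₗ[F] (ι → F)) ≤ perp Q A := by
        rintro _ ⟨x, hx, rfl⟩
        exact h x hx
      have h1 := Submodule.finrank_mono hle
      have h2 := finrank_perp_add hQ A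
      rw [LinearEquiv.finrank_map_eq] at h1
      omega
    by_cases hbig : Fintype.card ι ≤ 2 * Module.finrank F W
    · refine commutator_le_of_nondeg' hQ hWU hM' (by omega)
        (h5.imp (fun h => by omega) (fun h => ⟨h.1, by omega⟩)) (hex _ (Or.inr rfl)) hgM hgW ?_
      rcases Nat.lt_or_eq_of_le hbig with h | h
      · exact hnoswap h
      · exact hswap h.symm g
    · refine commutator_le_of_nondeg' hQ hUU (fun k hk hkU => hM' k hk ?_) (by omega)
        (h5.imp (fun h => by omega) (fun h => ⟨h.1, by omega⟩))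
        (by rw [perp_perp hQ]; exact hex _ (Or.inl rfl)) hgM (fun h => hgW ?_) (hnoswap (by omega))
      · have := hkU.perp; rwa [perp_perp hQ] at this
      · have := h.perp; rwa [perp_perp hQ] at this

include hf in
/-- Stabilisers of non-degenerate subspaces are maximal when the larger of the subspace and its perp has dimension at least five. -/
theorem isMaximalIn_stab_nondeg_five (hQ : (QuadraticMap.polarBilin Q).Nondegenerate)
    (W : Submodule F (ι → F)) (h5 : 5 ≤ Module.finrank F W ∨ 5 + Module.finrank F W ≤ Fintype.card ι)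
    (hW0 : W ≠ ⊥) (hW1 : W ≠ ⊤)
    (hWU : W ⊓ perp Q W = ⊥)
    (hswap : 2 * Module.finrank F W = Fintype.card ι →
      ∀ g : orth Q, ¬ ∀ x ∈ W, (g : (ι → F) ≃ₗ[F] (ι → F)) x ∈ perp Q W)
    (hex : ∀ P : Submodule F (ι → F), (P = W ∨ P = perp Q W) →
      ¬ (Nat.card F ≤ 3 ∧ Module.finrank F P = 2 ∧ ∃ x ∈ P, x ≠ 0 ∧ Q x = 0)) :
    Cfsg.Geo.IsMaximalIn (Cfsg.Geo.omegaGL f)
      (Cfsg.Geo.subspaceStabilizer W ⊓ Cfsg.Geo.omegaGL f) :=
  isMaximalIn_stab_nondeg_four Q hf hQ W (by have := Submodule.finrank_le W; have := (Module.finrank_fintype_fun_eq_card F (η := ι)); omega) (Or.inl h5) hW0 hW1 hWU hswap hex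

include hf in
/-- Stabilisers of non-degenerate subspaces are maximal (dimension eleven suffices in odd characteristic). -/
theorem isMaximalIn_stab_nondeg' (hQ : (QuadraticMap.polarBilin Q).Nondegenerate)
    (hn : 13 ≤ Fintype.card ι ∨ (2 : F) ≠ 0 ∧ 11 ≤ Fintype.card ι) (W : Submodule F (ι → F)) (hW0 : W ≠ ⊥) (hW1 : W ≠ ⊤)
    (hWU : W ⊓ perp Q W = ⊥)
    (hswap : 2 * Module.finrank F W = Fintype.card ι →
      ∀ g : orth Q, ¬ ∀ x ∈ W, (g : (ι → F) ≃ₗ[F] (ι → F)) x ∈ perp Q W)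
    (hex : ∀ P : Submodule F (ι → F), (P = W ∨ P = perp Q W) →
      ¬ (Nat.card F ≤ 3 ∧ Module.finrank F P = 2 ∧ ∃ x ∈ P, x ≠ 0 ∧ Q x = 0)) :
    Cfsg.Geo.IsMaximalIn (Cfsg.Geo.omegaGL f)
      (Cfsg.Geo.subspaceStabilizer W ⊓ Cfsg.Geo.omegaGL f) := by
  have hn' : 11 ≤ Fintype.card ι := hn.elim (fun h => by omega) And.right
  exact isMaximalIn_stab_nondeg_five Q hf hQ W (by omega) hW0 hW1 hWU hswap hex

include hf in
/-- Stabilisers of non-degenerate subspaces are maximal. -/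
theorem isMaximalIn_stab_nondeg (hQ : (QuadraticMap.polarBilin Q).Nondegenerate)
    (hn : 13 ≤ Fintype.card ι) (W : Submodule F (ι → F)) (hW0 : W ≠ ⊥) (hW1 : W ≠ ⊤)
    (hWU : W ⊓ perp Q W = ⊥)
    (hswap : 2 * Module.finrank F W = Fintype.card ι →
      ∀ g : orth Q, ¬ ∀ x ∈ W, (g : (ι → F) ≃ₗ[F] (ι → F)) x ∈ perp Q W)
    (hex : ∀ P : Submodule F (ι → F), (P = W ∨ P = perp Q W) →
      ¬ (Nat.card F ≤ 3 ∧ Module.finrank F P = 2 ∧ ∃ x ∈ P, x ≠ 0 ∧ Q x = 0)) :
    Cfsg.Geo.IsMaximalIn (Cfsg.Geo.omegaGL f)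
      (Cfsg.Geo.subspaceStabilizer W ⊓ Cfsg.Geo.omegaGL f) :=
  isMaximalIn_stab_nondeg' Q hf hQ (Or.inl hn) W hW0 hW1 hWU hswap hex

end Cfsg.Agent.H5
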