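import Cfsg.Agent.H5.RootClosure
import Cfsg.Agent.H5.SingularChoice
import Cfsg.Agent.H5.StabSingular

/-!
In characteristic two the stabiliser of an anisotropic point generates `Ω` with any further element.
-/

set_option autoImplicit false

namespace Cfsg.Agent.H5

open QuadraticMap hiding sq

variable {F V : Type*} [Field F] [AddCommGroup V] [Module F V] {Q : QuadraticForm F V}

theorem finrank_span_pair_le [FiniteDimensional F V] (x y : V) :
    Module.finrank F ↥(Submodule.span F {x} ⊔ Submodule.span F {y}) ≤ 2 := by
  refine (Submodule.finrank_add_le_finrank_add_finrank _ _).trans ?_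
  have h : ∀ z : V, Module.finrank F (Submodule.span F {z}) ≤ 1 := fun z => by
    simpa using finrank_span_le_card ({z} : Set V)
  have := h x; have := h y; omega

variable [Finite F] [Finite V] [FiniteDimensional F V]

theorem exists_not_preserves_point (hQ : (polarBilin Q).Nondegenerate)
    (hn : 5 ≤ Module.finrank F V) {v : V} (hv : Q v ≠ 0) :
    ∃ g ∈ commutator (orth Q), ¬ Preserves (Submodule.span F {v}) g := by
  have hv0 : v ≠ 0 := fun h => hv (by rw [h, QuadraticMap.map_zero])
  obtain ⟨y, hy⟩ := exists_polar_eq_one hQ hv0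
  obtain ⟨e, -, he, hev⟩ := exists_singular_polar_ne (Q := Q) (S := (⊤ : Submodule F V)) (y := v)
    (by
      have := finrank_rad_perp_le hQ (⊥ : Submodule F V)
      have hb : perp Q (⊥ : Submodule F V) = ⊤ := by ext; simp [mem_perp]
      rw [hb, finrank_bot] at this
      rw [finrank_top]; omega) ⟨y, trivial, by rw [hy]; exact one_ne_zero⟩
  obtain ⟨a, ha, haS⟩ := H4.exists_polar_kers (Q := Q) ![e]
    (Submodule.span F {e} ⊔ Submodule.span F {v}) (by have := finrank_span_pair_le (F := F) e v; omega)
  have hea : polar Q e a = 0 := by simpa using ha 0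
  refine ⟨eich Q e a, eich_mem_commutator hQ hn e a, fun hp => ?_⟩
  obtain ⟨t, ht⟩ := Submodule.mem_span_singleton.1 (hp v (Submodule.mem_span_singleton_self v))
  rw [eich_apply he hea] at ht
  have hev' : polar Q e v ≠ 0 := by rwa [polar_comm]
  refine haS ?_
  have hae : polar Q e v • a =
      (t - 1) • v + (polar Q a v + Q a * polar Q e v) • e := by
    rw [sub_smul, one_smul, ht]
    module
  have ha' : a = (polar Q e v)⁻¹ • ((t - 1) • v + (polar Q a v + Q a * polar Q e v) • e) := by
    rw [← hae, inv_smul_smul₀ hev']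
  rw [ha']
  exact Submodule.smul_mem _ _ (add_mem
    (Submodule.mem_sup_right (Submodule.smul_mem _ _ (Submodule.mem_span_singleton_self v)))
    (Submodule.mem_sup_left (Submodule.smul_mem _ _ (Submodule.mem_span_singleton_self e))))

theorem commutator_le_of_point (hQ : (polarBilin Q).Nondegenerate) (h2 : (2 : F) = 0)
    (hn : 9 ≤ Module.finrank F V) {v : V} (hv : Q v ≠ 0) {M : Subgroup (orth Q)}
    (hM : ∀ g ∈ commutator (orth Q), Preserves (Submodule.span F {v}) g → g ∈ M)
    {g : orth Q} (hg : g ∈ M) (hgv : ¬ Preserves (Submodule.span F {v}) g) :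
    commutator (orth Q) ≤ M := by
  set u := (g : V ≃ₗ[F] V) v with hu
  have huv : u ∉ Submodule.span F {v} := by
    intro hm
    refine hgv fun x hx => ?_
    obtain ⟨t, rfl⟩ := Submodule.mem_span_singleton.1 hx
    rw [map_smul]
    exact Submodule.smul_mem _ _ hm
  have hroot : ∀ e a, Q e = 0 → polar Q v e = 0 → polar Q v a = 0 → polar Q e a = 0 →
      RootIn M e a := by
    intro e a he hve hva hea
    refine ⟨he, hea, hM _ (eich_mem_commutator hQ (by omega) e a) fun x hx => ?_⟩
    obtain ⟨t, rfl⟩ := Submodule.mem_span_singleton.1 hx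
    rw [map_smul, eich_fix he hea (by rw [polar_comm]; exact hve) (by rw [polar_comm]; exact hva)]
    exact Submodule.smul_mem _ _ (Submodule.mem_span_singleton_self v)
  have hroot' : ∀ p b, Q p = 0 → polar Q u p = 0 → polar Q u b = 0 → polar Q p b = 0 →
      RootIn M p b := by
    intro p b hp hup hub hpb
    have h := (hroot (((g⁻¹ : orth Q) : V ≃ₗ[F] V) p) (((g⁻¹ : orth Q) : V ≃ₗ[F] V) b)
      (by rw [orth_map, hp]) (by rw [← orth_polar g, orth_apply_inv_apply, ← hu, hup])
      (by rw [← orth_polar g, orth_apply_inv_apply, ← hu, hub])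
      (by rw [orth_polar, hpb])).conj hg
    rwa [orth_apply_inv_apply, orth_apply_inv_apply] at h
  -- a singular point orthogonal to `u` but not to `v`
  have hdim1 : ∀ x : V, Module.finrank F (Submodule.span F {x}) ≤ 1 := fun z => by
    simpa using finrank_span_le_card ({z} : Set V)
  have hdp : ∀ U : Submodule F V, Module.finrank F (perp Q U) + Module.finrank F U = Module.finrank F V :=
    fun U => finrank_perp_add hQ U
  obtain ⟨p, hpu, hp, hvp⟩ : ∃ p ∈ perp Q (Submodule.span F {u}), Q p = 0 ∧ polar Q v p ≠ 0 := by
    refine exists_singular_polar_ne ?_ (exists_polar_ne_of_not_le fun hle => huv ?_)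
    · have := finrank_rad_perp_le hQ (Submodule.span F {u})
      have := hdp (Submodule.span F {u}); have := hdim1 u
      omega
    · have h := perp_anti (Q := Q) hle
      rw [perp_perp hQ, perp_perp hQ] at h
      obtain ⟨t, ht⟩ := Submodule.mem_span_singleton.1 (h (Submodule.mem_span_singleton_self v))
      have hv0 : v ≠ 0 := fun h => hv (by rw [h, QuadraticMap.map_zero])
      have ht0 : t ≠ 0 := by rintro rfl; rw [zero_smul] at ht; exact hv0 ht.symm
      exact Submodule.mem_span_singleton.2 ⟨t⁻¹, by rw [← ht, inv_smul_smul₀ ht0]⟩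
  have hup : polar Q u p = 0 := mem_perp_span.1 hpu
  have hfull : ∀ e, Q e = 0 → polar Q v e = 0 → polar Q p e = 0 → FullRoot M e := by
    intro e he hve hpe
    refine ⟨he, fun a' ha' => ?_⟩
    set S₁ := perp Q (Submodule.span F {e} ⊔ (Submodule.span F {v} ⊔ Submodule.span F {p})) with hS₁
    set T := perp Q (Submodule.span F {e} ⊔ (Submodule.span F {u} ⊔ Submodule.span F {p})) with hT
    obtain ⟨a, ha, b, hb, hab⟩ : ∃ a ∈ S₁, ∃ b ∈ T, polar Q a b ≠ 0 := by
      by_contra hc
      push Not at hc
      have hle : T ≤ perp Q S₁ := fun b hb => mem_perp.2 fun a ha => hc a ha b hb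
      rw [hS₁, perp_perp hQ] at hle
      have h3 : ∀ x y z : V, Module.finrank F
          ↥(Submodule.span F {x} ⊔ (Submodule.span F {y} ⊔ Submodule.span F {z})) ≤ 3 := fun x y z => by
        refine (Submodule.finrank_add_le_finrank_add_finrank _ _).trans ?_
        have := hdim1 x; have := finrank_span_pair_le (F := F) y z
        omega
      have := Submodule.finrank_mono hle
      have := h3 e v p
      have := h3 e u p
      have := hdp (Submodule.span F {e} ⊔ (Submodule.span F {u} ⊔ Submodule.span F {p}))
      rw [← hT] at this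
      omega
    simp only [hS₁, hT, perp_sup, Submodule.mem_inf, mem_perp_span] at ha hb
    obtain ⟨hea, hva, hpa⟩ := ha
    obtain ⟨heb, hub, hpb⟩ := hb
    have hC : ∀ t : F, RootIn M e (t • p) := by
      intro t
      set s := t * (polar Q a b)⁻¹
      have hx := hroot' p (s • b) hp hup (by rw [polar_smul_right, hub, smul_zero])
        (by rw [polar_smul_right, hpb, smul_zero])
      have h := (hroot e a he hve hva hea).conj hx.2.2
      rw [eich_fix hp hx.2.1 hpe (by rw [polar_smul_left, polar_comm (⇑Q) b e, heb, smul_zero]),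
        eich_apply hp hx.2.1, hpa, polar_smul_left, polar_comm (⇑Q) b a] at h
      have h' := (hroot e a he hve hva hea).sub h
      convert h' using 1
      simp only [zero_smul, add_zero, mul_zero, sub_zero, smul_eq_mul, sub_sub_cancel, s]
      rw [mul_assoc, inv_mul_cancel₀ hab, mul_one]
    set c := polar Q v a' / polar Q v p
    have h1 : RootIn M e (a' - c • p) := hroot e _ he hve
      (by rw [polar_sub_right, polar_smul_right, smul_eq_mul, div_mul_cancel₀ _ hvp, sub_self])
      (by rw [polar_sub_right, polar_smul_right, ha', polar_comm (⇑Q) e p, hpe, smul_zero, sub_zero])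
    have h := h1.add (hC c)
    rw [sub_add_cancel] at h
    exact h.2.2
  obtain ⟨e, he, f, hf, hef⟩ := exists_hypPair_mem (Q := Q)
    (S := perp Q (Submodule.span F {v} ⊔ Submodule.span F {p})) (by
      have := finrank_rad_perp_le hQ (Submodule.span F {v} ⊔ Submodule.span F {p})
      have := finrank_span_pair_le (F := F) v p
      have := hdp (Submodule.span F {v} ⊔ Submodule.span F {p})
      omega)
  simp only [perp_sup, Submodule.mem_inf, mem_perp_span] at he hf
  exact commutator_le_of_fullRoot hQ (by omega) (hfull e hef.left he.1 he.2)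
    (hfull f hef.right hf.1 hf.2) (by rw [hef.pair]; exact one_ne_zero)

end Cfsg.Agent.H5
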